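import Cfsg.Agent.H4.FF

/-!
# Failure of factorization: transvections and the factors `SL(2, p)`
-/

set_option autoImplicit false

namespace Cfsg.Agent.H4

open Subgroup
open H7 (SN)
open scoped commutatorElement MatrixGroups

variable {G : Type*} [Group G] {p : ℕ} [hp : Fact p.Prime] {V H F : Subgroup G} {a b : G}

namespace Tv

theorem ne_one (t : Tv p V H a) : a ≠ 1 := by
  rintro rfl
  have := t.card
  rw [zpowers_one_eq_bot, commutator_bot_right, card_bot] at this
  exact hp.out.one_lt.ne this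

theorem card_zpowers (t : Tv p V H a) : Nat.card (zpowers a) = p := by
  rw [Nat.card_zpowers, orderOf_eq_prime t.pow t.ne_one]

omit hp in
theorem isPGroup (t : Tv p V H a) : IsPGroup p (zpowers a) := EA.isPGroup (EA.zpowers t.pow)

omit hp in
theorem le (t : Tv p V H a) : zpowers a ≤ H := zpowers_le.2 t.mem

theorem quadratic [Finite G] (t : Tv p V H a) : ⁅⁅V, zpowers a⁆, zpowers a⁆ = ⊥ :=
  commutator_eq_bot_iff_le_centralizer'.2
    (le_centralizer_of_card_eq_prime t.card t.isPGroup (normalizer_commutator_ge_right _ _))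

omit hp in
theorem conj (t : Tv p V H a) (hHV : H ≤ normalizer (V : Set G)) {g : G} (hg : g ∈ H) :
    Tv p V H (g * a * g⁻¹) := by
  refine ⟨mul_mem (mul_mem hg t.mem) (inv_mem hg), by rw [conj_pow, t.pow, mul_one, mul_inv_cancel],
    ?_⟩
  rw [← cj_zpowers, ← cj_commutator_of_mem_normalizer (hHV hg), H8.card_cj, t.card]

end Tv

omit hp in
theorem commutator_sup_le_closure_conj (F : Subgroup G) (a : G) :
    ⁅F, zpowers a⁆ ⊔ zpowers a ≤ closure {g | ∃ y ∈ F, y * a * y⁻¹ = g} := by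
  have key : ∀ y ∈ F, ∀ c ∈ zpowers a, y * c * y⁻¹ ∈ closure {g | ∃ y ∈ F, y * a * y⁻¹ = g} := by
    rintro y hy _ ⟨k, rfl⟩
    rw [← conj_zpow]
    exact zpow_mem (Subgroup.subset_closure (show y * a * y⁻¹ ∈ {g | ∃ y ∈ F, y * a * y⁻¹ = g} from
      ⟨y, hy, rfl⟩)) k
  have key1 : zpowers a ≤ closure {g | ∃ y ∈ F, y * a * y⁻¹ = g} := fun c hc => by
    simpa using key 1 F.one_mem c hc
  refine sup_le (commutator_le.2 fun y hy c hc => ?_) key1
  rw [commutatorElement_def]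
  exact mul_mem (key y hy c hc) (inv_mem (key1 hc))

omit hp in
theorem conj_mem_commutator_sup {Q : Subgroup G} {y : G} (hy : y ∈ Q) (a : G) :
    y * a * y⁻¹ ∈ ⁅Q, zpowers a⁆ ⊔ zpowers a := by
  have : y * a * y⁻¹ = ⁅y, a⁆ * a := by rw [commutatorElement_def]; group
  rw [this]
  exact mul_mem (mem_sup_left (commutator_mem_commutator hy (mem_zpowers a)))
    (mem_sup_right (mem_zpowers a))

omit hp in
theorem closure_eq_iSup_zpowers (s : Set G) : closure s = ⨆ x : s, zpowers (x : G) :=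
  le_antisymm ((closure_le _).2 fun x hx =>
    le_iSup (fun x : s => zpowers (x : G)) ⟨x, hx⟩ (mem_zpowers x))
    (iSup_le fun x => zpowers_le.2 (subset_closure x.2))

variable [Finite G]

theorem isMulCommutative_sylow_two (hp2 : p ≠ 2) {Q : Subgroup G} (hQ : IsMulCommutative Q)
    (hn : a ∈ normalizer (Q : Set G)) (ha : a ^ p = 1) (T : Sylow 2 ↥(Q ⊔ zpowers a)) :
    IsMulCommutative T := by
  have h1 : (T : Subgroup ↥(Q ⊔ zpowers a)).map (Q ⊔ zpowers a).subtype ≤ Q := by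
    refine L0.le_of_le_sup_of_coprime (zpowers_le.2 hn) (map_subtype_le _) ?_
    obtain ⟨k, hk⟩ := T.isPGroup'.exists_card_eq
    rw [L0.card_map_subtype, hk, Nat.card_zpowers]
    exact Nat.Coprime.coprime_dvd_right (orderOf_dvd_of_pow_eq_one ha)
      (Nat.Coprime.pow_left _ ((Nat.coprime_primes Nat.prime_two hp.out).2 hp2.symm))
  change IsMulCommutative (T : Subgroup ↥(Q ⊔ zpowers a))
  rw [isMulCommutative_iff_forall] at hQ ⊢
  intro x hx y hy
  exact Subtype.ext (hQ _ (h1 ⟨x, hx, rfl⟩) _ (h1 ⟨y, hy, rfl⟩))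

namespace FF

omit [Finite G] in
theorem card_pair (h : FF p V H F) (ta : Tv p V H a) (tb : Tv p V H b)
    (hne : ⁅V, zpowers a⁆ ≠ ⁅V, zpowers b⁆) :
    Nat.card ↥⁅V, zpowers a ⊔ zpowers b⁆ = p ^ 2 := by
  rw [commutator_sup_right (ta.le.trans h.norm) (tb.le.trans h.norm)]
  exact card_sup_of_card_prime h.ea.1 (commutator_le_of_le_normalizer (ta.le.trans h.norm))
    (commutator_le_of_le_normalizer (tb.le.trans h.norm)) ta.card tb.card hne

theorem exists_hom_pair (h : FF p V H F) (ta : Tv p V H a) (tb : Tv p V H b)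
    (hne : ⁅V, zpowers a⁆ ≠ ⁅V, zpowers b⁆) {W : Subgroup G}
    (hW : W = ⁅V, zpowers a ⊔ zpowers b⁆) (ha : a ∉ centralizer (W : Set G))
    (hb : b ∉ centralizer (W : Set G)) {L : Subgroup G}
    (hL : L ≤ closure {g | g ∈ normalizer (W : Set G) ∧ ⁅⁅V, zpowers g⁆, zpowers g⁆ = ⊥})
    (haL : a ∈ L) (hbL : b ∈ L) :
    ∃ φ : L →* SL(2, ZMod p), (∀ g : L, φ g = 1 ↔ (g : G) ∈ centralizer (W : Set G)) ∧
      ∀ M, ∃ g : L, (g : G) ∈ zpowers a ⊔ zpowers b ∧ φ g = M := by
  have hWV : W ≤ V := hW ▸ commutator_le_of_le_normalizer ((sup_le ta.le tb.le).trans h.norm)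
  rw [commutator_sup_right (ta.le.trans h.norm) (tb.le.trans h.norm)] at hW
  obtain ⟨u, hu1, -, hu⟩ := exists_zpowers_eq_of_card_prime ta.card
  obtain ⟨v, hv1, -, hv⟩ := exists_zpowers_eq_of_card_prime tb.card
  have hpl : IsPlane p W u v := ⟨EA.mono h.ea hWV, by rw [hu, hv, hW],
    by rw [hu, hv]; exact inf_eq_bot_of_card_prime ta.card tb.card hne, hu1, hv1⟩
  obtain ⟨φ, h1, x, y, hx, hy, h2, h3⟩ := hpl.exists_hom_up_lo (fun g hg => hg.1)
    (fun g hg => quadratic_mono hWV le_rfl hg.2) hL haL hbL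
    (by
      rw [← mem_bot, ← ta.quadratic]
      exact commutator_mem_commutator (hu ▸ mem_zpowers u) (mem_zpowers a))
    (hu ▸ commutator_mem_commutator (hWV hpl.v_mem) (mem_zpowers a))
    (by
      rw [← mem_bot, ← tb.quadratic]
      exact commutator_mem_commutator (hv ▸ mem_zpowers v) (mem_zpowers b))
    (hv ▸ commutator_mem_commutator (hWV hpl.u_mem) (mem_zpowers b)) ha hb
  refine ⟨φ, h1, fun M => ?_⟩
  have : M ∈ ((zpowers a ⊔ zpowers b).subgroupOf L).map φ := by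
    refine (SL2.closure_up_lo_zmod hx hy).ge.trans ((closure_le _).2 ?_) (mem_top M)
    rintro _ (rfl | rfl)
    · exact ⟨_, mem_sup_left (mem_zpowers a), h2⟩
    · exact ⟨_, mem_sup_right (mem_zpowers b), h3⟩
  exact this

omit hp [Finite G] in
theorem commutatorElement_mem (h : FF p V H F) (ta : Tv p V H a) {x : G} (hx : x ∈ F) :
    a * (x * a * x⁻¹)⁻¹ ∈ F := by
  have : a * (x * a * x⁻¹)⁻¹ = (a * x * a⁻¹) * x⁻¹ := by group
  rw [this]
  exact mul_mem (H8.conj_mem_of_le_normalizer h.normal ta.mem hx) (inv_mem hx)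

omit hp [Finite G] in
theorem commutatorElement_ne_one {x : G} (hxa : x ∉ centralizer (zpowers a : Set G)) :
    a * (x * a * x⁻¹)⁻¹ ≠ 1 := by
  intro h
  apply hxa
  rw [H8.centralizer_zpowers, mem_centralizer_singleton_iff]
  rw [mul_inv_eq_one, eq_mul_inv_iff_mul_eq] at h
  exact h.symm

theorem not_isPGroup_pair (h : FF p V H F) (ta : Tv p V H a) {x : G} (hx : x ∈ F)
    (hxa : x ∉ centralizer (zpowers a : Set G)) :
    ¬ IsPGroup p ↥(zpowers a ⊔ zpowers (x * a * x⁻¹)) := by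
  intro h1
  apply commutatorElement_ne_one hxa
  rw [← mem_bot, ← h.inf_eq_bot h1]
  exact ⟨Subgroup.mul_mem _ (mem_sup_left (mem_zpowers _))
    (Subgroup.inv_mem _ (mem_sup_right (mem_zpowers _))), h.commutatorElement_mem ta hx⟩

theorem commutator_ne_conj (h : FF p V H F) (ta : Tv p V H a) {x : G} (hx : x ∈ F)
    (hxa : x ∉ centralizer (zpowers a : Set G)) :
    ⁅V, zpowers a⁆ ≠ ⁅V, zpowers (x * a * x⁻¹)⁆ := by
  intro he
  have tb := ta.conj h.norm (h.le hx)
  refine h.not_isPGroup_pair ta hx hxa (EA.isPGroup (h.ea_of_quadratic (sup_le ta.le tb.le) ?_))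
  rw [commutator_sup_right (ta.le.trans h.norm) (tb.le.trans h.norm), ← he, sup_idem,
    commutator_eq_bot_iff_le_centralizer']
  refine sup_le (commutator_eq_bot_iff_le_centralizer'.1 ta.quadratic) ?_
  rw [he]
  exact commutator_eq_bot_iff_le_centralizer'.1 tb.quadratic

theorem le_of_isPGroup (h : FF p V H F) {A N : Subgroup G} (hA : IsPGroup p A) (hAH : A ≤ H)
    (hN : IsPGroup p N) (hn : A ≤ normalizer (N : Set G)) (hle : N ≤ A ⊔ F) : N ≤ A := by
  have h1 : IsPGroup p ↥(A ⊔ N) := IsPGroup.to_sup_of_normal_right' hA hN hn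
  have h2 := H7.inf_sup_assoc_of_normalizes (B := F) (le_sup_left : A ≤ A ⊔ N)
    (Or.inl (hAH.trans h.normal))
  rw [inf_comm F, h.inf_eq_bot h1, sup_bot_eq, inf_eq_right.2 (sup_le le_sup_left hle)] at h2
  exact le_sup_right.trans h2.le

omit hp [Finite G] in
theorem isPGroup_inf_centralizer (h : FF p V H F) {L : Subgroup G} (hL : L ≤ H) :
    IsPGroup p ↥(L ⊓ centralizer ((⁅V, L⁆ : Subgroup G) : Set G)) :=
  EA.isPGroup (h.ea_of_quadratic (inf_le_left.trans hL) (commutator_eq_bot_iff_le_centralizer'.2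
    (inf_le_right.trans (centralizer_anti (commutator_mono le_rfl inf_le_left)))))

theorem faithful_pair (h : FF p V H F) (ta : Tv p V H a) {x : G} (hx : x ∈ F)
    (hxa : x ∉ centralizer (zpowers a : Set G)) :
    (zpowers a ⊔ zpowers (x * a * x⁻¹)) ⊓
      centralizer ((⁅V, zpowers a ⊔ zpowers (x * a * x⁻¹)⁆ : Subgroup G) : Set G) = ⊥ := by
  have tb := ta.conj h.norm (h.le hx)
  have hab := h.commutatorElement_mem ta hx
  have hne := h.commutator_ne_conj ta hx hxa
  generalize x * a * x⁻¹ = b at tb hab hne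
  have hN := h.isPGroup_inf_centralizer (sup_le ta.le tb.le)
  have hn : zpowers a ⊔ zpowers b ≤ normalizer (((zpowers a ⊔ zpowers b) ⊓
      centralizer ((⁅V, zpowers a ⊔ zpowers b⁆ : Subgroup G) : Set G) : Subgroup G) : Set G) :=
    H8.le_normalizer_inf le_normalizer
      (H8.le_normalizer_centralizer (normalizer_commutator_ge_right _ _))
  have h1 := h.le_of_isPGroup ta.isPGroup ta.le hN (le_sup_left.trans hn)
    (inf_le_left.trans (sup_le le_sup_left (zpowers_le.2 (by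
      have : b = (a * b⁻¹)⁻¹ * a := by group
      rw [this]
      exact mul_mem (inv_mem (mem_sup_right hab)) (mem_sup_left (mem_zpowers _))))))
  have h2 := h.le_of_isPGroup tb.isPGroup tb.le hN (le_sup_right.trans hn)
    (inf_le_left.trans (sup_le (zpowers_le.2 (by
      have : a = (a * b⁻¹) * b := by group
      rw [this]
      exact mul_mem (mem_sup_right hab) (mem_sup_left (mem_zpowers _)))) le_sup_left))
  rw [eq_bot_iff, ← inf_eq_bot_of_card_prime ta.card_zpowers tb.card_zpowers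
    (fun he => hne (by rw [he]))]
  exact le_inf h1 h2

theorem exists_hom_conj (h : FF p V H F) (ta : Tv p V H a) {x : G} (hx : x ∈ F)
    (hxa : x ∉ centralizer (zpowers a : Set G)) {W : Subgroup G}
    (hW : W = ⁅V, zpowers a ⊔ zpowers (x * a * x⁻¹)⁆) {L : Subgroup G}
    (hL : L ≤ closure {g | g ∈ normalizer (W : Set G) ∧ ⁅⁅V, zpowers g⁆, zpowers g⁆ = ⊥})
    (hEL : zpowers a ⊔ zpowers (x * a * x⁻¹) ≤ L) :
    ∃ φ : L →* SL(2, ZMod p), (∀ g : L, φ g = 1 ↔ (g : G) ∈ centralizer (W : Set G)) ∧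
      ∀ M, ∃ g : L, (g : G) ∈ zpowers a ⊔ zpowers (x * a * x⁻¹) ∧ φ g = M := by
  have tb := ta.conj h.norm (h.le hx)
  have hf := h.faithful_pair ta hx hxa
  rw [← hW] at hf
  refine h.exists_hom_pair ta tb (h.commutator_ne_conj ta hx hxa) hW (fun h1 => ta.ne_one ?_)
    (fun h1 => tb.ne_one ?_) hL (hEL (mem_sup_left (mem_zpowers _)))
    (hEL (mem_sup_right (mem_zpowers _)))
  · rw [← mem_bot, ← hf]
    exact ⟨mem_sup_left (mem_zpowers _), h1⟩
  · rw [← mem_bot, ← hf]
    exact ⟨mem_sup_right (mem_zpowers _), h1⟩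

/-- A faithful group generated by quadratic elements normalizing the plane is the `SL(2, p)`. -/
theorem le_pair_of_faithful (h : FF p V H F) (ta : Tv p V H a) {x : G} (hx : x ∈ F)
    (hxa : x ∉ centralizer (zpowers a : Set G)) {W : Subgroup G}
    (hW : W = ⁅V, zpowers a ⊔ zpowers (x * a * x⁻¹)⁆) {L : Subgroup G}
    (hL : L ≤ closure {g | g ∈ normalizer (W : Set G) ∧ ⁅⁅V, zpowers g⁆, zpowers g⁆ = ⊥})
    (hEL : zpowers a ⊔ zpowers (x * a * x⁻¹) ≤ L) (hf : L ⊓ centralizer (W : Set G) = ⊥) :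
    L = zpowers a ⊔ zpowers (x * a * x⁻¹) ∧ Nonempty (L ≃* SL(2, ZMod p)) := by
  obtain ⟨φ, h1, h2⟩ := h.exists_hom_conj ta hx hxa hW hL hEL
  have hi : Function.Injective φ := by
    rw [injective_iff_map_eq_one]
    intro g hg
    apply Subtype.ext
    rw [OneMemClass.coe_one, ← mem_bot, ← hf]
    exact ⟨g.2, (h1 g).1 hg⟩
  refine ⟨le_antisymm (fun g hg => ?_) hEL, ⟨MulEquiv.ofBijective φ ⟨hi, fun M => ?_⟩⟩⟩
  · obtain ⟨e, he, he2⟩ := h2 (φ ⟨g, hg⟩)
    rwa [hi he2] at he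
  · obtain ⟨e, -, he⟩ := h2 M
    exact ⟨e, he⟩

theorem nonempty_equiv_pair (h : FF p V H F) (ta : Tv p V H a) {x : G} (hx : x ∈ F)
    (hxa : x ∉ centralizer (zpowers a : Set G)) :
    Nonempty (↥(zpowers a ⊔ zpowers (x * a * x⁻¹)) ≃* SL(2, ZMod p)) := by
  refine (h.le_pair_of_faithful ta hx hxa rfl (sup_le (zpowers_le.2 (subset_closure ⟨?_, ?_⟩))
    (zpowers_le.2 (subset_closure ⟨?_, ?_⟩))) le_rfl (h.faithful_pair ta hx hxa)).2
  · exact normalizer_commutator_ge_right _ _ (mem_sup_left (mem_zpowers _))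
  · exact ta.quadratic
  · exact normalizer_commutator_ge_right _ _ (mem_sup_right (mem_zpowers _))
  · exact (ta.conj h.norm (h.le hx)).quadratic

theorem exists_not_mem_centralizer (h : FF p V H F) (ta : Tv p V H a) :
    ∃ x ∈ F, x ∉ centralizer (zpowers a : Set G) := by
  by_contra hcon
  push Not at hcon
  exact ta.ne_one (zpowers_eq_bot.1
    (h.eq_bot_of_le_centralizer ta.isPGroup ta.le (le_centralizer_iff.1 hcon)))

theorem two_or_three (h : FF p V H F) (ta : Tv p V H a) : p = 2 ∨ p = 3 := by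
  by_cases hp2 : p = 2
  · exact Or.inl hp2
  obtain ⟨x, hx, hxa⟩ := h.exists_not_mem_centralizer ta
  have hn : (F.subgroupOf H).Normal := normal_subgroupOf_of_le_normalizer h.normal
  refine Or.inr (three_of_quadratic_conj hp2 h.ea H.subtype (fun g => h.norm g.2)
    (a := ⟨a, ta.mem⟩) ta.quadratic (O := ⊥) (Q := F.subgroupOf H)
    (fun g hg => ⟨0, by rw [mem_bot.1 hg, map_one, one_pow]; exact one_mem _⟩)
    (fun g hg => by
      have : (g : G) ∈ H ⊓ centralizer (V : Set G) := ⟨g.2, hg⟩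
      rw [h.faithful] at this
      exact Subtype.ext this) h.coprime
    (fun y hy => Subtype.ext (show (y : G) ^ Nat.card F = 1 from
      congrArg Subtype.val (pow_card_eq_one' (x := (⟨y, hy⟩ : F)))))
    (x := ⟨x, h.le hx⟩) hx (fun h1 => hxa ?_)).1
  rw [mem_bot, commutatorElement_eq_one_iff_mul_comm] at h1
  rw [H8.centralizer_zpowers]
  exact mem_centralizer_singleton_iff.2 (congrArg Subtype.val h1).symm

theorem not_comm (h : FF p V H F) (ta : Tv p V H a) (hp2 : p ≠ 2) {Q : Subgroup G} (hQ : Q ≤ F)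
    (hn : a ∈ normalizer (Q : Set G)) (hc : ¬ Q ≤ centralizer (zpowers a : Set G)) :
    ¬ IsMulCommutative Q := by
  intro hQc
  obtain ⟨x, hx, hxa⟩ := SetLike.not_le_iff_exists.1 hc
  have haL : a ∈ Q ⊔ zpowers a := mem_sup_right (mem_zpowers a)
  have hbL : x * a * x⁻¹ ∈ Q ⊔ zpowers a :=
    mul_mem (mul_mem (mem_sup_left hx) haL) (inv_mem (mem_sup_left hx))
  have hLH : Q ⊔ zpowers a ≤ H := sup_le (hQ.trans h.le) ta.le
  obtain ⟨T⟩ : Nonempty (Sylow 2 ↥(Q ⊔ zpowers a)) := inferInstance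
  refine sylow_two_not_comm_of_quadratic_pair hp2 h.ea (Q ⊔ zpowers a).subtype
    (fun g => h.norm (hLH g.2)) (a := ⟨a, haL⟩) (b := ⟨_, hbL⟩) ta.quadratic
    (ta.conj h.norm (h.le (hQ hx))).quadratic (fun h1 => ?_) T
    (isMulCommutative_sylow_two hp2 hQc hn ta.pow T)
  obtain ⟨n, h2⟩ := h1 (⟨a, haL⟩ * (⟨_, hbL⟩ : ↥(Q ⊔ zpowers a))⁻¹)
    (mul_mem (subset_closure (by simp)) (inv_mem (subset_closure (by simp))))
  have h3 : (a * (x * a * x⁻¹)⁻¹) ^ p ^ n ∈ H ⊓ centralizer (V : Set G) :=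
    ⟨pow_mem (hLH (mul_mem haL (inv_mem hbL))) _, h2⟩
  rw [h.faithful, mem_bot] at h3
  apply commutatorElement_ne_one hxa
  rw [← mem_bot, ← h.inf_eq_bot (P := zpowers (a * (x * a * x⁻¹)⁻¹))
    (IsPGroup.iff_card.2 (by
      rw [Nat.card_zpowers]
      obtain ⟨k, -, hk⟩ := (Nat.dvd_prime_pow hp.out).1 (orderOf_dvd_of_pow_eq_one h3)
      exact ⟨k, hk⟩))]
  exact ⟨mem_zpowers _, h.commutatorElement_mem ta (hQ hx)⟩

theorem isPGroup_commutator (h : FF p V H F) (ta : Tv p V H a) {q : ℕ} [hq : Fact q.Prime]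
    (hpq : (p = 2 ∧ q = 3) ∨ (p = 3 ∧ q = 2)) : IsPGroup q ↥⁅F, zpowers a⁆ := by
  have hcop := h.copAct ta.le ta.isPGroup
  have key : ∀ {d : ℕ}, d.Prime → d ∣ (F ⊓ centralizer (zpowers a : Set G)).relIndex F → d = q := by
    intro d hd hdvd
    have := Fact.mk hd
    obtain ⟨D, hD, hDa⟩ := hcop.exists_invariant_sylow d
    have h1 : ¬ D ≤ centralizer (zpowers a : Set G) := fun h1 =>
      hD.not_dvd_relIndex (hdvd.trans (relIndex_dvd_of_le_left F (le_inf hD.le h1)))
    obtain ⟨x, hx, hxa⟩ := SetLike.not_le_iff_exists.1 h1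
    have h2 : a * (x * a * x⁻¹)⁻¹ ∈ D := by
      have : a * (x * a * x⁻¹)⁻¹ = (a * x * a⁻¹) * x⁻¹ := by group
      rw [this]
      exact mul_mem (H8.conj_mem_of_le_normalizer hDa (mem_zpowers a) hx) (inv_mem hx)
    obtain ⟨n, hn⟩ := H5.IsPGroup_pow_eq_one hD.pgroup h2
    obtain ⟨k, -, hk⟩ := (Nat.dvd_prime_pow hd).1 (orderOf_dvd_of_pow_eq_one hn)
    have h3 : d ∣ orderOf (a * (x * a * x⁻¹)⁻¹) := by
      rw [hk]
      refine dvd_pow_self d ?_
      rintro rfl
      rw [pow_zero, orderOf_eq_one_iff] at hk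
      exact commutatorElement_ne_one hxa hk
    obtain ⟨e⟩ := h.nonempty_equiv_pair ta (hD.le hx) hxa
    have h4 : d ∣ Nat.card SL(2, ZMod p) := by
      rw [← Nat.card_congr e.toEquiv]
      exact h3.trans (orderOf_dvd_natCard _ (mul_mem (mem_sup_left (mem_zpowers _))
        (inv_mem (mem_sup_right (mem_zpowers _)))))
    have h5 : d ≠ p := by
      rintro rfl
      exact h.coprime (h3.trans (orderOf_dvd_natCard _ (hD.le h2)))
    rcases hpq with ⟨rfl, rfl⟩ | ⟨rfl, rfl⟩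
    · rw [card_SL2_two] at h4
      rcases (Nat.Prime.dvd_mul hd).1 (show d ∣ 2 * 3 from h4) with h6 | h6
      · exact absurd ((Nat.prime_dvd_prime_iff_eq hd Nat.prime_two).1 h6) h5
      · exact (Nat.prime_dvd_prime_iff_eq hd Nat.prime_three).1 h6
    · rw [card_SL2_three] at h4
      rcases (Nat.Prime.dvd_mul hd).1 (show d ∣ 2 ^ 3 * 3 from h4) with h6 | h6
      · exact (Nat.prime_dvd_prime_iff_eq hd Nat.prime_two).1 (hd.dvd_of_dvd_pow h6)
      · exact absurd ((Nat.prime_dvd_prime_iff_eq hd Nat.prime_three).1 h6) h5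
  have hne : (F ⊓ centralizer (zpowers a : Set G)).relIndex F ≠ 0 := index_ne_zero_of_finite
  have hk := Nat.eq_prime_pow_of_unique_prime_dvd hne key
  generalize (Nat.primeFactorsList _).length = k at hk
  obtain ⟨Q, hQ, hQa⟩ := hcop.exists_invariant_sylow q
  have hprod : H8.IsProd F Q (F ⊓ centralizer (zpowers a : Set G)) := by
    refine H8.isProd_of_card_le hQ.le inf_le_left ?_
    have h1 := H8.card_eq_of_relIndex inf_le_left hk
    have h2 := H8.card_le_of_pgroup_le (hQ.pgroup.to_le inf_le_left)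
      (inf_le_right : Q ⊓ (F ⊓ centralizer (zpowers a : Set G)) ≤ _)
    rw [hQ.card_eq, h1, Nat.factorization_mul Nat.card_pos.ne' (pow_ne_zero _ hq.out.ne_zero),
      Finsupp.add_apply, Nat.Prime.factorization_pow hq.out, Finsupp.single_eq_same, pow_add]
    calc _ ≤ Nat.card ↥(F ⊓ centralizer (zpowers a : Set G)) * q ^ k *
          q ^ (Nat.card ↥(F ⊓ centralizer (zpowers a : Set G))).factorization q :=
          Nat.mul_le_mul_left _ h2
      _ = _ := by ring
  refine hQ.pgroup.to_le (H8.commutator_le_of_forall_eq_mul hQa fun x hx => ?_)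
  obtain ⟨y, hy, c, hc, he⟩ := hprod x hx
  exact ⟨y, hy, c, hc.2, he⟩

theorem isNilpotent_commutator (h : FF p V H F) (ta : Tv p V H a) :
    Group.IsNilpotent ↥⁅F, zpowers a⁆ := by
  rcases h.two_or_three ta with h1 | h1
  · exact (h.isPGroup_commutator ta (q := 3) (Or.inl ⟨h1, rfl⟩)).isNilpotent
  · exact (h.isPGroup_commutator ta (q := 2) (Or.inr ⟨h1, rfl⟩)).isNilpotent

theorem not_commutator_le_centralizer (h : FF p V H F) (ta : Tv p V H a) :
    ¬ ⁅F, zpowers a⁆ ≤ centralizer (zpowers a : Set G) := by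
  intro h1
  obtain ⟨x, hx, hxa⟩ := h.exists_not_mem_centralizer ta
  exact hxa ((h.copAct ta.le ta.isPGroup).le_centralizer_of_commutator_le h1 le_rfl hx)

/-- Irreducibility of an `a`-invariant subgroup `Q` of `F` on the plane. -/
theorem irr (h : FF p V H F) (ta : Tv p V H a) {Q W : Subgroup G} (hQ : Q ≤ F)
    (hn : a ∈ normalizer (Q : Set G)) (hc : ¬ Q ≤ centralizer (zpowers a : Set G))
    (hW : W = ⁅V, Q ⊔ zpowers a⁆) (hcard : Nat.card W = p ^ 2)
    (hf : (Q ⊔ zpowers a) ⊓ centralizer (W : Set G) = ⊥) : ⁅V, Q⁆ = W ∧ IrrOn V Q := by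
  have hWV : W ≤ V := hW ▸ commutator_le_of_le_normalizer
    ((sup_le (hQ.trans h.le) ta.le).trans h.norm)
  have hLW : Q ⊔ zpowers a ≤ normalizer (W : Set G) := hW ▸ normalizer_commutator_ge_right _ _
  have hQ1 : Q ≠ ⊥ := by
    rintro rfl
    exact hc bot_le
  have hirr : ∀ U : Subgroup G, U ≤ W → Q ≤ normalizer (U : Set G) → U = ⊥ ∨ U = W := by
    intro U hU hQU
    by_contra hcon
    push Not at hcon
    have hUc : Nat.card U = p := by
      have h1 := card_dvd_of_le hU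
      rw [hcard] at h1
      obtain ⟨k, hk, h2⟩ := (Nat.dvd_prime_pow hp.out).1 h1
      interval_cases k
      · exact absurd (card_eq_one.1 h2) hcon.1
      · rw [h2, pow_one]
      · exact absurd (eq_of_le_of_card_ge hU (by rw [h2, hcard])) hcon.2
    have hsup : ∀ U' : Subgroup G, U' ≤ W → Nat.card U' = p → U ≠ U' → U ⊔ U' = W :=
      fun U' h1 h2 h3 => eq_of_le_of_card_ge (sup_le hU h1) (by
        rw [card_sup_of_card_prime h.ea.1 (hU.trans hWV) (h1.trans hWV) hUc h2 h3, hcard])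
    by_cases haU : a ∈ normalizer (U : Set G)
    · have h1 := le_centralizer_of_card_eq_prime hUc ta.isPGroup (zpowers_le.2 haU)
      have h2 : U = ⁅V, zpowers a⁆ := by
        by_contra h2
        apply ta.ne_one
        rw [← mem_bot, ← hf]
        refine ⟨mem_sup_right (mem_zpowers a), ?_⟩
        rw [← hsup _ (hW ▸ commutator_mono le_rfl le_sup_right) ta.card h2, centralizer_sup]
        exact ⟨h1 (mem_zpowers a),
          commutator_eq_bot_iff_le_centralizer'.1 ta.quadratic (mem_zpowers a)⟩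
      obtain ⟨x, hx, hxa⟩ := SetLike.not_le_iff_exists.1 hc
      apply h.commutator_ne_conj ta (hQ hx) hxa
      rw [← cj_zpowers, ← cj_commutator_of_mem_normalizer (h.norm (h.le (hQ hx))), ← h2,
        H8.cj_eq_self (hQU hx)]
    · have h1 := hsup (H8.cj a U) (H8.cj_le_of_mem_normalizer (hLW (mem_sup_right (mem_zpowers a)))
        hU) (by rw [H8.card_cj, hUc]) (fun h1 => haU (H8.cj_eq_self_iff.1 h1.symm))
      have hQU' := H8.le_normalizer_cj hQU hn
      by_cases hp2 : p = 2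
      · subst hp2
        apply hQ1
        rw [eq_bot_iff, ← hf, ← h1, centralizer_sup]
        exact le_inf le_sup_left (le_inf (hQU.trans (normalizer_le_centralizer_of_card_two hUc))
          (hQU'.trans (normalizer_le_centralizer_of_card_two (by rw [H8.card_cj, hUc]))))
      · refine h.not_comm ta hp2 hQ hn hc ?_
        obtain ⟨u, -, -, rfl⟩ := exists_zpowers_eq_of_card_prime hUc
        rw [cj_zpowers] at hQU' h1
        rw [← le_centralizer_iff_isMulCommutative, ← commutator_eq_bot_iff_le_centralizer,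
          eq_bot_iff, ← hf, ← h1, centralizer_sup]
        exact le_inf ((commutator_le_of_le_normalizer le_normalizer).trans le_sup_left)
          (le_inf ((commutator_mono hQU hQU).trans (commutator_normalizer_zpowers_le _))
          ((commutator_mono hQU' hQU').trans (commutator_normalizer_zpowers_le _)))
  have h1 : ⁅V, Q⁆ = W := (hirr _ (hW ▸ commutator_mono le_rfl le_sup_left)
    (normalizer_commutator_ge_right _ _)).resolve_left (h.commutator_ne_bot (hQ.trans h.le) hQ1)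
  refine ⟨h1, by rwa [h1], ?_, eq_bot_iff.2 (by rw [h1, ← hf]; exact inf_le_inf_right _ le_sup_left)⟩
  by_contra h2
  have h3 : Nat.card Q ≠ 1 := fun h3 => hQ1 (card_eq_one.1 h3)
  have h4 : 0 < Nat.card Q := Nat.card_pos
  exact hc (le_centralizer_iff.1 (zpowers_le.2
    (normalizer_le_centralizer_of_card_two (by omega) hn)))

theorem irr_pair (h : FF p V H F) (ta : Tv p V H a) {x : G} (hx : x ∈ F)
    (hxa : x ∉ centralizer (zpowers a : Set G)) :
    (zpowers a ⊔ zpowers (x * a * x⁻¹)) ⊓ F ≤ ⁅F, zpowers a⁆ ∧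
    ⁅V, (zpowers a ⊔ zpowers (x * a * x⁻¹)) ⊓ F⁆ = ⁅V, zpowers a ⊔ zpowers (x * a * x⁻¹)⁆ ∧
    IrrOn V ((zpowers a ⊔ zpowers (x * a * x⁻¹)) ⊓ F) := by
  have tb := ta.conj h.norm (h.le hx)
  have hb : zpowers a ⊔ zpowers (x * a * x⁻¹) ≤ ⁅F, zpowers a⁆ ⊔ zpowers a :=
    sup_le le_sup_right (zpowers_le.2 (conj_mem_commutator_sup hx a))
  have hFA : ⁅F, zpowers a⁆ ≤ F := commutator_le_of_le_normalizer (ta.le.trans h.normal)
  have h1 : (zpowers a ⊔ zpowers (x * a * x⁻¹)) ⊓ F ⊔ zpowers a =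
      zpowers a ⊔ zpowers (x * a * x⁻¹) := by
    rw [sup_comm, inf_comm, ← H7.inf_sup_assoc_of_normalizes le_sup_left
      (Or.inl (ta.le.trans h.normal)), inf_eq_right]
    exact hb.trans (sup_le (hFA.trans le_sup_right) le_sup_left)
  refine ⟨(inf_le_inf_right _ hb).trans ?_, h.irr ta inf_le_right
    (H8.le_normalizer_inf le_normalizer ((sup_le ta.le tb.le).trans h.normal)
      (mem_sup_left (mem_zpowers a))) (fun h2 => ?_) (by rw [h1])
    (h.card_pair ta tb (h.commutator_ne_conj ta hx hxa)) (by rw [h1]; exact h.faithful_pair ta hx hxa)⟩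
  · rw [H7.inf_sup_assoc_of_normalizes hFA (Or.inr (normalizer_commutator_ge_right _ _)),
      h.inf_eq_bot ta.isPGroup, sup_bot_eq]
  · refine h.not_isPGroup_pair ta hx hxa (EA.isPGroup (EA.sup (EA.zpowers ta.pow)
      (EA.zpowers tb.pow) (le_centralizer_iff.1 (le_sup_right.trans (h1.ge.trans
        (sup_le h2 (EA.le_centralizer (EA.zpowers ta.pow))))))))

theorem commutator_pair_eq (h : FF p V H F) (ta : Tv p V H a) {x y : G} (hx : x ∈ F)
    (hxa : x ∉ centralizer (zpowers a : Set G)) (hy : y ∈ F)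
    (hya : y ∉ centralizer (zpowers a : Set G)) :
    ⁅V, zpowers a ⊔ zpowers (x * a * x⁻¹)⁆ = ⁅V, zpowers a ⊔ zpowers (y * a * y⁻¹)⁆ := by
  obtain ⟨x1, x2, x3⟩ := h.irr_pair ta hx hxa
  obtain ⟨y1, y2, y3⟩ := h.irr_pair ta hy hya
  have cx := h.card_pair ta (ta.conj h.norm (h.le hx)) (h.commutator_ne_conj ta hx hxa)
  have cy := h.card_pair ta (ta.conj h.norm (h.le hy)) (h.commutator_ne_conj ta hy hya)
  have := h.isNilpotent_commutator ta
  by_contra hne
  have h1 := (subnormal_pair h.ea.1 (((commutator_le_of_le_normalizer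
    (ta.le.trans h.normal)).trans h.le).trans h.norm) (H7.SN.of_isNilpotent x1)
    (H7.SN.of_isNilpotent y1) x3 y3
    (by rw [x2, y2]; exact fun h1 => hne (eq_of_le_of_card_ge h1 (by rw [cx, cy])))
    (by rw [x2, y2]; exact fun h1 => hne (eq_of_le_of_card_ge h1 (by rw [cx, cy])).symm)).2.2
  rw [x2, y2] at h1
  refine h.commutator_ne_bot ta.le (fun h2 => ta.ne_one (zpowers_eq_bot.1 h2)) ?_
  rw [eq_bot_iff, ← h1]
  exact le_inf (commutator_mono le_rfl le_sup_left) (commutator_mono le_rfl le_sup_left)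

omit hp [Finite G] in
theorem fac_le (h : FF p V H F) (ta : Tv p V H a) : ⁅F, zpowers a⁆ ⊔ zpowers a ≤ H :=
  sup_le ((commutator_le_of_le_normalizer (ta.le.trans h.normal)).trans h.le) ta.le

omit hp [Finite G] in
theorem le_normalizer_fac (F : Subgroup G) (a : G) :
    F ≤ normalizer ((⁅F, zpowers a⁆ ⊔ zpowers a : Subgroup G) : Set G) := by
  rw [sup_comm, commutator_comm]
  exact le_normalizer_sup_commutator _ _

theorem commutator_fac_eq (h : FF p V H F) (ta : Tv p V H a) {x : G} (hx : x ∈ F)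
    (hxa : x ∉ centralizer (zpowers a : Set G)) :
    ⁅V, ⁅F, zpowers a⁆ ⊔ zpowers a⁆ = ⁅V, zpowers a ⊔ zpowers (x * a * x⁻¹)⁆ := by
  refine le_antisymm ?_ (commutator_mono le_rfl
    (sup_le le_sup_right (zpowers_le.2 (conj_mem_commutator_sup hx a))))
  refine (commutator_mono le_rfl (commutator_sup_le_closure_conj F a)).trans ?_
  rw [closure_eq_iSup_zpowers]
  refine commutator_iSup_right_le' (commutator_le_of_le_normalizer
    ((sup_le ta.le (ta.conj h.norm (h.le hx)).le).trans h.norm)) ?_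
  rintro ⟨_, y, hy, rfl⟩
  dsimp only
  by_cases hya : y ∈ centralizer (zpowers a : Set G)
  · rw [← mem_centralizer_iff.1 hya a (mem_zpowers a), mul_inv_cancel_right]
    exact commutator_mono le_rfl le_sup_left
  · rw [h.commutator_pair_eq ta hx hxa hy hya]
    exact commutator_mono le_rfl le_sup_right

theorem faithful_of_le (h : FF p V H F) {W L : Subgroup G} (hWV : W ≤ V)
    (hFW : F ≤ normalizer (W : Set G)) (hL : L ≤ H) (hVL : ⁅V, L⁆ ≤ W) :
    L ⊓ centralizer (W : Set G) = ⊥ := by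
  have h1 : H ⊓ commStab V W ⊓ centralizer (W : Set G) = ⊥ := by
    refine h.eq_bot_of_le_normalizer (EA.isPGroup (h.ea_of_quadratic (inf_le_left.trans inf_le_left)
      ?_)) (inf_le_left.trans inf_le_left) (H8.le_normalizer_inf (H8.le_normalizer_inf
        (h.le.trans le_normalizer) ((le_inf (h.le.trans h.norm) hFW).trans
          (normalizer_le_normalizer_commStab V W))) (H8.le_normalizer_centralizer hFW))
    rw [commutator_eq_bot_iff_le_centralizer']
    refine inf_le_right.trans (centralizer_anti ?_)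
    rw [commutator_comm]
    exact (le_commStab_iff.1 (inf_le_left.trans inf_le_right)).2
  rw [eq_bot_iff, ← h1]
  refine inf_le_inf_right _ (le_inf hL (le_commStab_iff.2
    ⟨le_normalizer_of_commutator_le hWV hVL, by rwa [commutator_comm]⟩))

omit hp [Finite G] in
theorem commutator_fac_le (h : FF p V H F) (ta : Tv p V H a) :
    ⁅V, ⁅F, zpowers a⁆ ⊔ zpowers a⁆ ≤ V :=
  commutator_le_of_le_normalizer ((h.fac_le ta).trans h.norm)

omit hp [Finite G] in
theorem le_normalizer_commutator_fac (h : FF p V H F) (a : G) :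
    F ≤ normalizer ((⁅V, ⁅F, zpowers a⁆ ⊔ zpowers a⁆ : Subgroup G) : Set G) :=
  H8.le_normalizer_commutator (h.le.trans h.norm) (le_normalizer_fac F a)

theorem faithful_fac (h : FF p V H F) (ta : Tv p V H a) : (⁅F, zpowers a⁆ ⊔ zpowers a) ⊓
    centralizer ((⁅V, ⁅F, zpowers a⁆ ⊔ zpowers a⁆ : Subgroup G) : Set G) = ⊥ :=
  h.faithful_of_le (h.commutator_fac_le ta) (h.le_normalizer_commutator_fac a) (h.fac_le ta) le_rfl

theorem card_commutator_fac (h : FF p V H F) (ta : Tv p V H a) :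
    Nat.card ↥⁅V, ⁅F, zpowers a⁆ ⊔ zpowers a⁆ = p ^ 2 := by
  obtain ⟨x, hx, hxa⟩ := h.exists_not_mem_centralizer ta
  rw [h.commutator_fac_eq ta hx hxa]
  exact h.card_pair ta (ta.conj h.norm (h.le hx)) (h.commutator_ne_conj ta hx hxa)

theorem fac_le_closure (h : FF p V H F) (ta : Tv p V H a) {W : Subgroup G} (hWV : W ≤ V)
    (hW : ⁅V, ⁅F, zpowers a⁆ ⊔ zpowers a⁆ ≤ W ∨
      ⁅F, zpowers a⁆ ⊔ zpowers a ≤ normalizer (W : Set G)) :
    ⁅F, zpowers a⁆ ⊔ zpowers a ≤
      closure {g | g ∈ normalizer (W : Set G) ∧ ⁅⁅V, zpowers g⁆, zpowers g⁆ = ⊥} := by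
  have h1 : ⁅F, zpowers a⁆ ⊔ zpowers a ≤ normalizer (W : Set G) :=
    hW.elim (le_normalizer_of_commutator_le hWV) id
  refine (commutator_sup_le_closure_conj F a).trans (closure_mono ?_)
  rintro _ ⟨y, hy, rfl⟩
  exact ⟨h1 (conj_mem_commutator_sup hy a), (ta.conj h.norm (h.le hy)).quadratic⟩

theorem fac_eq_pair (h : FF p V H F) (ta : Tv p V H a) {x : G} (hx : x ∈ F)
    (hxa : x ∉ centralizer (zpowers a : Set G)) :
    ⁅F, zpowers a⁆ ⊔ zpowers a = zpowers a ⊔ zpowers (x * a * x⁻¹) :=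
  (h.le_pair_of_faithful ta hx hxa (h.commutator_fac_eq ta hx hxa)
    (h.fac_le_closure ta (h.commutator_fac_le ta) (Or.inl le_rfl))
    (sup_le le_sup_right (zpowers_le.2 (conj_mem_commutator_sup hx a))) (h.faithful_fac ta)).1

theorem nonempty_equiv_fac (h : FF p V H F) (ta : Tv p V H a) :
    Nonempty (↥(⁅F, zpowers a⁆ ⊔ zpowers a) ≃* SL(2, ZMod p)) := by
  obtain ⟨x, hx, hxa⟩ := h.exists_not_mem_centralizer ta
  rw [h.fac_eq_pair ta hx hxa]
  exact h.nonempty_equiv_pair ta hx hxa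

theorem irr_fac (h : FF p V H F) (ta : Tv p V H a) :
    ⁅V, ⁅F, zpowers a⁆⁆ = ⁅V, ⁅F, zpowers a⁆ ⊔ zpowers a⁆ ∧ IrrOn V ⁅F, zpowers a⁆ :=
  h.irr ta (commutator_le_of_le_normalizer (ta.le.trans h.normal))
    (normalizer_commutator_ge_right _ _ (mem_zpowers a)) (h.not_commutator_le_centralizer ta) rfl
    (h.card_commutator_fac ta) (h.faithful_fac ta)

theorem commutator_fac_inf_eq_bot (h : FF p V H F) (ta : Tv p V H a) :
    ⁅V, ⁅F, zpowers a⁆ ⊔ zpowers a⁆ ⊓ centralizer ((⁅F, zpowers a⁆ : Subgroup G) : Set G) = ⊥ := by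
  rw [← (h.irr_fac ta).1]
  exact (h.copAct_V (commutator_le_of_le_normalizer
    (ta.le.trans h.normal))).commutator_inf_centralizer_eq_bot h.ea.1

theorem inf_centralizer_fac (h : FF p V H F) (ta : Tv p V H a) :
    V ⊓ centralizer ((⁅F, zpowers a⁆ : Subgroup G) : Set G) =
      V ⊓ centralizer ((⁅F, zpowers a⁆ ⊔ zpowers a : Subgroup G) : Set G) := by
  refine le_antisymm ?_ (inf_le_inf_left _ (centralizer_anti le_sup_left))
  rw [centralizer_sup]
  refine le_inf inf_le_left (le_inf inf_le_right ?_)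
  rw [← commutator_eq_bot_iff_le_centralizer, eq_bot_iff, ← h.commutator_fac_inf_eq_bot ta]
  refine le_inf (commutator_mono inf_le_left le_sup_right) (le_trans
    (commutator_le_of_le_normalizer (H8.le_normalizer_inf (ta.le.trans h.norm)
      (H8.le_normalizer_centralizer (normalizer_commutator_ge_right _ _)))) inf_le_right)

theorem commutator_fac_inf (h : FF p V H F) (ta : Tv p V H a) :
    ⁅V, ⁅F, zpowers a⁆ ⊔ zpowers a⁆ ⊓
      (V ⊓ centralizer ((⁅F, zpowers a⁆ ⊔ zpowers a : Subgroup G) : Set G)) = ⊥ := by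
  rw [eq_bot_iff, ← h.commutator_fac_inf_eq_bot ta]
  exact inf_le_inf_left _ (inf_le_right.trans (centralizer_anti le_sup_left))

theorem commutator_fac_sup (h : FF p V H F) (ta : Tv p V H a) :
    ⁅V, ⁅F, zpowers a⁆ ⊔ zpowers a⁆ ⊔
      (V ⊓ centralizer ((⁅F, zpowers a⁆ ⊔ zpowers a : Subgroup G) : Set G)) = V := by
  rw [← h.inf_centralizer_fac ta, ← (h.irr_fac ta).1]
  exact (h.copAct_V (commutator_le_of_le_normalizer
    (ta.le.trans h.normal))).commutator_sup_centralizer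

/-- Two factors coincide or centralize each other's plane. -/
theorem fac_eq_or (h : FF p V H F) (ta : Tv p V H a) (tb : Tv p V H b) :
    ⁅F, zpowers a⁆ ⊔ zpowers a = ⁅F, zpowers b⁆ ⊔ zpowers b ∨
    (⁅F, zpowers b⁆ ⊔ zpowers b ≤
      centralizer ((⁅V, ⁅F, zpowers a⁆ ⊔ zpowers a⁆ : Subgroup G) : Set G) ∧
    ⁅F, zpowers a⁆ ⊔ zpowers a ≤
      centralizer ((⁅V, ⁅F, zpowers b⁆ ⊔ zpowers b⁆ : Subgroup G) : Set G)) := by
  have key : ∀ {a b : G}, Tv p V H a → Tv p V H b → ⁅V, ⁅F, zpowers a⁆ ⊔ zpowers a⁆ =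
      ⁅V, ⁅F, zpowers b⁆ ⊔ zpowers b⁆ → ⁅F, zpowers b⁆ ⊔ zpowers b ≤ ⁅F, zpowers a⁆ ⊔ zpowers a := by
    intro a b ta tb he
    obtain ⟨x, hx, hxa⟩ := h.exists_not_mem_centralizer ta
    have h1 := (h.le_pair_of_faithful ta hx hxa (h.commutator_fac_eq ta hx hxa)
      (L := (⁅F, zpowers a⁆ ⊔ zpowers a) ⊔ (⁅F, zpowers b⁆ ⊔ zpowers b))
      (sup_le (h.fac_le_closure ta (h.commutator_fac_le ta) (Or.inl le_rfl))
        (h.fac_le_closure tb (h.commutator_fac_le ta) (Or.inl he.ge)))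
      ((h.fac_eq_pair ta hx hxa).ge.trans le_sup_left)
      (h.faithful_of_le (h.commutator_fac_le ta) (h.le_normalizer_commutator_fac a)
        (sup_le (h.fac_le ta) (h.fac_le tb))
        (commutator_sup_right_le' (h.commutator_fac_le ta) le_rfl he.ge))).1
    rw [← h.fac_eq_pair ta hx hxa] at h1
    exact le_sup_right.trans h1.le
  by_cases he : ⁅V, ⁅F, zpowers a⁆ ⊔ zpowers a⁆ = ⁅V, ⁅F, zpowers b⁆ ⊔ zpowers b⁆
  · exact Or.inl (le_antisymm (key tb ta he.symm) (key ta tb he))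
  right
  obtain ⟨a1, a2⟩ := h.irr_fac ta
  obtain ⟨b1, b2⟩ := h.irr_fac tb
  have ca := h.card_commutator_fac ta
  have cb := h.card_commutator_fac tb
  obtain ⟨h1, h2, -⟩ := subnormal_pair h.ea.1 (h.le.trans h.norm)
    (H7.SN.of_normalizer (commutator_le_of_le_normalizer (ta.le.trans h.normal))
      (normalizer_commutator_ge_left _ _))
    (H7.SN.of_normalizer (commutator_le_of_le_normalizer (tb.le.trans h.normal))
      (normalizer_commutator_ge_left _ _)) a2 b2
    (by rw [a1, b1]; exact fun h1 => he (eq_of_le_of_card_ge h1 (by rw [ca, cb])))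
    (by rw [a1, b1]; exact fun h1 => he (eq_of_le_of_card_ge h1 (by rw [ca, cb])).symm)
  rw [a1, commutator_eq_bot_iff_le_centralizer] at h1
  rw [b1, commutator_eq_bot_iff_le_centralizer] at h2
  constructor
  · rw [le_centralizer_iff]
    exact ((le_inf (h.commutator_fac_le ta) h1).trans (h.inf_centralizer_fac tb).le).trans
      inf_le_right
  · rw [le_centralizer_iff]
    exact ((le_inf (h.commutator_fac_le tb) h2).trans (h.inf_centralizer_fac ta).le).trans
      inf_le_right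

theorem fac_eq_or_commute (h : FF p V H F) (ta : Tv p V H a) (tb : Tv p V H b) :
    ⁅F, zpowers a⁆ ⊔ zpowers a = ⁅F, zpowers b⁆ ⊔ zpowers b ∨
    ⁅F, zpowers b⁆ ⊔ zpowers b ≤ centralizer ((⁅F, zpowers a⁆ ⊔ zpowers a : Subgroup G) : Set G) := by
  refine (h.fac_eq_or ta tb).imp_right fun ⟨h1, h2⟩ => ?_
  rw [← commutator_eq_bot_iff_le_centralizer]
  refine h.eq_bot_of_le ((commutator_le_sup _ _).trans (sup_le (h.fac_le tb) (h.fac_le ta)))
    (commutator_le_centralizer_of_both (commutator_eq_bot_iff_le_centralizer'.2 h2)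
      (commutator_eq_bot_iff_le_centralizer'.2 h1))

end FF

/-- `H` is generated by its transvections. -/
def GenTv (p : ℕ) (V H : Subgroup G) : Prop :=
  ∀ M : Subgroup G, (∀ b, Tv p V H b → b ∈ M) → H ≤ M

namespace FF

theorem le_of_genBest (h : FF p V H F)
    (hS3 : H = ⨆ A : {A : Subgroup G // A ≤ H ∧ IsBestOffenderOn p V A}, (A : Subgroup G))
    {M : Subgroup G} (hM : ∀ B, B ≤ H → MinOff p V B → B ≤ M) : H ≤ M :=
  hS3.le.trans (iSup_le fun A => h.le_of_minOff A.2.1 A.2.2 fun B hB => hM B (hB.trans A.2.1))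

theorem genTv (h : FF p V H F)
    (hS3 : H = ⨆ A : {A : Subgroup G // A ≤ H ∧ IsBestOffenderOn p V A}, (A : Subgroup G)) :
    GenTv p V H := by
  intro M hM
  refine h.le_of_genBest hS3 fun B hB h1 => ?_
  obtain ⟨b, tb, rfl⟩ := h.exists_tv hB h1
  exact zpowers_le.2 (hM b tb)

theorem le_normalizer_fac' (h : FF p V H F) (hg : GenTv p V H) (ta : Tv p V H a) :
    H ≤ normalizer ((⁅F, zpowers a⁆ ⊔ zpowers a : Subgroup G) : Set G) := by
  refine hg _ fun b tb => ?_
  rcases h.fac_eq_or_commute ta tb with h1 | h1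
  · exact le_normalizer (h1 ▸ mem_sup_right (mem_zpowers b))
  · exact centralizer_le_normalizer _ (h1 (mem_sup_right (mem_zpowers b)))

theorem le_normalizer_commutator_fac' (h : FF p V H F) (hg : GenTv p V H) (ta : Tv p V H a) :
    H ≤ normalizer ((⁅V, ⁅F, zpowers a⁆ ⊔ zpowers a⁆ : Subgroup G) : Set G) :=
  H8.le_normalizer_commutator h.norm (h.le_normalizer_fac' hg ta)

theorem fac_inf (h : FF p V H F) (ta : Tv p V H a) : (⁅F, zpowers a⁆ ⊔ zpowers a) ⊓
    (H ⊓ centralizer ((⁅V, ⁅F, zpowers a⁆ ⊔ zpowers a⁆ : Subgroup G) : Set G)) = ⊥ := by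
  rw [eq_bot_iff, ← h.faithful_fac ta]
  exact inf_le_inf_left _ inf_le_right

theorem fac_commutator (h : FF p V H F) (hg : GenTv p V H) (ta : Tv p V H a) :
    ⁅⁅F, zpowers a⁆ ⊔ zpowers a,
      H ⊓ centralizer ((⁅V, ⁅F, zpowers a⁆ ⊔ zpowers a⁆ : Subgroup G) : Set G)⁆ = ⊥ :=
  H8.commutator_eq_bot_of_normalize_of_disjoint ((h.fac_le ta).trans (H8.le_normalizer_inf
    le_normalizer (H8.le_normalizer_centralizer (h.le_normalizer_commutator_fac' hg ta))))
    (inf_le_left.trans (h.le_normalizer_fac' hg ta)) (h.fac_inf ta)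

theorem fac_sup (h : FF p V H F) (hg : GenTv p V H) (ta : Tv p V H a) :
    (⁅F, zpowers a⁆ ⊔ zpowers a) ⊔
      (H ⊓ centralizer ((⁅V, ⁅F, zpowers a⁆ ⊔ zpowers a⁆ : Subgroup G) : Set G)) = H := by
  refine le_antisymm (sup_le (h.fac_le ta) inf_le_left) (hg _ fun b tb => ?_)
  rcases h.fac_eq_or ta tb with h1 | h1
  · exact mem_sup_left (h1 ▸ mem_sup_right (mem_zpowers b))
  · exact mem_sup_right ⟨tb.mem, h1.1 (mem_sup_right (mem_zpowers b))⟩

theorem commutator_centralizer_fac_le (h : FF p V H F) (hg : GenTv p V H) (ta : Tv p V H a) :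
    ⁅V, H ⊓ centralizer ((⁅V, ⁅F, zpowers a⁆ ⊔ zpowers a⁆ : Subgroup G) : Set G)⁆ ≤
      V ⊓ centralizer ((⁅F, zpowers a⁆ ⊔ zpowers a : Subgroup G) : Set G) := by
  have h1 : H ≤ normalizer ((V ⊓ centralizer ((⁅F, zpowers a⁆ ⊔ zpowers a : Subgroup G) : Set G) :
      Subgroup G) : Set G) :=
    H8.le_normalizer_inf h.norm (H8.le_normalizer_centralizer (h.le_normalizer_fac' hg ta))
  conv_lhs => enter [1]; rw [← h.commutator_fac_sup ta]
  refine commutator_sup_left_le ((h.commutator_fac_le ta).trans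
    (EA.le_normalizer_of_le h.ea inf_le_left)) le_normalizer ?_
    (commutator_le_of_le_normalizer (inf_le_left.trans h1))
  rw [commutator_eq_bot_iff_le_centralizer'.2 inf_le_right]
  exact bot_le

/-- The action of `H` on the plane of a factor. -/
theorem exists_hom_fac (h : FF p V H F) (hg : GenTv p V H) (ta : Tv p V H a) :
    ∃ φ : H →* SL(2, ZMod p), (∀ g : H, φ g = 1 ↔
      (g : G) ∈ centralizer ((⁅V, ⁅F, zpowers a⁆ ⊔ zpowers a⁆ : Subgroup G) : Set G)) ∧
      ∀ M, ∃ g : H, (g : G) ∈ ⁅F, zpowers a⁆ ⊔ zpowers a ∧ φ g = M := by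
  obtain ⟨x, hx, hxa⟩ := h.exists_not_mem_centralizer ta
  rw [h.fac_eq_pair ta hx hxa]
  refine h.exists_hom_conj ta hx hxa rfl (hg _ fun b tb => subset_closure ⟨?_, tb.quadratic⟩)
    (sup_le ta.le (ta.conj h.norm (h.le hx)).le)
  rw [← h.fac_eq_pair ta hx hxa]
  exact h.le_normalizer_commutator_fac' hg ta tb.mem

end FF

end Cfsg.Agent.H4
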