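import Cfsg.Agent.H4.FF2
import Cfsg.Agent.H5.AutRank

/-!
# Failure of factorization under coprime action
-/

set_option autoImplicit false

namespace Cfsg.Agent.H4

open Subgroup
open scoped commutatorElement MatrixGroups

variable {G : Type*} [Group G]

/-- The product over an orbit of pairwise commuting conjugates is a fixed point. -/
theorem exists_mul_mem_centralizer_of_orbit [Finite G] {X R : Subgroup G} {e : G}
    (h : ∀ x ∈ X, x * e * x⁻¹ = e ∨ (x * e * x⁻¹ ∈ R ∧ Commute (x * e * x⁻¹) e)) :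
    ∃ r ∈ R, e * r ∈ centralizer (X : Set G) ∧
      ∀ L : Subgroup G, (∀ x ∈ X, x * e * x⁻¹ ∈ L) → e * r ∈ L := by
  classical
  let O : Finset G := (Set.toFinite {g | ∃ x ∈ X, x * e * x⁻¹ = g}).toFinset
  have hO : ∀ g, g ∈ O ↔ ∃ x ∈ X, x * e * x⁻¹ = g := fun g => Set.Finite.mem_toFinset _
  have comm : {g | g ∈ O.val}.Pairwise Commute := by
    intro g hg k hk _
    obtain ⟨x, hx, rfl⟩ := (hO g).1 hg
    obtain ⟨y, hy, rfl⟩ := (hO k).1 hk
    have h1 : Commute ((y⁻¹ * x) * e * (y⁻¹ * x)⁻¹) e := by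
      rcases h _ (mul_mem (inv_mem hy) hx) with h1 | h1
      · rw [h1]
      · exact h1.2
    have h2 := h1.map (MulAut.conj y)
    simp only [MulAut.conj_apply] at h2
    convert h2 using 1
    group
  have he : e ∈ O.val := (hO e).2 ⟨1, X.one_mem, by group⟩
  have hd := Multiset.mul_noncommProd_erase O.val he comm
  refine ⟨(O.val.erase e).noncommProd
    (comm.mono fun _ hg => Multiset.mem_of_mem_erase hg), ?_, ?_, fun L hL => ?_⟩
  rotate_left
  · rw [hd, mem_centralizer_iff]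
    intro y hy
    have h1 := Multiset.map_noncommProd O.val comm (MulAut.conj y)
    have h2 : O.val.map (MulAut.conj y) = O.val := by
      have : O.map (MulAut.conj y).toEquiv.toEmbedding = O := by
        apply Finset.eq_of_subset_of_card_le _ (by rw [Finset.card_map])
        intro g hg
        obtain ⟨k, hk, rfl⟩ := Finset.mem_map.1 hg
        obtain ⟨x, hx, rfl⟩ := (hO k).1 hk
        exact (hO _).2 ⟨y * x, mul_mem hy hx, by simp [mul_assoc]⟩
      exact congrArg Finset.val this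
    simp only [h2, MulAut.conj_apply] at h1
    exact mul_inv_eq_iff_eq_mul.1 h1
  · rw [hd]
    refine Multiset.noncommProd_induction _ _ (· ∈ L) (fun _ _ => mul_mem) L.one_mem fun g hg => ?_
    obtain ⟨x, hx, rfl⟩ := (hO g).1 hg
    exact hL x hx
  · refine Multiset.noncommProd_induction _ _ (· ∈ R) (fun _ _ => mul_mem) R.one_mem fun g hg => ?_
    rw [O.nodup.mem_erase_iff] at hg
    obtain ⟨x, hx, rfl⟩ := (hO g).1 hg.2
    exact ((h x hx).resolve_left hg.1).1

variable {p : ℕ} [hp : Fact p.Prime] [Finite G] {V H F : Subgroup G} {a : G}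

omit hp [Finite G] in
theorem Tv.conj' (t : Tv p V H a) {g : G} (hV : g ∈ normalizer (V : Set G))
    (hH : g ∈ normalizer (H : Set G)) : Tv p V H (g * a * g⁻¹) := by
  refine ⟨(mem_normalizer_iff.1 hH a).1 t.mem, by rw [conj_pow, t.pow, mul_one, mul_inv_cancel],
    ?_⟩
  rw [← cj_zpowers, ← cj_commutator_of_mem_normalizer hV, H8.card_cj, t.card]

omit hp [Finite G] in
theorem cj_fac {g : G} (hF : g ∈ normalizer (F : Set G)) (a : G) :
    H8.cj g (⁅F, zpowers a⁆ ⊔ zpowers a) = ⁅F, zpowers (g * a * g⁻¹)⁆ ⊔ zpowers (g * a * g⁻¹) := by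
  rw [H8.cj_sup, cj_commutator_of_mem_normalizer hF, cj_zpowers]

theorem le_centralizer_of_card_sq {W X : Subgroup G} (hp' : p = 2 ∨ p = 3)
    (hW : Nat.card W = p ^ 2) {q : ℕ} [hq : Fact q.Prime] (h2 : q ≠ 2) (h3 : q ≠ 3)
    (hX : IsPGroup q X) (hn : X ≤ normalizer (W : Set G)) : W ≤ centralizer (X : Set G) := by
  have h1 := H5.card_modEq_card_inf_centralizer hX hn
  have h4 := card_dvd_of_le (inf_le_left : W ⊓ centralizer (X : Set G) ≤ W)
  rw [hW] at h1 h4
  obtain ⟨k, hk, h5⟩ := (Nat.dvd_prime_pow hp.out).1 h4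
  have key : ∀ n, q ∣ 2 ^ n * 3 → False := by
    intro n h
    rcases (Nat.Prime.dvd_mul hq.out).1 h with h | h
    · exact h2 ((Nat.prime_dvd_prime_iff_eq hq.out Nat.prime_two).1 (hq.out.dvd_of_dvd_pow h))
    · exact h3 ((Nat.prime_dvd_prime_iff_eq hq.out Nat.prime_three).1 h)
  rw [h5] at h1
  have h6 := (Nat.modEq_iff_dvd' (Nat.pow_le_pow_right hp.out.pos hk)).1 h1.symm
  interval_cases k
  · exfalso
    rcases hp' with rfl | rfl
    · exact key 0 h6
    · exact key 3 (h6.mul_right 3)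
  · exfalso
    rcases hp' with rfl | rfl
    · exact key 1 (h6.mul_right 3)
    · exact key 1 h6
  · rw [← inf_eq_left]
    exact eq_of_le_of_card_ge inf_le_left (by rw [h5, hW])

namespace FF

theorem ne_two_three (h : FF p V H F) (ta : Tv p V H a) {q : ℕ} (hq : ¬ q ∣ Nat.card H) :
    q ≠ 2 ∧ q ≠ 3 := by
  obtain ⟨e⟩ := h.nonempty_equiv_fac ta
  have h1 : 6 ∣ Nat.card H := by
    refine dvd_trans ?_ (card_dvd_of_le (h.fac_le ta))
    rw [Nat.card_congr e.toEquiv]
    rcases h.two_or_three ta with rfl | rfl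
    · rw [card_SL2_two]
    · rw [card_SL2_three]; norm_num
  constructor
  · rintro rfl
    exact hq (dvd_trans (by norm_num) h1)
  · rintro rfl
    exact hq (dvd_trans (by norm_num) h1)

variable {X : Subgroup G} {q : ℕ} [Fact q.Prime]

theorem cj_fac_dichotomy (h : FF p V H F) (ta : Tv p V H a) (hX : IsPGroup q X)
    (hq : ¬ q ∣ Nat.card H) (hXV : X ≤ normalizer (V : Set G)) (hXH : X ≤ normalizer (H : Set G))
    (hXF : X ≤ normalizer (F : Set G)) {E : Subgroup G} (hE : E = ⁅F, zpowers a⁆ ⊔ zpowers a)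
    {x : G} (hx : x ∈ X) :
    (x ∈ centralizer ((⁅V, E⁆ : Subgroup G) : Set G) ∧ x ∈ centralizer (E : Set G)) ∨
    (H8.cj x E ≤ centralizer ((⁅V, E⁆ : Subgroup G) : Set G) ∧
      H8.cj x E ≤ centralizer (E : Set G) ∧ H8.cj x ⁅V, E⁆ ≤ centralizer (E : Set G)) := by
  subst hE
  have tb := ta.conj' (hXV hx) (hXH hx)
  by_cases he : ⁅F, zpowers a⁆ ⊔ zpowers a = ⁅F, zpowers (x * a * x⁻¹)⁆ ⊔ zpowers (x * a * x⁻¹)
  · left
    rw [← cj_fac (hXF hx), eq_comm, H8.cj_eq_self_iff, ← zpowers_le] at he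
    obtain ⟨h2, h3⟩ := h.ne_two_three ta hq
    have hn := H8.le_normalizer_commutator ((zpowers_le.2 hx).trans hXV) he
    have h1 := le_centralizer_iff.1 (le_centralizer_of_card_sq (h.two_or_three ta)
      (h.card_commutator_fac ta) h2 h3 (hX.to_le (zpowers_le.2 hx)) hn)
    refine ⟨h1 (mem_zpowers x), ?_⟩
    rw [← zpowers_le, ← commutator_eq_bot_iff_le_centralizer', eq_bot_iff, ← h.faithful_fac ta]
    refine le_inf (commutator_le_of_le_normalizer he) ?_
    rw [commutator_comm]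
    exact (commutator_mono h1 (H8.le_normalizer_centralizer
      (normalizer_commutator_ge_right _ _))).trans (commutator_le_of_le_normalizer le_rfl)
  · right
    rw [cj_commutator_of_mem_normalizer (hXV hx), cj_fac (hXF hx)]
    obtain ⟨h1, h2⟩ := (h.fac_eq_or ta tb).resolve_left he
    exact ⟨h1, (h.fac_eq_or_commute ta tb).resolve_left he, le_centralizer_iff.1 h2⟩

theorem exists_fixed_of_mem_fac (h : FF p V H F) (ta : Tv p V H a) (hX : IsPGroup q X)
    (hq : ¬ q ∣ Nat.card H) (hXV : X ≤ normalizer (V : Set G)) (hXH : X ≤ normalizer (H : Set G))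
    (hXF : X ≤ normalizer (F : Set G)) {E : Subgroup G} (hE : E = ⁅F, zpowers a⁆ ⊔ zpowers a)
    {e : G} (he : e ∈ E) : ∃ r ∈ H ⊓ centralizer ((⁅V, E⁆ : Subgroup G) : Set G),
      e * r ∈ H ⊓ centralizer (X : Set G) := by
  have hEH : E ≤ H := hE ▸ h.fac_le ta
  obtain ⟨r, hr, h1, -⟩ := exists_mul_mem_centralizer_of_orbit (X := X) (e := e)
    (R := H ⊓ centralizer ((⁅V, E⁆ : Subgroup G) : Set G)) (fun x hx => by
      rcases h.cj_fac_dichotomy ta hX hq hXV hXH hXF hE hx with h1 | h1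
      · left
        rw [← mem_centralizer_iff.1 h1.2 e he, mul_inv_cancel_right]
      · exact Or.inr ⟨⟨H8.conj_mem_of_le_normalizer hXH hx (hEH he), h1.1 (H8.conj_mem_cj x he)⟩,
          (mem_centralizer_iff.1 (h1.2.1 (H8.conj_mem_cj x he)) e he).symm⟩)
  exact ⟨r, hr, mul_mem (hEH he) hr.1, h1⟩

/-- `H` is generated by a Sylow `p`-subgroup and the fixed points of `X`. -/
theorem le_of_sylow_of_centralizer (h : FF p V H F) (hg : GenTv p V H) (hX : IsPGroup q X)
    (hq : ¬ q ∣ Nat.card H) (hXV : X ≤ normalizer (V : Set G)) (hXH : X ≤ normalizer (H : Set G))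
    (hXF : X ≤ normalizer (F : Set G)) {T M : Subgroup G} (hT : H8.IsSylowIn p T H) (hTM : T ≤ M)
    (hC : H ⊓ centralizer (X : Set G) ≤ M) : H ≤ M := by
  refine hg _ fun a ta => ?_
  have h1 := hT.inf_of_le_normalizer (h.le_normalizer_fac' hg ta)
  rw [inf_eq_right.2 (h.fac_le ta)] at h1
  obtain ⟨P, hP, haP⟩ := H8.exists_isSylowIn_ge ta.isPGroup
    (le_sup_right : _ ≤ ⁅F, zpowers a⁆ ⊔ zpowers a)
  obtain ⟨e, he, rfl⟩ := h1.exists_cj_eq hP
  obtain ⟨r, hr, her⟩ := h.exists_fixed_of_mem_fac ta hX hq hXV hXH hXF rfl he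
  have h2 : r ∈ centralizer ((T ⊓ (⁅F, zpowers a⁆ ⊔ zpowers a) : Subgroup G) : Set G) :=
    centralizer_anti inf_le_right
      (commutator_eq_bot_iff_le_centralizer'.1 (h.fac_commutator hg ta) hr)
  rw [← H8.cj_eq_self_of_mem_centralizer h2, ← H8.cj_mul] at haP
  exact H8.cj_le_of_mem (hC her) (inf_le_left.trans hTM) (haP (mem_zpowers a))

/-- The diagonal plane fixed by `X`. -/
theorem exists_plane_fixed (h : FF p V H F) (hg : GenTv p V H) (ta : Tv p V H a)
    (hX : IsPGroup q X) (hq : ¬ q ∣ Nat.card H) (hXV : X ≤ normalizer (V : Set G))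
    (hXH : X ≤ normalizer (H : Set G)) (hXF : X ≤ normalizer (F : Set G)) :
    ∃ W : Subgroup G, W ≤ V ⊓ centralizer (X : Set G) ∧ Nat.card W = p ^ 2 ∧
      H ⊓ centralizer (X : Set G) ≤ normalizer (W : Set G) ∧
      ∃ φ : H →* SL(2, ZMod p), (∀ g : H, (g : G) ∈ centralizer (X : Set G) →
        (φ g = 1 ↔ (g : G) ∈ centralizer (W : Set G))) ∧
        ∀ M, ∃ g : H, (g : G) ∈ centralizer (X : Set G) ∧ φ g = M := by
  obtain ⟨φ, hφ1, hφ2⟩ := h.exists_hom_fac hg ta
  have hQF : ⁅F, zpowers a⁆ ≤ F := commutator_le_of_le_normalizer (ta.le.trans h.normal)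
  have hirr := (h.irr_fac ta).1
  have hinf := h.commutator_fac_inf ta
  have hsup := h.commutator_fac_sup ta
  have hcard := h.card_commutator_fac ta
  have hHE := h.le_normalizer_fac' hg ta
  have hQE : ⁅F, zpowers a⁆ ≤ ⁅F, zpowers a⁆ ⊔ zpowers a := le_sup_left
  have hdi := fun x (hx : x ∈ X) => h.cj_fac_dichotomy ta hX hq hXV hXH hXF rfl hx
  have hfix := fun e he => h.exists_fixed_of_mem_fac ta hX hq hXV hXH hXF rfl (e := e) he
  have hEH := h.fac_le ta
  generalize ⁅F, zpowers a⁆ ⊔ zpowers a = E at *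
  generalize ⁅F, zpowers a⁆ = Q at *
  have hWV : ⁅V, E⁆ ≤ V := commutator_le_of_le_normalizer (hEH.trans h.norm)
  have hHW : H ≤ normalizer ((⁅V, E⁆ : Subgroup G) : Set G) :=
    H8.le_normalizer_commutator h.norm hHE
  let U : Subgroup G := ⨆ x : X, H8.cj (x : G) ⁅V, E⁆
  have hUV : U ≤ V := iSup_le fun x => H8.cj_le_of_mem_normalizer (hXV x.2) hWV
  have hUQ : U = ⁅V, ⨆ x : X, H8.cj (x : G) Q⁆ := by
    rw [commutator_iSup_right fun x : X => ((H8.cj_le_of_mem_normalizer (hXF x.2) hQF).trans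
      h.le).trans h.norm]
    refine iSup_congr fun x => ?_
    rw [← hirr, cj_commutator_of_mem_normalizer (hXV x.2)]
  have hcjc : ∀ (S : Subgroup G) (g : G), g ∈ centralizer (X : Set G) →
      g ∈ centralizer (S : Set G) → ∀ x : X, g ∈ centralizer ((H8.cj (x : G) S : Subgroup G) : Set G) := by
    intro S g h1 h2 x
    rw [← H8.cj_centralizer, H8.mem_cj, mul_assoc, ← mem_centralizer_iff.1 h1 x x.2,
      inv_mul_cancel_left]
    exact h2
  have hWinf : (U ⊓ centralizer (X : Set G)) ⊓ (V ⊓ centralizer (E : Set G)) = ⊥ := by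
    rw [eq_bot_iff, ← (h.copAct_V (Q := ⨆ x : X, H8.cj (x : G) Q) (iSup_le fun x =>
      H8.cj_le_of_mem_normalizer (hXF x.2) hQF)).commutator_inf_centralizer_eq_bot h.ea.1, ← hUQ,
      centralizer_iSup]
    exact fun w hw => ⟨hw.1.1, mem_iInf.2 (hcjc Q w hw.1.2 (centralizer_anti hQE hw.2.2))⟩
  have hvec : ∀ v ∈ ⁅V, E⁆, ∃ r ∈ V ⊓ centralizer (E : Set G),
      v * r ∈ U ⊓ centralizer (X : Set G) := by
    intro v hv
    obtain ⟨r, hr, h1, h2⟩ := exists_mul_mem_centralizer_of_orbit (X := X) (e := v)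
      (R := V ⊓ centralizer (E : Set G)) (fun x hx => by
        rcases hdi x hx with h1 | h1
        · left
          rw [← mem_centralizer_iff.1 h1.1 v hv, mul_inv_cancel_right]
        · have h2 := H8.conj_mem_of_le_normalizer hXV hx (hWV hv)
          exact Or.inr ⟨⟨h2, h1.2.2 (H8.conj_mem_cj x hv)⟩, EA.comm h.ea h2 (hWV hv)⟩)
    exact ⟨r, hr, h2 U fun x hx => le_iSup (fun x : X => H8.cj (x : G) ⁅V, E⁆) ⟨x, hx⟩
      (H8.conj_mem_cj x hv), h1⟩
  have hWsup : (U ⊓ centralizer (X : Set G)) ⊔ (V ⊓ centralizer (E : Set G)) = V := by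
    refine le_antisymm (sup_le (inf_le_left.trans hUV) inf_le_left) (hsup.ge.trans
      (sup_le (fun v hv => ?_) le_sup_right))
    obtain ⟨r, hr, h1⟩ := hvec v hv
    exact (mul_mem_cancel_right (mem_sup_right hr)).1 (mem_sup_left h1)
  refine ⟨U ⊓ centralizer (X : Set G), inf_le_inf_right _ hUV, ?_, ?_, φ, fun g hg => ?_,
    fun M => ?_⟩
  · have h1 := L0.card_sup_mul_card_inf_of_le_normalizer (H := U ⊓ centralizer (X : Set G))
      ((inf_le_left.trans hUV).trans (EA.le_normalizer_of_le h.ea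
        (inf_le_left : V ⊓ centralizer (E : Set G) ≤ V)))
    have h2 := L0.card_sup_mul_card_inf_of_le_normalizer (hWV.trans (EA.le_normalizer_of_le h.ea
        (inf_le_left : V ⊓ centralizer (E : Set G) ≤ V)))
    rw [hWinf, hWsup] at h1
    rw [hinf, hsup, h1, hcard] at h2
    exact Nat.eq_of_mul_eq_mul_right Nat.card_pos h2
  · refine H8.le_normalizer_inf (fun g hg => H8.mem_normalizer_of_cj_le ?_)
      (inf_le_right.trans le_normalizer)
    rw [H8.cj, Subgroup.map_iSup]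
    refine iSup_le fun x => le_iSup_of_le x ?_
    change H8.cj g (H8.cj (x : G) ⁅V, E⁆) ≤ _
    rw [← H8.cj_mul, ← mem_centralizer_iff.1 hg.2 x x.2, H8.cj_mul, H8.cj_eq_self (hHW hg.1)]
  · rw [hφ1]
    constructor
    · intro h1
      refine centralizer_anti inf_le_left ?_
      rw [centralizer_iSup]
      exact mem_iInf.2 (hcjc _ g hg h1)
    · intro h1
      rw [mem_centralizer_iff]
      intro v hv
      obtain ⟨r, hr, h2⟩ := hvec v hv
      have h3 := mem_centralizer_iff.1 h1 _ h2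
      have h4 : v⁻¹ * (g * v * (g : G)⁻¹) = r * (g * r * (g : G)⁻¹)⁻¹ := by
        calc _ = v⁻¹ * (g * (v * r)) * r⁻¹ * (g : G)⁻¹ := by group
          _ = _ := by rw [← h3]; group
      have h5 : v⁻¹ * (g * v * (g : G)⁻¹) ∈ ⁅V, E⁆ ⊓ (V ⊓ centralizer (E : Set G)) := by
        refine ⟨Subgroup.mul_mem _ (Subgroup.inv_mem _ hv)
          (H8.conj_mem_of_le_normalizer hHW g.2 hv), ?_⟩
        rw [h4]
        exact Subgroup.mul_mem _ hr (Subgroup.inv_mem _ (H8.conj_mem_of_le_normalizer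
          (H8.le_normalizer_inf h.norm (H8.le_normalizer_centralizer hHE)) g.2 hr))
      rw [hinf, mem_bot, inv_mul_eq_one, eq_mul_inv_iff_mul_eq] at h5
      exact h5
  · obtain ⟨e, he, rfl⟩ := hφ2 M
    obtain ⟨r, hr, her⟩ := hfix e he
    refine ⟨e * ⟨r, hr.1⟩, her.2, ?_⟩
    rw [map_mul, (hφ1 ⟨r, hr.1⟩).2 hr.2, mul_one]

end FF

end Cfsg.Agent.H4
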