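import Cfsg.Agent.H4.G2a

/-! # The group `G₂` acts on the split octonions: checking the tables -/

set_option autoImplicit false

namespace Cfsg.Agent.H4.G2

theorem chkL : (al 12 fun r => chk 8 zL (zB (2 + r)) (zG r) (zB (2 + r)) (zG r) fun _ _ => 0) = true := by
  decide +kernel

theorem chkB1 : (al 4 fun r => chk 14 zB (zB (2 + r)) (zG r) (zM tM1 r) (zM tM2 r) (zM tM3 r)) = true := by
  decide +kernel

theorem chkB2 : (al 4 fun r => chk 14 zB (zB (2 + (4 + r))) (zG (4 + r)) (zM tM1 (4 + r)) (zM tM2 (4 + r))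
    (zM tM3 (4 + r))) = true := by
  decide +kernel

theorem chkB3 : (al 4 fun r => chk 14 zB (zB (2 + (8 + r))) (zG (8 + r)) (zM tM1 (8 + r)) (zM tM2 (8 + r))
    (zM tM3 (8 + r))) = true := by
  decide +kernel

theorem chkB (r : ℕ) (hr : r < 12) : chk 14 zB (zB (2 + r)) (zG r) (zM tM1 r) (zM tM2 r) (zM tM3 r) = true := by
  by_cases h1 : r < 4
  · exact al_iff.1 chkB1 r h1
  by_cases h2 : r < 8
  · obtain ⟨k, rfl⟩ : ∃ k, r = 4 + k := ⟨r - 4, by omega⟩
    exact al_iff.1 chkB2 k (by omega)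
  · obtain ⟨k, rfl⟩ : ∃ k, r = 8 + k := ⟨r - 8, by omega⟩
    exact al_iff.1 chkB3 k (by omega)

end Cfsg.Agent.H4.G2
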