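import Cfsg.Agent.H4.G2a

/-! # The group `G₂` acts on the split octonions: coefficients of the root elements -/

set_option autoImplicit false

namespace Cfsg.Agent.H4.G2

open Matrix Cfsg.Lie

/-- numbering of the basis -/
def ei : chevG2.Idx → ℕ := Sum.elim Fin.val fun u => 2 + u.val

theorem ei_lt (i : chevG2.Idx) : ei i < 14 := by
  rcases i with i | i
  · exact i.2.trans (by decide)
  · have : i.val < 12 := i.2
    change 2 + i.val < 14
    omega

theorem sum_ei {F : Type*} [AddCommMonoid F] (f : ℕ → F) : ∑ j, f (ei j) = ∑ k ∈ Finset.range 14, f k := by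
  rw [Fintype.sum_sum_type, show 14 = 2 + 12 from rfl, Finset.sum_range_add]
  exact congrArg₂ (· + ·) (Fin.sum_univ_eq_sum_range f 2) (Fin.sum_univ_eq_sum_range (fun k => f (2 + k)) 12)

/-- the coefficient of `t ^ k` in `x_r(t)` -/
def xc (D : ChevalleyDatum) (k : ℕ) (r : Fin D.nroots) (row col : D.Idx) : ℤ :=
  match col with
  | Sum.inl i =>
    (match row with
     | Sum.inl _ => 0
     | Sum.inr u => if u = r ∧ k = 1 then - ((D.cartanSR.getD i.val #[]).getD r.val 0) else 0)
  | Sum.inr s =>
    if s = r then 0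
    else if s.val = D.negIdx.getD r.val 0 then
      (match row with
       | Sum.inl i => if k = 1 then (D.coroot.getD r.val #[]).getD i.val 0 else 0
       | Sum.inr u => if u = s then 0 else if u = r ∧ k = 2 then -1 else 0)
    else
      (match row with
       | Sum.inl _ => 0
       | Sum.inr u => ((D.chainCoeff r.val s.val u.val).map fun km => if km.1 = k then km.2 else 0).sum)

theorem list_coef {F : Type*} [Field F] (t : F) (l : List (ℕ × ℤ)) (h : ∀ km ∈ l, km.1 = 1 ∨ km.1 = 2 ∨ km.1 = 3) :
    (l.map fun km => ((km.2 : ℤ) : F) * t ^ km.1).sum =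
      t * ((l.map fun km => if km.1 = 1 then km.2 else 0).sum : ℤ) +
      t ^ 2 * ((l.map fun km => if km.1 = 2 then km.2 else 0).sum : ℤ) +
      t ^ 3 * ((l.map fun km => if km.1 = 3 then km.2 else 0).sum : ℤ) := by
  induction l with
  | nil => simp
  | cons a l ih =>
    simp only [List.map_cons, List.sum_cons, Int.cast_add, ih fun km hk => h km (List.mem_cons_of_mem _ hk)]
    rcases h a List.mem_cons_self with e | e | e <;> simp [e] <;> ring

theorem xMat_eq (D : ChevalleyDatum) {F : Type*} [Field F] (r : Fin D.nroots) (t : F)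
    (h : ∀ s u : Fin D.nroots, ∀ km ∈ D.chainCoeff r.val s.val u.val, km.1 = 1 ∨ km.1 = 2 ∨ km.1 = 3)
    (row col : D.Idx) : D.xMat F r t row col = (1 : Matrix D.Idx D.Idx F) row col + t * xc D 1 r row col +
      t ^ 2 * xc D 2 r row col + t ^ 3 * xc D 3 r row col := by
  rcases col with i | s <;> rcases row with j | u <;> simp only [ChevalleyDatum.xMat, xc, of_apply, one_apply]
  · simp
  · split_ifs <;> simp_all [mul_comm]
  · split_ifs <;> simp_all [mul_comm]
  · rw [list_coef t _ (h s u)]
    split_ifs <;> simp_all [add_assoc]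

theorem chain_deg : ∀ r s u : Fin 12, ∀ km ∈ chevG2.chainCoeff r.val s.val u.val,
    km.1 = 1 ∨ km.1 = 2 ∨ km.1 = 3 := by decide +kernel

theorem xc_tab : ∀ (r : Fin chevG2.nroots) (row col : chevG2.Idx), xc chevG2 1 r row col = zM tM1 r (ei row) (ei col) ∧
    xc chevG2 2 r row col = zM tM2 r (ei row) (ei col) ∧ xc chevG2 3 r row col = zM tM3 r (ei row) (ei col) := by
  decide +kernel

theorem xMat_G2 {F : Type*} [Field F] (r : Fin chevG2.nroots) (t : F) : chevG2.xMat F r t =
    1 + t • mi F ei (zM tM1 r) + t ^ 2 • mi F ei (zM tM2 r) + t ^ 3 • mi F ei (zM tM3 r) := by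
  ext row col
  obtain ⟨h1, h2, h3⟩ := xc_tab r row col
  rw [xMat_eq chevG2 r t (chain_deg r), h1, h2, h3]
  rfl

end Cfsg.Agent.H4.G2
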