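import Cfsg.Agent.H4.G2b
import Cfsg.Agent.H4.G2c
import Cfsg.Agent.H4.G2d
import Cfsg.Prelude.Def_G2

/-! # The group `G₂` acts faithfully on the split octonions -/

set_option autoImplicit false
set_option linter.unusedSectionVars false

namespace Cfsg.Agent.H4.G2

open Matrix Cfsg.Lie Subgroup

section
variable {F ι : Type*} [Field F] [Fintype ι] [DecidableEq ι] {B : ι → Matrix (Fin 8) (Fin 8) F}
  {g g' : Matrix (Fin 8) (Fin 8) F} {M M' : Matrix ι ι F}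

theorem Tw.sum (h : Tw B g M) (c : ι → F) : g * ∑ j, c j • B j = (∑ k, (M *ᵥ c) k • B k) * g := by
  simp only [Finset.mul_sum, mul_smul_comm, h _, mulVec, dotProduct, Finset.sum_smul, Finset.sum_mul, Finset.smul_sum,
    smul_mul_assoc, smul_smul]
  rw [Finset.sum_comm]
  simp only [mul_comm]

theorem Tw.inv (h : Tw B g M) (h1 : g' * g = 1) (h2 : M * M' = 1) : Tw B g' M' := fun i => by
  have e := h.sum fun j => M' j i
  have e2 : (M *ᵥ fun j => M' j i) = fun k => (1 : Matrix ι ι F) k i := by rw [← h2]; rfl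
  simp only [e2, one_apply, ite_smul, one_smul, zero_smul, Finset.sum_ite_eq', Finset.mem_univ, if_true] at e
  calc g' * B i = g' * (B i * g) * g' := by rw [mul_assoc, mul_assoc, mul_eq_one_comm.1 h1, mul_one]
    _ = _ := by rw [← e, ← mul_assoc, h1, one_mul]

end

variable {F : Type*} [Field F]

/-- first half -/
def hh (v : Fin 8 → F) : Matrix (Fin 2) (Fin 2) F := !![v 0, v 1; v 2, v 3]
/-- second half -/
def kk (v : Fin 8 → F) : Matrix (Fin 2) (Fin 2) F := !![v 4, v 5; v 6, v 7]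
/-- an octonion from its halves -/
def mk (h k : Matrix (Fin 2) (Fin 2) F) : Fin 8 → F := ![h 0 0, h 0 1, h 1 0, h 1 1, k 0 0, k 0 1, k 1 0, k 1 1]
/-- octonion multiplication -/
def omul (v w : Fin 8 → F) : Fin 8 → F :=
  mk (hh v * hh w + adjugate (kk w) * kk v) (kk w * hh v + kk v * adjugate (hh w))

@[simp] theorem hh_mk (h k : Matrix (Fin 2) (Fin 2) F) : hh (mk h k) = h := (eta_fin_two h).symm
@[simp] theorem kk_mk (h k : Matrix (Fin 2) (Fin 2) F) : kk (mk h k) = k := (eta_fin_two k).symm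
theorem mk_eta (v : Fin 8 → F) : mk (hh v) (kk v) = v := by ext x; fin_cases x <;> rfl

variable (F) in
/-- left multiplications -/
def LL (i : Fin 8) : Matrix (Fin 8) (Fin 8) F := mx F (zL i.val)
variable (F) in
/-- derivations -/
def BB (i : chevG2.Idx) : Matrix (Fin 8) (Fin 8) F := mx F (zB (ei i))
/-- root elements -/
def gr (r : ℕ) (t : F) : Matrix (Fin 8) (Fin 8) F := 1 + t • mx F (zB (2 + r)) + t ^ 2 • mx F (zG r)

theorem LL_mul (v w : Fin 8 → F) : (∑ i, v i • LL F i) *ᵥ w = omul v w := by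
  rw [Fin.sum_univ_eight]
  simp only [add_mulVec, smul_mulVec]
  change v 0 • mx F (zL 0) *ᵥ w + v 1 • mx F (zL 1) *ᵥ w + v 2 • mx F (zL 2) *ᵥ w + v 3 • mx F (zL 3) *ᵥ w +
    v 4 • mx F (zL 4) *ᵥ w + v 5 • mx F (zL 5) *ᵥ w + v 6 • mx F (zL 6) *ᵥ w + v 7 • mx F (zL 7) *ᵥ w = _
  rw [L0, L1, L2, L3, L4, L5, L6, L7]
  ext x
  fin_cases x <;> simp [omul, mk, hh, kk, adjugate_fin_two] <;> ring

theorem tw_L {r : ℕ} (hr : r < 12) (t : F) : Tw (LL F) (gr r t) (gr r t) := by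
  have := tw_of_chk F (e := (Fin.val : Fin 8 → ℕ)) (fun i => i.2) (fun f => Fin.sum_univ_eq_sum_range f 8)
    (al_iff.1 chkL r hr) t
  rwa [show mi F (Fin.val : Fin 8 → ℕ) (fun _ _ => 0) = 0 from mx_zero F fun _ _ _ _ => rfl, smul_zero, add_zero] at this

theorem tw_B (r : Fin chevG2.nroots) (t : F) : Tw (BB F) (gr r t) (chevG2.xMat F r t) := by
  rw [xMat_G2]
  exact tw_of_chk F ei_lt sum_ei (chkB r r.2) t

theorem chkI : (al 12 fun r => al 8 fun x => al 8 fun y =>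
    decide (ml (zB (2 + r)) (zB (2 + r)) x y = zG r x y + zG r x y) && (decide (ml (zB (2 + r)) (zG r) x y = 0) &&
    (decide (ml (zG r) (zB (2 + r)) x y = 0) && decide (ml (zG r) (zG r) x y = 0)))) = true := by decide +kernel

theorem gr_inv {r : ℕ} (hr : r < 12) (t : F) : gr r t * gr r (-t) = 1 := by
  have h := al_iff.1 chkI r hr
  simp only [al_iff, Bool.and_eq_true, decide_eq_true_eq] at h
  have h1 : mx F (zB (2 + r)) * mx F (zB (2 + r)) = mx F (zG r) + mx F (zG r) := by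
    rw [mx_ml, mi_add]; exact mx_congr F fun x hx y hy => (h x hx y hy).1
  have h2 : mx F (zB (2 + r)) * mx F (zG r) = 0 := by
    rw [mx_ml]; exact mx_zero F fun x hx y hy => (h x hx y hy).2.1
  have h3 : mx F (zG r) * mx F (zB (2 + r)) = 0 := by
    rw [mx_ml]; exact mx_zero F fun x hx y hy => (h x hx y hy).2.2.1
  have h4 : mx F (zG r) * mx F (zG r) = 0 := by
    rw [mx_ml]; exact mx_zero F fun x hx y hy => (h x hx y hy).2.2.2
  simp only [gr, add_mul, mul_add, smul_mul_assoc, mul_smul_comm, one_mul, mul_one, h1, h2, h3, h4]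
  module

/-- root elements as units -/
def gu (r : Fin chevG2.nroots) (t : F) : GL (Fin 8) F :=
  ⟨gr r t, gr r (-t), gr_inv r.2 t, mul_eq_one_comm.1 (gr_inv r.2 t)⟩

variable (F) in
/-- the group generated by the root elements -/
def G8 : Subgroup (GL (Fin 8) F) := closure {g | ∃ r t, g = gu r t}

theorem gu_mem (r : Fin chevG2.nroots) (t : F) : gu r t ∈ G8 F := subset_closure ⟨r, t, rfl⟩

theorem G8_le : G8 F ≤ mulAut F omul := (closure_le _).2 (by
  rintro _ ⟨r, t, rfl⟩ v w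
  change gr r t *ᵥ _ = omul (gr r t *ᵥ v) (gr r t *ᵥ w)
  rw [← LL_mul, ← LL_mul, mulVec_mulVec, mulVec_mulVec, (tw_L r.2 t).sum])

/-- dual functionals -/
def dual : List (ℕ × ℕ × ℤ × ℕ) := [(5, 5, 1, 5), (4, 4, 1, 5), (6, 4, 1, 0), (2, 5, 1, 0), (0, 5, -1, 0),
  (0, 4, -1, 0), (0, 1, -1, 0), (1, 4, 1, 0), (2, 7, -1, 0), (0, 2, 1, 0), (0, 7, 1, 0), (0, 6, -1, 0), (1, 6, 1, 0),
  (4, 6, 1, 0)]

theorem dual_spec : ∀ i : chevG2.Idx, ∃ (x y z : Fin 8) (s s' : ℤ), ∀ j : chevG2.Idx,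
    s * zB (ei j) x y + s' * zB (ei j) z z = if j = i then 1 else 0 := by
  have : ∀ i : chevG2.Idx, ∀ j : chevG2.Idx,
      (dual.getD (ei i) 0).2.2.1 * zB (ei j) (Fin.ofNat 8 (dual.getD (ei i) 0).1) (Fin.ofNat 8 (dual.getD (ei i) 0).2.1) +
      (if ei i = 1 then 1 else 0) * zB (ei j) (5 : Fin 8) (5 : Fin 8) = if j = i then 1 else 0 := by decide +kernel
  exact fun i => ⟨_, _, _, _, _, this i⟩

theorem BB_ind {c c' : chevG2.Idx → F} (h : ∑ j, c j • BB F j = ∑ j, c' j • BB F j) : c = c' := by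
  ext i
  obtain ⟨x, y, z, s, s', e⟩ := dual_spec i
  have key : ∀ c : chevG2.Idx → F, s * (∑ j, c j • BB F j) x y + s' * (∑ j, c j • BB F j) z z = c i := fun c => by
    have : ∀ j, c j * ((s * zB (ei j) x y + s' * zB (ei j) z z : ℤ) : F) = if j = i then c j else 0 := fun j => by
      rw [e]; split_ifs <;> simp
    simp only [Matrix.sum_apply, Matrix.smul_apply, BB, mi, of_apply, smul_eq_mul, Finset.mul_sum,
      ← Finset.sum_add_distrib]
    rw [← Finset.sum_ite_eq_of_mem' Finset.univ i c (Finset.mem_univ _)]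
    refine Finset.sum_congr rfl fun j _ => ?_
    rw [← this]; push_cast; ring
  rw [← key c, ← key c', h]

theorem eq_one_of_tw {M : Matrix chevG2.Idx chevG2.Idx F} (h : Tw (BB F) 1 M) : M = 1 := by
  ext j i
  have := h i
  rw [one_mul, mul_one] at this
  refine congrFun (BB_ind (c := fun j => M j i) (c' := fun j => (1 : Matrix _ _ F) j i) ?_) j
  rw [← this]; simp [one_apply]

theorem eq_one_of_comm (h2 : (2 : F) ≠ 0) {g : GL (Fin 8) F} (hg : g ∈ mulAut F omul)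
    (h : Tw (BB F) g 1) : g = 1 := by
  have hc : ∀ k < 12, ∀ v, g.1 *ᵥ (mx F (zB (2 + k)) *ᵥ v) = mx F (zB (2 + k)) *ᵥ (g.1 *ᵥ v) := fun k hk v => by
    have := h (Sum.inr ⟨k, hk⟩)
    simp only [one_apply, ite_smul, one_smul, zero_smul, Finset.sum_ite_eq', Finset.mem_univ, if_true] at this
    rw [mulVec_mulVec, mulVec_mulVec]
    exact congrArg (· *ᵥ v) this
  have hm : ∀ v w, g.1 *ᵥ omul v w = omul (g.1 *ᵥ v) (g.1 *ᵥ w) := hg
  obtain ⟨l, e1⟩ : ∃ l : F, g.1 *ᵥ ![0, 1, 0, 0, 0, 0, 0, 0] = l • ![0, 1, 0, 0, 0, 0, 0, 0] := by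
    have := hc 7 (by omega) (mx F (zB (2 + 7)) *ᵥ ![0, 0, 1, 0, 0, 0, 0, 0])
    rw [hc 7 (by omega) ![0, 0, 1, 0, 0, 0, 0, 0]] at this
    have k : ∀ u : Fin 8 → F, mx F (zB (2 + 7)) *ᵥ (mx F (zB (2 + 7)) *ᵥ u) = (-2 * u 2) • ![0, 1, 0, 0, 0, 0, 0, 0] :=
      fun u => by
        simp only [Nat.reduceAdd, B9]
        ext x; fin_cases x <;> simp
        ring
    rw [k, k, mulVec_smul, mul_smul, mul_smul] at this
    exact ⟨_, by simpa using smul_right_injective _ (neg_ne_zero.2 h2) this⟩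
  have st : ∀ k < 12, ∀ v, g.1 *ᵥ v = l • v → ∀ w, mx F (zB (2 + k)) *ᵥ v = w → g.1 *ᵥ w = l • w :=
    fun k hk v hv w hw => by rw [← hw, hc k hk, hv, mulVec_smul]
  have e0 := st 4 (by omega) _ e1 ![-1, 0, 0, 1, 0, 0, 0, 0] (by rw [B6]; simp)
  have e4 := st 6 (by omega) _ e1 ![0, 0, 0, 0, 1, 0, 0, 0] (by rw [B8]; simp)
  have e5 := st 8 (by omega) _ e1 ![0, 0, 0, 0, 0, 1, 0, 0] (by rw [B10]; simp)
  have e6 := st 1 (by omega) _ e1 ![0, 0, 0, 0, 0, 0, 1, 0] (by rw [B3]; simp)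
  have e7 := st 2 (by omega) _ e1 ![0, 0, 0, 0, 0, 0, 0, 1] (by rw [B4]; simp)
  have e2 := st 1 (by omega) _ e5 ![0, 0, 1, 0, 0, 0, 0, 0] (by rw [B3]; simp)
  have f0 : g.1 *ᵥ ![1, 0, 0, 0, 0, 0, 0, 0] = (l * l) • ![1, 0, 0, 0, 0, 0, 0, 0] := by
    have := hm ![0, 1, 0, 0, 0, 0, 0, 0] ![0, 0, 1, 0, 0, 0, 0, 0]
    rw [e1, e2] at this
    convert this using 2 <;> ext x <;> fin_cases x <;> simp [omul, mk, hh, kk, adjugate_fin_two]
  have f3 : g.1 *ᵥ ![0, 0, 0, 1, 0, 0, 0, 0] = (l * l) • ![0, 0, 0, 1, 0, 0, 0, 0] := by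
    have := hm ![0, 0, 1, 0, 0, 0, 0, 0] ![0, 1, 0, 0, 0, 0, 0, 0]
    rw [e1, e2] at this
    convert this using 2 <;> ext x <;> fin_cases x <;> simp [omul, mk, hh, kk, adjugate_fin_two]
  have l0 : l ≠ 0 := by
    rintro rfl
    have := congrArg (g⁻¹.1 *ᵥ ·) e1
    simp only [mulVec_mulVec, Units.inv_mul, one_mulVec, zero_smul, mulVec_zero] at this
    simpa using congrFun this 1
  have l1 : l = 1 := by
    have : (![-1, 0, 0, 1, 0, 0, 0, 0] : Fin 8 → F) = ![0, 0, 0, 1, 0, 0, 0, 0] - ![1, 0, 0, 0, 0, 0, 0, 0] := by simp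
    rw [this, mulVec_sub, f0, f3] at e0
    simpa [l0] using congrFun e0 3
  subst l1
  simp only [one_mul, one_smul] at *
  refine Units.ext (ext_iff_mulVec.2 fun v => ?_)
  have : v = v 0 • ![1, 0, 0, 0, 0, 0, 0, 0] + v 1 • ![0, 1, 0, 0, 0, 0, 0, 0] + v 2 • ![0, 0, 1, 0, 0, 0, 0, 0] +
      v 3 • ![0, 0, 0, 1, 0, 0, 0, 0] + v 4 • ![0, 0, 0, 0, 1, 0, 0, 0] + v 5 • ![0, 0, 0, 0, 0, 1, 0, 0] +
      v 6 • ![0, 0, 0, 0, 0, 0, 1, 0] + v 7 • ![0, 0, 0, 0, 0, 0, 0, 1] := by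
    ext x; fin_cases x <;> simp
  rw [Units.val_one, one_mulVec]
  conv_lhs => rw [this]
  simp only [mulVec_add, mulVec_smul, f0, e1, e2, f3, e4, e5, e6, e7]
  exact this.symm

theorem exists_iso (h2 : (2 : F) ≠ 0) : Nonempty (chevG2.group F ≃* G8 F) := by
  let S : Set (GL (Fin 8) F × GL chevG2.Idx F) := {p | ∃ r t, p.1 = gu r t ∧ p.2.1 = chevG2.xMat F r t}
  have tw : ∀ p ∈ closure S, Tw (BB F) p.1.1 p.2.1 := fun p hp => by
    induction hp using closure_induction with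
    | mem p hp => obtain ⟨r, t, e1, e2⟩ := hp; rw [e1, e2]; exact tw_B r t
    | one => exact Tw.one
    | mul p q _ _ hp hq => exact hp.mul hq
    | inv p _ hp => exact hp.inv p.1.inv_mul p.2.mul_inv
  have m1 : (closure S).map (MonoidHom.fst _ _) = G8 F := by
    rw [MonoidHom.map_closure]
    congr 1
    ext g
    refine ⟨by rintro ⟨p, ⟨r, t, e, -⟩, rfl⟩; exact ⟨r, t, e⟩, ?_⟩
    rintro ⟨r, t, rfl⟩
    have := eq_one_of_tw (gr_inv r.2 t ▸ (tw_B r t).mul (tw_B r (-t)))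
    exact ⟨(_, ⟨_, _, this, mul_eq_one_comm.1 this⟩), ⟨r, t, rfl, rfl⟩, rfl⟩
  have m2 : (closure S).map (MonoidHom.snd _ _) = chevG2.group F := by
    rw [MonoidHom.map_closure]
    congr 1
    ext g
    exact ⟨by rintro ⟨p, ⟨r, t, -, e⟩, rfl⟩; exact ⟨r, t, e⟩, fun ⟨r, t, e⟩ => ⟨(gu r t, g), ⟨r, t, rfl, e⟩, rfl⟩⟩
  have i1 : Function.Injective ((MonoidHom.fst _ _).domRestrict (closure S)) :=
    (injective_iff_map_eq_one _).2 fun p hp => Subtype.ext (Prod.ext hp (Units.ext (eq_one_of_tw (by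
      have := tw p p.2
      rwa [show p.1.1 = 1 from hp] at this))))
  have i2 : Function.Injective ((MonoidHom.snd _ _).domRestrict (closure S)) :=
    (injective_iff_map_eq_one _).2 fun p hp => Subtype.ext (Prod.ext (eq_one_of_comm h2
      (G8_le (m1 ▸ mem_map_of_mem _ p.2)) (by
      have := tw p p.2
      rwa [show p.1.2 = 1 from hp] at this)) hp)
  exact ⟨((MulEquiv.subgroupCongr (by rw [MonoidHom.domRestrict_range, m2])).trans (MonoidHom.ofInjective i2).symm).trans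
    ((MonoidHom.ofInjective i1).trans (MulEquiv.subgroupCongr (by rw [MonoidHom.domRestrict_range, m1])))⟩

end Cfsg.Agent.H4.G2
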