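import Cfsg.Agent.H4.G2e
import Cfsg.Agent.H1.SLn
import Cfsg.Agent.H5.SL2Facts

/-! # The centralizer of an involution of `G₂` -/

set_option autoImplicit false
set_option linter.unusedSectionVars false

namespace Cfsg.Agent.H4.G2

open Matrix Cfsg.Lie Subgroup
open scoped MatrixGroups

variable {F : Type*} [Field F]

theorem hh_add (v w : Fin 8 → F) : hh (v + w) = hh v + hh w := by simp [hh]
theorem kk_add (v w : Fin 8 → F) : kk (v + w) = kk v + kk w := by simp [kk]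
theorem hh_smul (c : F) (v : Fin 8 → F) : hh (c • v) = c • hh v := by simp [hh]
theorem kk_smul (c : F) (v : Fin 8 → F) : kk (c • v) = c • kk v := by simp [kk]
theorem mk_add (h k h' k' : Matrix (Fin 2) (Fin 2) F) : mk (h + h') (k + k') = mk h k + mk h' k' := by simp [mk]
theorem mk_smul (c : F) (h k : Matrix (Fin 2) (Fin 2) F) : mk (c • h) (c • k) = c • mk h k := by simp [mk]
theorem mk_inj {h k h' k' : Matrix (Fin 2) (Fin 2) F} (e : mk h k = mk h' k') : h = h' ∧ k = k' :=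
  ⟨by simpa using congrArg hh e, by simpa using congrArg kk e⟩

/-- the linear map `(h, k) ↦ (a h a⁻¹, c k a⁻¹)` -/
def psiL (p : GL (Fin 2) F × GL (Fin 2) F) : (Fin 8 → F) →ₗ[F] (Fin 8 → F) where
  toFun v := mk (p.1.1 * hh v * p.1⁻¹.1) (p.2.1 * kk v * p.1⁻¹.1)
  map_add' v w := by simp only [hh_add, kk_add, mul_add, add_mul, mk_add]
  map_smul' c v := by simp only [hh_smul, kk_smul, mul_smul_comm, smul_mul_assoc, mk_smul, RingHom.id_apply]

/-- the homomorphism `ψ` -/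
noncomputable def psi : GL (Fin 2) F × GL (Fin 2) F →* GL (Fin 8) F :=
  MonoidHom.toHomUnits
    { toFun p := LinearMap.toMatrix' (psiL p)
      map_one' := ext_iff_mulVec.2 fun v => by simp [psiL, mk_eta]
      map_mul' p q := ext_iff_mulVec.2 fun v => by
        simp only [← mulVec_mulVec, LinearMap.toMatrix'_mulVec]
        simp [psiL, mul_assoc, -coe_units_inv] }

theorem psi_mulVec (a c : GL (Fin 2) F) (v : Fin 8 → F) :
    (psi (a, c)).1 *ᵥ v = mk (a.1 * hh v * a⁻¹.1) (c.1 * kk v * a⁻¹.1) := LinearMap.toMatrix'_mulVec _ _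

theorem eq_psi {g : GL (Fin 8) F} {a c : GL (Fin 2) F}
    (h : ∀ v, g.1 *ᵥ v = mk (a.1 * hh v * a⁻¹.1) (c.1 * kk v * a⁻¹.1)) : g = psi (a, c) :=
  Units.ext (ext_iff_mulVec.2 fun v => by rw [h, psi_mulVec])

theorem psi_scalar {a : GL (Fin 2) F} {l : F} (h : a.1 = l • 1) : psi (a, a) = 1 :=
  Units.ext (ext_iff_mulVec.2 fun v => by
    have : ∀ x : Matrix (Fin 2) (Fin 2) F, a.1 * x * a⁻¹.1 = x := fun x => by
      rw [show a.1 * x = x * a.1 by simp [h], Units.mul_inv_cancel_right]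
    rw [psi_mulVec, this, this, mk_eta, Units.val_one, one_mulVec])

variable (F) in
/-- the central involution -/
noncomputable def z8 : GL (Fin 8) F := psi (1, -1)

theorem psi_z_mulVec (v : Fin 8 → F) : (z8 F).1 *ᵥ v = mk (hh v) (-kk v) := by simp [z8, psi_mulVec]

theorem psi_z_ne (h2 : (2 : F) ≠ 0) : z8 F ≠ 1 := fun e => by
  have := psi_z_mulVec (mk 0 (1 : Matrix (Fin 2) (Fin 2) F))
  rw [e, Units.val_one, one_mulVec, hh_mk, kk_mk] at this
  have := congrFun₂ (mk_inj this).2 0 0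
  simp only [one_apply_eq, Matrix.neg_apply] at this
  exact h2 (by linear_combination this)

variable (F) in
/-- pairs with equal determinants -/
def YD : Subgroup (GL (Fin 2) F × GL (Fin 2) F) :=
  (GeneralLinearGroup.det.comp (MonoidHom.fst _ _)).eqLocus (GeneralLinearGroup.det.comp (MonoidHom.snd _ _))

theorem mem_YD {a c : GL (Fin 2) F} : (a, c) ∈ YD F ↔ a.1.det = c.1.det := Units.ext_iff

theorem cent_le (h2 : (2 : F) ≠ 0) {g : GL (Fin 8) F} (hg : g ∈ mulAut F omul)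
    (hc : g * z8 F = z8 F * g) : g ∈ (YD F).map psi := by
  have hm : ∀ v w, g.1 *ᵥ omul v w = omul (g.1 *ᵥ v) (g.1 *ᵥ w) := hg
  have hz : ∀ v, g.1 *ᵥ mk (hh v) (-kk v) = mk (hh (g.1 *ᵥ v)) (-kk (g.1 *ᵥ v)) := fun v => by
    rw [← psi_z_mulVec, ← psi_z_mulVec, mulVec_mulVec, mulVec_mulVec, ← Units.val_mul, hc, Units.val_mul]
  have two : ∀ x : Matrix (Fin 2) (Fin 2) F, x = -x → x = 0 := fun x e =>
    smul_right_injective _ h2 (by simp only [two_smul, smul_zero]; exact eq_neg_iff_add_eq_zero.1 e)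
  have h1 : ∀ h, kk (g.1 *ᵥ mk h 0) = 0 := fun h => two _ (by
    have := congrArg kk (hz (mk h 0))
    rwa [hh_mk, kk_mk, neg_zero, kk_mk] at this)
  have h2' : ∀ k, hh (g.1 *ᵥ mk 0 k) = 0 := fun k => two _ (by
    have := congrArg hh (hz (mk 0 k))
    rw [hh_mk, kk_mk, hh_mk, show mk 0 (-k) = (-1 : F) • mk 0 k by rw [← mk_smul]; simp, mulVec_smul, hh_smul] at this
    rw [← neg_one_smul F, this])
  let φ : Matrix (Fin 2) (Fin 2) F →ₗ[F] Matrix (Fin 2) (Fin 2) F :=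
    { toFun h := hh (g.1 *ᵥ mk h 0)
      map_add' h h' := by rw [← hh_add, ← mulVec_add, ← mk_add, add_zero]
      map_smul' c h := by rw [RingHom.id_apply, ← hh_smul, ← mulVec_smul, ← mk_smul, smul_zero] }
  have g1 : ∀ h, g.1 *ᵥ mk h 0 = mk (φ h) 0 := fun h => by rw [← mk_eta (g.1 *ᵥ mk h 0), h1]; rfl
  obtain ⟨c, g2⟩ : ∃ c, g.1 *ᵥ mk 0 1 = mk 0 c := ⟨_, by rw [← mk_eta (g.1 *ᵥ mk 0 1), h2']⟩
  have φ1 : φ 1 = 1 := by
    have := hm (mk 1 0) (g⁻¹.1 *ᵥ mk 1 0)
    rw [show omul (mk 1 0) (g⁻¹.1 *ᵥ mk 1 0) = g⁻¹.1 *ᵥ mk 1 0 by simp [omul, mk_eta], mulVec_mulVec, Units.mul_inv,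
      one_mulVec, g1] at this
    simpa [omul] using (congrArg hh this).symm
  have φm : ∀ h h', φ (h * h') = φ h * φ h' := fun h h' => by
    have := hm (mk h 0) (mk h' 0)
    rw [show omul (mk h 0) (mk h' 0) = mk (h * h') 0 by simp [omul], g1, g1, g1] at this
    simpa [omul] using congrArg hh this
  have inj : Function.Injective φ := (AlgHom.ofLinearMap φ φ1 φm).toRingHom.injective
  obtain ⟨T, hT⟩ := (toLinAlgEquiv'.symm.trans ((AlgEquiv.ofBijective (AlgHom.ofLinearMap φ φ1 φm)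
    ⟨inj, LinearMap.injective_iff_surjective.1 inj⟩).trans toLinAlgEquiv')).eq_linearEquivConjAlgEquiv
  let a : GL (Fin 2) F := ⟨LinearMap.toMatrix' T.toLinearMap, LinearMap.toMatrix' T.symm.toLinearMap,
    by rw [← LinearMap.toMatrix'_comp]; simp, by rw [← LinearMap.toMatrix'_comp]; simp⟩
  have ha : ∀ h, φ h = a.1 * h * a⁻¹.1 := fun h => ext_iff_mulVec.2 fun v => by
    have := congrArg (fun f => f (toLinAlgEquiv' h) v) hT
    simp only [AlgEquiv.trans_apply, AlgEquiv.symm_apply_apply, toLinAlgEquiv'_apply] at this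
    refine this.trans ?_
    simp [a, ← mulVec_mulVec, -coe_units_inv, -mulVec_fin_two]
  have hd : c.det = 1 := by
    have := hm (mk 0 1) (mk 0 1)
    rw [show omul (mk 0 1) (mk 0 1) = mk (1 : Matrix (Fin 2) (Fin 2) F) 0 by simp [omul], g1, g2, φ1] at this
    have := congrFun₂ (congrArg hh this) 0 0
    simp [omul, adjugate_mul] at this
    exact this.symm
  let c' : GL (Fin 2) F := GeneralLinearGroup.mkOfDetNeZero c (by simp [hd])
  refine ⟨(a, c' * a), mem_YD.2 (by simp [c', hd]), (eq_psi fun v => ?_).symm⟩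
  have e : v = mk (hh v) 0 + omul (mk (kk v) 0) (mk 0 1) := by simp [omul, ← mk_add, mk_eta]
  conv_lhs => rw [e]
  rw [mulVec_add, hm, g1, g1, g2, ha, ha]
  simp [omul, ← mk_add, c', mul_assoc, -coe_units_inv]

theorem gr_mulVec (r : ℕ) (t : F) (v : Fin 8 → F) (x : Fin 8) :
    (gr r t *ᵥ v) x = v x + t * (mx F (zB (2 + r)) *ᵥ v) x + t ^ 2 * (mx F (zG r) *ᵥ v) x := by
  simp only [gr, add_mulVec, smul_mulVec, one_mulVec, Pi.add_apply, Pi.smul_apply, smul_eq_mul]

theorem toGL_inv (a : SL(2, F)) : (SpecialLinearGroup.toGL a)⁻¹.1 = adjugate (SpecialLinearGroup.toGL a).1 := rfl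

theorem tv01 (h : (0 : Fin 2) ≠ 1) (t : F) :
    (SpecialLinearGroup.toGL (SpecialLinearGroup.transvection h t)).1 = !![1, t; 0, 1] := by
  change transvection 0 1 t = _
  ext i j; fin_cases i <;> fin_cases j <;> simp [transvection]

theorem tv10 (h : (1 : Fin 2) ≠ 0) (t : F) :
    (SpecialLinearGroup.toGL (SpecialLinearGroup.transvection h t)).1 = !![1, 0; t, 1] := by
  change transvection 1 0 t = _
  ext i j; fin_cases i <;> fin_cases j <;> simp [transvection]

theorem sl2_ind (P : SL(2, F) → Prop) (h1 : ∀ h t, P (SpecialLinearGroup.transvection (h : (0 : Fin 2) ≠ 1) t))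
    (h2 : ∀ h t, P (SpecialLinearGroup.transvection (h : (1 : Fin 2) ≠ 0) t)) (hm : ∀ A B, P A → P B → P (A * B))
    (A : SL(2, F)) : P A := by
  refine H1.SLn.transvection_induction P (fun i j h t => ?_) hm A
  fin_cases i <;> fin_cases j
  exacts [(h rfl).elim, h1 h t, h2 h t, (h rfl).elim]

theorem psi_right (c : SL(2, F)) : psi (1, SpecialLinearGroup.toGL c) ∈ G8 F := by
  refine sl2_ind (fun c => psi (1, SpecialLinearGroup.toGL c) ∈ G8 F) (fun h t => ?_) (fun h t => ?_)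
    (fun A B hA hB => by simpa [← map_mul] using mul_mem hA hB) c
  · convert gu_mem (F := F) ⟨11, by decide⟩ t
    refine (eq_psi fun v => funext fun x => (gr_mulVec 11 t v x).trans ?_).symm
    rw [B13, Q11, tv01]
    fin_cases x <;> simp [mk, hh, kk]
  · convert gu_mem (F := F) ⟨0, by decide⟩ t
    refine (eq_psi fun v => funext fun x => (gr_mulVec 0 t v x).trans ?_).symm
    rw [B2, Q0, tv10]
    fin_cases x <;> simp [mk, hh, kk, add_comm]

theorem psi_left (c : SL(2, F)) : psi (SpecialLinearGroup.toGL c, 1) ∈ G8 F := by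
  refine sl2_ind (fun c => psi (SpecialLinearGroup.toGL c, 1) ∈ G8 F) (fun h t => ?_) (fun h t => ?_)
    (fun A B hA hB => by simpa [← map_mul] using mul_mem hA hB) c
  · convert gu_mem (F := F) ⟨7, by decide⟩ t
    refine (eq_psi fun v => funext fun x => (gr_mulVec 7 t v x).trans ?_).symm
    rw [B9, Q7, toGL_inv, tv01]
    fin_cases x <;> simp [mk, hh, kk, adjugate_fin_two] <;> ring
  · convert gu_mem (F := F) ⟨4, by decide⟩ t
    refine (eq_psi fun v => funext fun x => (gr_mulVec 4 t v x).trans ?_).symm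
    rw [B6, Q4, toGL_inv, tv10]
    fin_cases x <;> simp [mk, hh, kk, adjugate_fin_two] <;> ring

/-- a diagonal matrix -/
def dg (l m : Fˣ) : GL (Fin 2) F := ⟨!![l, 0; 0, m], !![l⁻¹, 0; 0, m⁻¹], by simp [one_fin_two], by simp [one_fin_two]⟩

theorem psi_dg (l : Fˣ) : psi (dg l 1, dg l 1) ∈ G8 F := by
  let n : GL (Fin 8) F := gu ⟨5, by decide⟩ 1 * gu ⟨6, by decide⟩ (-1) * gu ⟨5, by decide⟩ 1
  have hn : n ∈ G8 F := mul_mem (mul_mem (gu_mem _ _) (gu_mem _ _)) (gu_mem _ _)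
  have e5 : ∀ v : Fin 8 → F, gr 5 (1 : F) *ᵥ v = ![v 0, v 1 + v 4, v 2, v 3, v 4, v 5, v 6, v 7 - v 2] := fun v =>
    funext fun x => by rw [gr_mulVec, B7, Q5]; fin_cases x <;> simp [sub_eq_add_neg]
  have e6 : ∀ v : Fin 8 → F, gr 6 (-1 : F) *ᵥ v = ![v 0, v 1, v 2 + v 7, v 3, v 4 - v 1, v 5, v 6, v 7] := fun v =>
    funext fun x => by rw [gr_mulVec, B8, Q6]; fin_cases x <;> simp [sub_eq_add_neg]
  have en : ∀ v : Fin 8 → F, n.1 *ᵥ v = ![v 0, v 4, v 7, v 3, -v 1, v 5, v 6, -v 2] := fun v => by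
    change (gr 5 1 * gr 6 (-1) * gr 5 1) *ᵥ v = _
    rw [← mulVec_mulVec, ← mulVec_mulVec, e5, e6, e5]
    simp
  clear_value n
  have h := psi_right (F := F) ⟨(dg l l⁻¹).1, by simp [dg]⟩
  have e : psi (dg l 1, dg l 1) * n = n * psi (1, dg l l⁻¹) := Units.ext (ext_iff_mulVec.2 fun v => by
    rw [Units.val_mul, Units.val_mul, ← mulVec_mulVec, ← mulVec_mulVec, psi_mulVec, psi_mulVec, en, en]
    change mk (_ * _ * !![_, 0; 0, _]) (_ * _ * !![_, 0; 0, _]) = _
    ext x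
    fin_cases x <;> simp [mk, hh, kk, dg, mul_comm])
  rw [eq_mul_inv_of_mul_eq e]
  refine mul_mem (mul_mem hn ?_) (inv_mem hn)
  convert h using 3
  exact Units.ext rfl

theorem map_le : (YD F).map psi ≤ G8 F := by
  rintro _ ⟨⟨a, c⟩, h, rfl⟩
  have h := mem_YD.1 h
  let l := GeneralLinearGroup.det a
  have hl : (l : F) = a.1.det := rfl
  have l0 : a.1.det ≠ 0 := l.ne_zero
  have hd : (dg l 1)⁻¹.1.det = (a.1.det)⁻¹ := by
    change det !![_, 0; 0, _] = _
    simp [← hl]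
  have h1 := psi_left (F := F) ⟨(a * (dg l 1)⁻¹).1, by rw [Units.val_mul, det_mul, hd, mul_inv_cancel₀ l0]⟩
  have h2 := psi_right (F := F) ⟨(c * (dg l 1)⁻¹).1, by rw [Units.val_mul, det_mul, hd, ← h, mul_inv_cancel₀ l0]⟩
  convert mul_mem (mul_mem h1 h2) (psi_dg l) using 1
  rw [← map_mul, ← map_mul]
  congr 1
  refine Prod.ext (Units.ext ?_) (Units.ext ?_)
  · change a.1 = (a * (dg l 1)⁻¹).1 * 1 * (dg l 1).1
    rw [mul_one, ← Units.val_mul, inv_mul_cancel_right]
  · change c.1 = 1 * (c * (dg l 1)⁻¹).1 * (dg l 1).1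
    rw [one_mul, ← Units.val_mul, inv_mul_cancel_right]

theorem card_map_dvd [Fintype F] : Nat.card ((YD F).map psi) ∣ Nat.card SL(2, F) * Nat.card SL(2, F) := by
  classical
  have c1 : Nat.card (YD F) = Nat.card (GL (Fin 2) F) * Nat.card SL(2, F) := by
    rw [← Nat.card_prod]
    refine (Nat.card_congr (Equiv.ofBijective (fun p : GL (Fin 2) F × SL(2, F) =>
      (⟨(p.1, p.1 * SpecialLinearGroup.toGL p.2), mem_YD.2 (by simp)⟩ : YD F)) ⟨fun p q e => ?_, ?_⟩)).symm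
    · obtain ⟨e1, e2⟩ := Prod.ext_iff.1 (congrArg Subtype.val e)
      simp only at e1 e2
      rw [e1, mul_right_inj] at e2
      exact Prod.ext e1 (SpecialLinearGroup.toGL_injective e2)
    · rintro ⟨⟨a, c⟩, h⟩
      refine ⟨(a, ⟨(a⁻¹ * c).1, ?_⟩), Subtype.ext (Prod.ext rfl (Units.ext ?_))⟩
      · rw [Units.val_mul, det_mul, ← mem_YD.1 h, ← det_mul, Units.inv_mul, det_one]
      · change a.1 * (a⁻¹ * c).1 = c.1
        rw [← Units.val_mul, mul_inv_cancel_left]
  have c2 : Nat.card (GL (Fin 2) F) = Nat.card SL(2, F) * Nat.card Fˣ := by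
    rw [Nat.card_units, Nat.card_eq_fintype_card (α := F), H5.card_SL2_mul, card_GL_field, Fin.prod_univ_two]
    simp
  let f : Fˣ →* (psi.domRestrict (YD F)).ker :=
    (((GeneralLinearGroup.scalar (Fin 2)).prod (GeneralLinearGroup.scalar (Fin 2))).codRestrict (YD F)
      fun _ => mem_YD.2 rfl).codRestrict _ fun l => psi_scalar (l := l) (by simp [smul_one_eq_diagonal])
  have fi : Function.Injective f := (injective_iff_map_eq_one f).2 fun l e => by
    have := congrFun₂ (congrArg (fun x => x.1.1.1.1) e) 0 0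
    exact Units.ext this
  obtain ⟨m, hm⟩ := card_dvd_of_injective f fi
  have c3 := (psi.domRestrict (YD F)).ker.card_mul_index
  rw [index_ker, MonoidHom.domRestrict_range, hm, c1, c2] at c3
  refine ⟨m, Nat.eq_of_mul_eq_mul_left (Nat.card_pos (α := Fˣ)) ?_⟩
  rw [← mul_assoc, mul_comm (Nat.card Fˣ) (Nat.card SL(2, F)), ← c3]; ring

end Cfsg.Agent.H4.G2
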