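import Cfsg.Agent.H8.Dich3
import Cfsg.Agent.H7.ZStar
import Cfsg.Agent.H9.Invol
import Cfsg.Agent.H6.Count
import Cfsg.Agent.H8.SFT1

/-!
# Fusion of involutions in a simple group with a Sylow subgroup `(Z × Z) : 2²`
-/

set_option autoImplicit false
set_option linter.unusedSectionVars false

namespace Cfsg.Agent.H4.G2

open Subgroup Cfsg.Agent.H8

local instance : Fact (Nat.Prime 2) := Nat.fact_prime_two

/-- An identification of a Sylow subgroup with a model group. -/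
structure Fm (T G : Type*) [Group T] [Group G] where
  /-- the embedding -/
  φ : T →* G
  inj : Function.Injective φ
  syl : IsSylowIn 2 φ.range ⊤

namespace Fm

variable {G T : Type*} [Group G] [Group T] (F : Fm T G)

/-- conjugacy in `G` -/
def R (v w : T) : Prop := IsConj (F.φ v) (F.φ w)

/-- a conjugation map -/
def Cj (g : G) (N : T → Prop) (τ : T → T) : Prop := ∀ n, N n → g * F.φ n * g⁻¹ = F.φ (τ n)

variable {F}

theorem R.refl (v : T) : F.R v v := IsConj.refl _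
theorem R.symm {v w : T} (h : F.R v w) : F.R w v := IsConj.symm h
theorem R.trans {v w s : T} (h : F.R v w) (h' : F.R w s) : F.R v s := IsConj.trans h h'
theorem R.of {v w : T} (h : ∃ s, s * v * s⁻¹ = w) : F.R v w := by
  obtain ⟨s, rfl⟩ := h
  exact isConj_iff.mpr ⟨F.φ s, by simp only [map_mul, map_inv]⟩
theorem R.of_eq {v w : T} {g : G} (h : g * F.φ v * g⁻¹ = F.φ w) : F.R v w := isConj_iff.mpr ⟨g, h⟩
theorem R.sq {v w : T} (h : F.R v w) (hv : v * v = 1) : w * w = 1 := by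
  obtain ⟨g, hg⟩ := isConj_iff.mp h
  exact F.inj (by rw [map_mul, ← hg, conj_mul, ← map_mul, hv]; simp)
theorem R.ne_one {v w : T} (h : F.R v w) (hv : v ≠ 1) : w ≠ 1 := by
  rintro rfl
  exact hv (F.inj (by simpa [R] using h))

theorem comm {v w : T} (h : v * w = w * v) : F.φ v * F.φ w = F.φ w * F.φ v := by rw [← map_mul, h, map_mul]
theorem sq {v : T} (h : v * v = 1) : F.φ v * F.φ v = 1 := by rw [← map_mul, h, map_one]
theorem ne_one {v : T} (h : v ≠ 1) : F.φ v ≠ 1 := fun e => h (F.inj (by rwa [map_one]))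
theorem ord {v : T} (h : v * v = 1) (h1 : v ≠ 1) : orderOf (F.φ v) = 2 := H9.orderOf_two_of (ne_one h1) (sq h)
theorem pg (B : Subgroup T) : IsPGroup 2 (B.map F.φ) := F.syl.pgroup.to_le (map_le_range _ _)
theorem card_map (B : Subgroup T) : Nat.card (B.map F.φ) = Nat.card B := card_map_of_injective F.inj

namespace Cj

variable {g : G} {N : T → Prop} {τ : T → T} (h : F.Cj g N τ) {v w : T}
include h

theorem r (hv : N v) : F.R v (τ v) := R.of_eq (h v hv)
theorem inj (hv : N v) (hw : N w) (e : τ v = τ w) : v = w :=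
  F.inj (by have := (h v hv).trans (e ▸ (h w hw).symm); simpa using this)
theorem mul (hv : N v) (hw : N w) (hvw : N (v * w)) : τ (v * w) = τ v * τ w :=
  F.inj (by rw [map_mul, ← h v hv, ← h w hw, ← h _ hvw, map_mul, conj_mul])
theorem comm_iff (hv : N v) (hw : N w) : τ v * τ w = τ w * τ v ↔ v * w = w * v := by
  rw [← F.inj.eq_iff, map_mul, map_mul, ← h v hv, ← h w hw, conj_mul, conj_mul, ← map_mul, ← map_mul,
    mul_left_inj, mul_right_inj, F.inj.eq_iff]
theorem mul_eq {s : T} (hv : N v) (hw : N w) (hs : N s) (e : v * w = s) : τ v * τ w = τ s := by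
  subst e; exact (h.mul hv hw hs).symm

end Cj

variable [Finite G]

theorem ext {H : Subgroup G} {B N : Subgroup T} (hB : IsSylowIn 2 (B.map F.φ) H) {g : G}
    (hN : ∀ n ∈ N, g * F.φ n * g⁻¹ ∈ H) : ∃ h ∈ H, ∃ τ, F.Cj (h * g) (· ∈ N) τ := by
  obtain ⟨P, hP, hle⟩ := exists_isSylowIn_ge (pgroup_cj (pg (F := F) N) g) (K := H) (by
    rw [cj_le_iff]
    rintro _ ⟨n, hn, rfl⟩
    exact mem_cj.2 (by simpa using hN n hn))
  obtain ⟨h, hh, e⟩ := hP.exists_cj_eq hB
  have key : ∀ n, ∃ m, n ∈ N → h * g * F.φ n * (h * g)⁻¹ = F.φ m := fun n => by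
    by_cases hn : n ∈ N
    · obtain ⟨m, -, e'⟩ : h * (g * F.φ n * g⁻¹) * h⁻¹ ∈ B.map F.φ :=
        e ▸ conj_mem_cj h (hle (conj_mem_cj g (mem_map_of_mem _ hn)))
      exact ⟨m, fun _ => by rw [e']; group⟩
    · exact ⟨1, fun h => absurd h hn⟩
  choose τ hτ using key
  exact ⟨h, hh, τ, hτ⟩

theorem ext_cent {v w : T} (hw : IsSylowIn 2 ((centralizer {w}).map F.φ) (centralizer {F.φ w})) (h : F.R v w) :
    ∃ g τ, F.Cj g (fun n => n * v = v * n) τ ∧ τ v = w := by
  obtain ⟨g, hg⟩ := isConj_iff.mp h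
  obtain ⟨h, hh, τ, h1⟩ := ext hw (N := centralizer {v}) (g := g) fun n hn => by
    rw [mem_centralizer_singleton_iff, ← hg, conj_mul, conj_mul, comm (mem_centralizer_singleton_iff.1 hn)]
  refine ⟨h * g, τ, fun n hn => h1 n (mem_centralizer_singleton_iff.2 hn), F.inj ?_⟩
  rw [← h1 v (mem_centralizer_singleton_iff.2 rfl),
    show h * g * F.φ v * (h * g)⁻¹ = h * (g * F.φ v * g⁻¹) * h⁻¹ by group, hg, mem_centralizer_singleton_iff.1 hh,
    mul_inv_cancel_right]

theorem syl_z {z : T} (hz : ∀ w, w * z = z * w) : IsSylowIn 2 ((centralizer {z}).map F.φ) (centralizer {F.φ z}) := by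
  have : centralizer ({z} : Set T) = ⊤ := eq_top_iff.2 fun w _ => mem_centralizer_singleton_iff.2 (hz w)
  rw [this, ← MonoidHom.range_eq_map]
  refine F.syl.of_le ?_ le_top
  rintro _ ⟨w, rfl⟩; exact mem_centralizer_singleton_iff.2 (comm (hz w))

theorem syl_cent {w : T} (h : ∀ w', F.R w w' →
    Nat.card (centralizer ({w'} : Set T)) ≤ Nat.card (centralizer ({w} : Set T))) :
    IsSylowIn 2 ((centralizer {w}).map F.φ) (centralizer {F.φ w}) := by
  have hle : (centralizer {w}).map F.φ ≤ centralizer {F.φ w} := by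
    rintro _ ⟨n, hn, rfl⟩
    exact mem_centralizer_singleton_iff.2 (comm (mem_centralizer_singleton_iff.1 hn))
  obtain ⟨P, hP, hle'⟩ := exists_isSylowIn_ge (pg (F := F) _) hle
  obtain ⟨P', hP', h1⟩ := exists_isSylowIn_ge hP.pgroup (le_top (a := P))
  obtain ⟨k, -, e⟩ := hP'.exists_cj_eq F.syl
  obtain ⟨w', hw'⟩ : k * F.φ w * k⁻¹ ∈ F.φ.range :=
    e ▸ conj_mem_cj k (h1 (hle' (mem_map_of_mem _ (mem_centralizer_singleton_iff.2 rfl))))
  refine hP.of_card_ge (pg _) hle ?_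
  rw [← card_cj k, card_map]
  refine le_trans (card_le_of_le fun g hg => ?_) ((card_map (F := F) _).le.trans (h w' (R.of_eq hw'.symm)))
  obtain ⟨s, rfl⟩ : g ∈ F.φ.range := e ▸ cj_mono k h1 hg
  refine mem_map_of_mem _ (mem_centralizer_singleton_iff.2 (F.inj ?_))
  have h2 := cj_mono k hP.le hg
  rw [cj_centralizer_singleton, ← hw', mem_centralizer_singleton_iff] at h2
  rwa [map_mul, map_mul]

theorem exists_ext (v : T) : ∃ w, F.R v w ∧ IsSylowIn 2 ((centralizer {w}).map F.φ) (centralizer {F.φ w}) := by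
  have : Finite T := Finite.of_injective _ F.inj
  obtain ⟨w, h1, h2⟩ := Set.exists_max_image {w | F.R v w} (fun w => Nat.card (centralizer ({w} : Set T)))
    (Set.toFinite _) ⟨v, R.refl v⟩
  exact ⟨w, h1, syl_cent fun w' h => h2 w' (R.trans h1 h)⟩

theorem exists_R {g : G} (hg : orderOf g = 2) : ∃ w, w * w = 1 ∧ w ≠ 1 ∧ IsConj (F.φ w) g := by
  obtain ⟨P, hP, h1⟩ := exists_isSylowIn_ge (SF.pgroup_zpowers_of_pow (p := 2) (hg ▸ pow_orderOf_eq_one g))
    (le_top (a := zpowers g))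
  obtain ⟨k, -, e⟩ := hP.exists_cj_eq F.syl
  obtain ⟨w, hw⟩ : k * g * k⁻¹ ∈ F.φ.range := e ▸ conj_mem_cj k (h1 (mem_zpowers g))
  have hc : IsConj (F.φ w) g := (isConj_iff.2 ⟨k, hw.symm⟩).symm
  have ho : orderOf (F.φ w) = 2 := (H6.orderOf_eq_of_isConj hc).trans hg
  exact ⟨w, F.inj (by rw [map_mul, map_one]; exact H9.mul_self_of_orderOf_two ho), by rintro rfl; simp at ho, hc⟩

variable [IsSimpleGroup G] (hG : ¬ IsMulCommutative G)
include hG

theorem transfer {M : Subgroup T} (hM : M.index = 2) {v : T} (hv : v * v = 1) : ∃ w ∈ M, F.R v w := by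
  obtain ⟨g, w, hw, e⟩ := H6.thompson_transfer (Dich.index_ne_two_simple hG) (H := F.φ.range) (M := M.map F.φ)
    (by simpa [Dich.odd_iff] using F.syl.not_dvd_relIndex)
    (by rw [MonoidHom.range_eq_map, relIndex_map_map_of_injective _ _ F.inj, relIndex_top_right, hM]) (t := F.φ v)
    (by rw [pow_two, sq hv])
  exact ⟨w, hw, R.of_eq (g := g⁻¹) (by rw [e, inv_inv])⟩

theorem zstar {z : T} (h1 : z * z = 1) (h2 : z ≠ 1) : ∃ v, F.R z v ∧ v ≠ z := by
  obtain ⟨g, ⟨v, hv⟩, hne⟩ : ∃ g : G, g * F.φ z * g⁻¹ ∈ F.φ.range ∧ g * F.φ z * g⁻¹ ≠ F.φ z := by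
    by_contra hn
    push Not at hn
    exact (H7.Isolated.of_sylow F.syl.toSylowTop (sq h1) hn).eq_one_or_comm.elim (ne_one h2) hG
  exact ⟨v, R.of_eq hv.symm, fun e => hne (by rw [← hv, e])⟩

end Fm

/-- the model group -/
@[ext] structure Mo (Z : Type*) where
  /-- first coordinate -/
  a : Z
  /-- second coordinate -/
  b : Z
  /-- inversion -/
  e : Bool
  /-- swap -/
  d : Bool

namespace Mo

variable {Z : Type*} [CommRing Z]

/-- sign -/
def sg (e : Bool) (x : Z) : Z := bif e then -x else x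
@[simp] theorem sg_true (x : Z) : sg true x = -x := rfl
@[simp] theorem sg_false (x : Z) : sg false x = x := rfl

instance instMulMo : Mul (Mo Z) := ⟨fun x y => ⟨x.a + sg x.e (bif x.d then y.b else y.a),
  x.b + sg x.e (bif x.d then y.a else y.b), xor x.e y.e, xor x.d y.d⟩⟩
instance instOneMo : One (Mo Z) := ⟨⟨0, 0, false, false⟩⟩
instance instInvMo : Inv (Mo Z) := ⟨fun x => ⟨-sg x.e (bif x.d then x.b else x.a), -sg x.e (bif x.d then x.a else x.b),
  x.e, x.d⟩⟩

theorem mul_def (a b a' b' : Z) (e d e' d' : Bool) : (⟨a, b, e, d⟩ * ⟨a', b', e', d'⟩ : Mo Z) =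
  ⟨a + sg e (bif d then b' else a'), b + sg e (bif d then a' else b'), xor e e', xor d d'⟩ := rfl
theorem one_def : (1 : Mo Z) = ⟨0, 0, false, false⟩ := rfl
theorem inv_def (a b : Z) (e d : Bool) : (⟨a, b, e, d⟩ : Mo Z)⁻¹ =
  ⟨-sg e (bif d then b else a), -sg e (bif d then a else b), e, d⟩ := rfl

instance instGroupMo : Group (Mo Z) := Group.ofLeftAxioms
  (by rintro ⟨a, b, _ | _, _ | _⟩ ⟨a', b', _ | _, _ | _⟩ ⟨a'', b'', e, d⟩ <;> simp [mul_def, add_assoc, add_comm, add_left_comm])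
  (by rintro ⟨a, b, e, d⟩; simp [mul_def, one_def])
  (by rintro ⟨a, b, _ | _, _ | _⟩ <;> simp [mul_def, one_def, inv_def])

theorem mul_e (x y : Mo Z) : (x * y).e = xor x.e y.e := rfl
theorem mul_d (x y : Mo Z) : (x * y).d = xor x.d y.d := rfl

/-- the subgroup without inversion -/
def M1 : Subgroup (Mo Z) where
  carrier := {v | v.e = false}
  one_mem' := rfl
  mul_mem' {x y} hx hy := by simp_all [mul_e]
  inv_mem' h := h

/-- the diagonal subgroup -/
def M2 : Subgroup (Mo Z) where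
  carrier := {v | v.e = v.d}
  one_mem' := rfl
  mul_mem' {x y} hx hy := by simp_all [mul_e, mul_d]
  inv_mem' h := h

theorem idx1 : (M1 : Subgroup (Mo Z)).index = 2 := index_eq_two_iff.2 ⟨⟨0, 0, true, false⟩, by
  rintro ⟨a, b, _ | _, _ | _⟩ <;> simp [M1, mul_def]⟩

theorem idx2 : (M2 : Subgroup (Mo Z)).index = 2 := index_eq_two_iff.2 ⟨⟨0, 0, true, false⟩, by
  rintro ⟨a, b, _ | _, _ | _⟩ <;> simp [M2, mul_def]⟩

theorem conj_s {v : Mo Z} (h : v * v = 1) (hd : v.d = true) : ∃ g : Mo Z, g * ⟨0, 0, v.e, true⟩ * g⁻¹ = v := by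
  obtain ⟨a, b, _ | _, d⟩ := v <;> obtain rfl : d = true := hd <;> refine ⟨⟨a, 0, false, false⟩, ?_⟩ <;>
    simp only [mul_def, one_def, Mo.mk.injEq, sg_true, sg_false, cond_true] at h
  · simp [mul_def, inv_def, neg_eq_of_add_eq_zero_right h.1]
  · simp [mul_def, inv_def, add_neg_eq_zero.1 h.1]

theorem conj_w (a b i j : Z) : ∃ g : Mo Z, g * ⟨a, b, true, false⟩ * g⁻¹ = ⟨a + (i + i), b + (j + j), true, false⟩ :=
  ⟨⟨i, j, false, false⟩, by simp [mul_def, inv_def, add_comm, add_left_comm]⟩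

theorem even_of_comm {a b : Z} {g : Mo Z} (h : g * ⟨a, b, true, false⟩ = ⟨a, b, true, false⟩ * g) (hd : g.d = true) :
    ∃ c, a = b + (c + c) := by
  obtain ⟨i, j, _ | _, d⟩ := g <;> obtain rfl : d = true := hd <;>
    simp only [mul_def, Mo.mk.injEq, sg_true, sg_false, cond_true, cond_false] at h
  · exact ⟨i, by linear_combination -h.1⟩
  · exact ⟨i - b, by linear_combination -h.1⟩

end Mo

/-- the facts used about the cyclic group -/
structure ZH {Z : Type*} [CommRing Z] (h k : Z) : Prop where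
  kk : k + k = h
  hh : h + h = 0
  h0 : h ≠ 0
  two : ∀ i : Z, i + i = 0 → i = 0 ∨ i = h

namespace ZH

open Mo

variable {Z : Type*} [CommRing Z] {h k : Z} (H : ZH h k)
include H

local notation "𝓏" => (Mo.mk h h false false : Mo Z)
local notation "𝓊" => (Mo.mk h 0 false false : Mo Z)
local notation "𝓋" => (Mo.mk 0 h false false : Mo Z)
local notation "𝓈" => (Mo.mk 0 0 false true : Mo Z)
local notation "𝓉" => (Mo.mk 0 0 true true : Mo Z)
local notation "𝓌" => (Mo.mk 0 0 true false : Mo Z)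

theorem neg : -h = h := neg_eq_of_add_eq_zero_left H.hh
theorem zz : 𝓏 * 𝓏 = 1 := by simp [mul_def, one_def, H.hh]
theorem uu : 𝓊 * 𝓊 = 1 := by simp [mul_def, one_def, H.hh]
theorem vv : 𝓋 * 𝓋 = 1 := by simp [mul_def, one_def, H.hh]
theorem z1 : 𝓏 ≠ 1 := by simp [one_def, H.h0]
theorem u1 : 𝓊 ≠ 1 := by simp [one_def, H.h0]
theorem uz : 𝓊 ≠ 𝓏 := by simp [H.h0.symm]
theorem cz (g : Mo Z) : g * 𝓏 = 𝓏 * g := by
  obtain ⟨a, b, _ | _, _ | _⟩ := g <;> simp [mul_def, H.neg, add_comm]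

theorem inV {v : Mo Z} (h1 : v * v = 1) (he : v.e = false) (hd : v.d = false) : v = 1 ∨ v = 𝓏 ∨ v = 𝓊 ∨ v = 𝓋 := by
  obtain ⟨a, b, e, d⟩ := v
  obtain rfl : e = false := he
  obtain rfl : d = false := hd
  simp only [mul_def, one_def, Mo.mk.injEq, sg_false, cond_false] at h1
  rcases H.two a h1.1 with rfl | rfl <;> rcases H.two b h1.2.1 with rfl | rfl <;> simp [one_def]

theorem comm_uv {g v : Mo Z} (hv : v = 𝓊 ∨ v = 𝓋) (h1 : g * v = v * g) : g.d = false := by
  obtain ⟨a, b, _ | _, _ | _⟩ := g <;> rcases hv with rfl | rfl <;> simp_all [mul_def, H.h0]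

theorem even {i : Z} (hi : i + i = 0) : ∃ c, i = c + c := by
  rcases H.two i hi with rfl | rfl
  exacts [⟨0, by simp⟩, ⟨k, H.kk.symm⟩]

theorem central {g : Mo Z} (h1 : g * g = 1) (hc : ∀ x, x * g = g * x) : g = 1 ∨ g = 𝓏 := by
  have hd := H.comm_uv (Or.inl rfl) (hc _).symm
  have he : g.e = false := by
    obtain ⟨a, b, _ | _, d⟩ := g
    · rfl
    · have := congrArg Mo.a (hc ⟨k, k, false, false⟩)
      simp only [mul_def, sg_true, sg_false, cond_false, Bool.cond_self] at this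
      exact (H.h0 (by rw [← H.kk]; linear_combination this)).elim
  rcases H.inV h1 he hd with e | e | e | e
  · exact Or.inl e
  · exact Or.inr e
  · exact absurd (H.comm_uv (Or.inl e) (hc 𝓈)) (by simp)
  · exact absurd (H.comm_uv (Or.inr e) (hc 𝓈)) (by simp)

variable {G : Type*} [Group G] [Finite G] {F : Fm (Mo Z) G}

open Fm

omit H in
theorem R_uv : F.R 𝓊 𝓋 := R.of ⟨𝓈, by simp [mul_def, inv_def]⟩

theorem tau_z {v g : Mo Z} {x : G} {τ : Mo Z → Mo Z} (hτ : F.Cj x (fun n => n * v = v * n) τ) (h1 : τ v = 𝓏)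
    (h2 : v ≠ 𝓏) (h3 : g * v = v * g) (h4 : g * g = 𝓏) : τ 𝓏 = 𝓊 ∨ τ 𝓏 = 𝓋 := by
  have hz := (H.cz v).symm
  have e := hτ.mul_eq h3 h3 hz h4
  have r := hτ.r hz
  rcases H.inV (r.sq H.zz) (by rw [← e, mul_e, Bool.xor_self]) (by rw [← e, mul_d, Bool.xor_self]) with e | e | e
  exacts [(r.ne_one H.z1 e).elim, (h2 (hτ.inj rfl hz (h1.trans e.symm))).elim, e]

variable [IsSimpleGroup G] (hG : ¬ IsMulCommutative G)
include hG

theorem R_zu : F.R 𝓏 𝓊 := by
  by_contra hu
  have hv : ¬ F.R 𝓏 𝓋 := fun e => hu (e.trans R_uv.symm)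
  have key : ∀ v, F.R 𝓏 v → v ≠ 𝓏 → v.e = true ∧ v.d = false ∧ ∀ g, g * v = v * g → g.d = false := fun v h1 h2 => by
    obtain ⟨x, τ, hτ, e⟩ := ext_cent (syl_z H.cz) h1.symm
    have k1 : ∀ g, g * v = v * g → g * g ≠ 𝓏 := fun g h3 h4 => by
      have r := hτ.r (H.cz v).symm
      rcases H.tau_z hτ e h2 h3 h4 with e | e <;> rw [e] at r
      exacts [hu r, hv r]
    have h3 := h1.sq H.zz
    obtain ⟨a, b, _ | _, _ | _⟩ := v
    · rcases H.inV h3 rfl rfl with e | e | e | e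
      exacts [(h1.ne_one H.z1 e).elim, (h2 e).elim, (hu (e ▸ h1)).elim, (hv (e ▸ h1)).elim]
    · exact (k1 ⟨k, k, false, false⟩ (by simp [mul_def, add_comm]) (by simp [mul_def, H.kk])).elim
    · refine ⟨rfl, rfl, fun g hg => eq_false_of_ne_true fun hd => ?_⟩
      obtain ⟨c, rfl⟩ := even_of_comm hg hd
      refine k1 ⟨h + c, -c, false, true⟩ ?_ (by simp [mul_def])
      simp only [mul_def, Mo.mk.injEq, sg_true, sg_false, cond_true, cond_false]
      exact ⟨by linear_combination H.hh, by abel, rfl, rfl⟩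
    · exact (k1 ⟨k, -k, false, false⟩ (by simp [mul_def, add_comm]) (by simp [mul_def, H.kk, ← neg_add, H.neg])).elim
  obtain ⟨v, h1, h2⟩ := zstar (F := F) hG H.zz H.z1
  obtain ⟨x, τ, hτ, e⟩ := ext_cent (syl_z H.cz) h1.symm
  have hz := (H.cz v).symm
  obtain ⟨k1, k2, -⟩ := key v h1 h2
  obtain ⟨k3, k4, k5⟩ := key (τ 𝓏) (hτ.r hz) fun e' => h2 (hτ.inj rfl hz (e.trans e'.symm))
  have k6 : ∀ g, g * v = v * g → ¬ F.R 𝓏 g → (τ g).e = false := fun g h3 h4 => eq_false_of_ne_true fun he => by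
    have c := (hτ.comm_iff h3 hz).2 (H.cz g)
    have hd := k5 _ c
    have r1 := hτ.r h3
    have r2 := hτ.r hz
    generalize τ g = y at *
    generalize τ 𝓏 = y' at *
    obtain ⟨a, b, e, d⟩ := y
    obtain ⟨a', b', e', d'⟩ := y'
    obtain rfl : e = true := he
    obtain rfl : d = false := hd
    obtain rfl : e' = true := k3
    obtain rfl : d' = false := k4
    simp only [mul_def, Mo.mk.injEq, sg_true, cond_false] at c
    obtain ⟨i, hi⟩ := H.even (i := a - a') (by linear_combination c.1)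
    obtain ⟨j, hj⟩ := H.even (i := b - b') (by linear_combination c.2.1)
    refine h4 (r2.trans (R.trans (R.of ?_) r1.symm))
    rw [eq_add_of_sub_eq' hi, eq_add_of_sub_eq' hj]
    exact conj_w _ _ _ _
  obtain ⟨a, b, e', d⟩ := v
  obtain rfl : e' = true := k1
  obtain rfl : d = false := k2
  have c1 : 𝓊 * ⟨a, b, true, false⟩ = ⟨a, b, true, false⟩ * 𝓊 := by simp [mul_def, H.neg, add_comm]
  have c2 : 𝓋 * ⟨a, b, true, false⟩ = ⟨a, b, true, false⟩ * 𝓋 := by simp [mul_def, H.neg, add_comm]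
  rw [← hτ.mul_eq c1 c2 hz (by simp [mul_def]), mul_e, k6 _ c1 hu, k6 _ c2 hv] at k3
  exact absurd k3 (by decide)

theorem R_V {v : Mo Z} (h1 : v * v = 1) (h2 : v ≠ 1) (he : v.e = false) (hd : v.d = false) : F.R 𝓏 v := by
  rcases H.inV h1 he hd with e | rfl | rfl | rfl
  exacts [(h2 e).elim, R.refl _, H.R_zu hG, (H.R_zu hG).trans R_uv]

theorem two_cl {v : Mo Z} (h1 : v * v = 1) (h2 : v ≠ 1) : (F.R 𝓏 v ∨ F.R 𝓈 v) ∧ (F.R 𝓏 v ∨ F.R 𝓉 v) := by
  have key : ∀ w, F.R v w → (w.d = false → w.e = false) → F.R 𝓏 v ∨ (w.d = true ∧ F.R ⟨0, 0, w.e, true⟩ v) :=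
    fun w r h3 => by
      cases hd : w.d
      · exact Or.inl ((H.R_V hG (r.sq h1) (r.ne_one h2) (h3 hd) hd).trans r.symm)
      · exact Or.inr ⟨rfl, (R.of (conj_s (r.sq h1) hd)).trans r.symm⟩
  constructor
  · obtain ⟨w, hw, r⟩ := transfer (F := F) hG idx1 h1
    have hw : w.e = false := hw
    exact (key w r fun _ => hw).imp_right fun e => hw ▸ e.2
  · obtain ⟨w, hw, r⟩ := transfer (F := F) hG idx2 h1
    have hw : w.e = w.d := hw
    exact (key w r hw.trans).imp_right fun ⟨e1, e2⟩ => (hw.trans e1) ▸ e2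

theorem all_conj {k' : Z} (hk : k' + k' = k) : F.R 𝓏 𝓈 := by
  by_contra hs
  have ss : 𝓈 * 𝓈 = 1 := by simp [mul_def, one_def]
  have s1 : 𝓈 ≠ 1 := by simp [one_def]
  have st : F.R 𝓉 𝓈 := (H.two_cl hG ss s1).2.resolve_left hs
  have nd : ∀ v, F.R 𝓏 v → v.d = false := fun v r => eq_false_of_ne_true fun hd => by
    have := R.of (F := F) (conj_s (r.sq H.zz) hd)
    cases he : v.e <;> rw [he] at this
    exacts [hs (r.trans this.symm), hs ((r.trans this.symm).trans st)]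
  have c1 : ∀ b c, ¬ F.R 𝓏 ⟨b + (c + c), b, true, false⟩ := fun b c r => by
    obtain ⟨x, τ, hτ, e⟩ := ext_cent (syl_z H.cz) r.symm
    have m1 : 𝓊 * ⟨b + (c + c), b, true, false⟩ = ⟨b + (c + c), b, true, false⟩ * 𝓊 := by
      simp [mul_def, H.neg, add_comm]
    have m2 : (⟨c, -c, false, true⟩ : Mo Z) * ⟨b + (c + c), b, true, false⟩ =
        ⟨b + (c + c), b, true, false⟩ * ⟨c, -c, false, true⟩ := by
      simp only [mul_def, Mo.mk.injEq, sg_true, sg_false, cond_true, cond_false]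
      exact ⟨by abel, by abel, rfl, rfl⟩
    have m3 : 𝓊 * ⟨c, -c, false, true⟩ * ⟨b + (c + c), b, true, false⟩ =
        ⟨b + (c + c), b, true, false⟩ * (𝓊 * ⟨c, -c, false, true⟩) := by rw [mul_assoc, m2, ← mul_assoc, m1, mul_assoc]
    have m4 : 𝓊 * ⟨c, -c, false, true⟩ * (𝓊 * ⟨c, -c, false, true⟩) = 𝓏 := by simp [mul_def]
    have hz := (H.cz ⟨b + (c + c), b, true, false⟩).symm
    have e1 := H.tau_z hτ e (by simp) m3 m4
    have e2 := hτ.mul_eq m3 m3 hz m4
    rw [hτ.mul m1 m2 m3] at e2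
    have d1 := H.comm_uv e1 ((hτ.comm_iff m1 hz).2 (H.cz _))
    have d2 := H.comm_uv e1 ((hτ.comm_iff m2 hz).2 (H.cz _))
    have r1 := (H.R_zu hG).trans (hτ.r m1)
    have r2 : F.R 𝓈 _ := (R.of (conj_s (v := ⟨c, -c, false, true⟩) (by simp [mul_def, one_def]) rfl)).trans (hτ.r m2)
    generalize τ 𝓊 = y at *
    generalize τ ⟨c, -c, false, true⟩ = y' at *
    obtain ⟨a1, b1, e', d⟩ := y
    obtain ⟨a2, b2, e'', d'⟩ := y'
    obtain rfl : d = false := d1
    obtain rfl : d' = false := d2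
    cases e''
    · exact hs ((H.R_V hG (r2.sq ss) (r2.ne_one s1) rfl rfl).trans r2.symm)
    have ev : ∀ i, i + i = 0 ∨ i + i = h → ∃ c, i = c + c := by
      rintro i (hi | hi)
      · exact H.even hi
      · obtain ⟨c, hc⟩ := H.even (i := i - k) (by linear_combination hi - H.kk)
        exact ⟨c + k', by linear_combination hc - hk⟩
    cases e'
    · rcases e1 with e1 | e1 <;> simp [e1, mul_def, H.h0.symm] at e2
    · simp only [mul_def, sg_true, cond_false, Bool.xor_self, sg_false] at e2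
      obtain ⟨i, hi⟩ := ev (a1 + -a2) (by rcases e1 with e1 | e1 <;> have := congrArg Mo.a (e2.trans e1) <;> tauto)
      obtain ⟨j, hj⟩ := ev (b1 + -b2) (by rcases e1 with e1 | e1 <;> have := congrArg Mo.b (e2.trans e1) <;> tauto)
      refine hs (r1.trans (R.trans (R.symm (R.of ?_)) r2.symm))
      rw [← sub_eq_add_neg] at hi hj
      rw [eq_add_of_sub_eq' hi, eq_add_of_sub_eq' hj]
      exact conj_w _ _ _ _
  have sw : F.R 𝓈 𝓌 := (H.two_cl hG (by simp [mul_def, one_def]) (by simp [one_def])).1.resolve_left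
    (by simpa using c1 0 0)
  obtain ⟨w, r, hw⟩ := exists_ext (F := F) 𝓈
  cases hd : w.d
  · obtain ⟨x, τ, hτ, e⟩ := ext_cent hw r
    have he : w.e = true := eq_true_of_ne_false fun he => hs ((H.R_V hG (r.sq ss) (r.ne_one s1) he hd).trans r.symm)
    have m1 : (⟨k', k', false, false⟩ : Mo Z) * 𝓈 = 𝓈 * ⟨k', k', false, false⟩ := by simp [mul_def]
    have m2 : (⟨k, k, false, false⟩ : Mo Z) * 𝓈 = 𝓈 * ⟨k, k, false, false⟩ := by simp [mul_def]
    have e1 := hτ.mul_eq m1 m1 m2 (by simp [mul_def, hk])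
    have e2 := hτ.mul_eq m2 m2 (H.cz _).symm (by simp [mul_def, H.kk])
    have c := (hτ.comm_iff m2 rfl).2 m2
    have he' : (τ ⟨k, k, false, false⟩).e = false := by rw [← e1, mul_e, Bool.xor_self]
    have hd' : (τ ⟨k, k, false, false⟩).d = false := by rw [← e1, mul_d, Bool.xor_self]
    refine (hτ.r (H.cz _).symm).ne_one H.z1 ?_
    rw [← e2]
    rw [e] at c
    generalize τ ⟨k, k, false, false⟩ = y at *
    obtain ⟨a1, b1, e', d⟩ := y
    obtain ⟨a2, b2, e'', d'⟩ := w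
    obtain rfl : d = false := hd'
    obtain rfl : d' = false := hd
    obtain rfl : e' = false := he'
    obtain rfl : e'' = true := he
    simp only [mul_def, Mo.mk.injEq, sg_true, sg_false, cond_false, one_def] at c ⊢
    exact ⟨by linear_combination c.1, by linear_combination c.2.1, rfl, rfl⟩
  · obtain ⟨x, τ, hτ, e⟩ := ext_cent hw (sw.symm.trans r)
    have key : ∀ g, g * 𝓌 = 𝓌 * g → F.R 𝓏 g → τ g = 𝓏 := fun g h1 h2 => by
      have r1 := h2.trans (hτ.r h1)
      have c := (hτ.comm_iff h1 rfl).2 h1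
      rw [e] at c
      have d1 := nd _ r1
      generalize τ g = y at *
      obtain ⟨a1, b1, e', d⟩ := y
      obtain rfl : d = false := d1
      cases e'
      · rcases H.inV (r1.sq H.zz) rfl rfl with e | e | e
        exacts [(r1.ne_one H.z1 e).elim, e, absurd (hd.symm.trans (H.comm_uv e c.symm)) (by decide)]
      · obtain ⟨c, rfl⟩ := even_of_comm c.symm hd
        exact (c1 _ _ r1).elim
    have m1 : 𝓊 * 𝓌 = 𝓌 * 𝓊 := by simp [mul_def, H.neg]
    exact H.uz (hτ.inj m1 (H.cz _).symm ((key _ m1 (H.R_zu hG)).trans (key _ (H.cz _).symm (R.refl _)).symm))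

omit hG in
theorem main (F : Fm (Mo Z) G) : (∀ x y : G, orderOf x = 2 → orderOf y = 2 → IsConj x y) ∨
    ((¬ ∃ k', k' + k' = k) ∧ ∃ x y : G, orderOf x = 2 ∧ orderOf y = 2 ∧ ¬ IsConj x y ∧
      ∀ z : G, orderOf z = 2 → IsConj z x ∨ IsConj z y) := by
  have hG : ¬ IsMulCommutative G := fun hc => by
    have := H.comm_uv (g := 𝓈) (Or.inl rfl) (F.inj (by rw [map_mul, map_mul]; exact hc.is_comm.comm _ _))
    exact absurd this (by simp)
  have key : ∀ x : G, orderOf x = 2 → IsConj x (F.φ 𝓏) ∨ IsConj x (F.φ 𝓈) := fun x hx => by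
    obtain ⟨w, h1, h2, h3⟩ := exists_R (F := F) hx
    exact (H.two_cl (F := F) hG h1 h2).1.imp (fun e => (IsConj.trans e h3).symm) fun e => (IsConj.trans e h3).symm
  by_cases hs : F.R 𝓏 𝓈
  · have : ∀ x : G, orderOf x = 2 → IsConj x (F.φ 𝓏) := fun x hx => (key x hx).elim id fun e => e.trans hs.symm
    exact Or.inl fun x y hx hy => (this x hx).trans (this y hy).symm
  · exact Or.inr ⟨fun ⟨_, hk⟩ => hs (H.all_conj hG hk), _, _, ord H.zz H.z1,
      ord (by simp [mul_def, one_def]) (by simp [one_def]), hs, key⟩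

end ZH

end Cfsg.Agent.H4.G2
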