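import Cfsg.Agent.H4.G2f
import Cfsg.Agent.H4.G2g
import Cfsg.Agent.H5.Quaternion

/-! # The Sylow `2`-subgroups of `G₂(q)`, `q` odd -/

set_option autoImplicit false
set_option linter.unusedSectionVars false

namespace Cfsg.Agent.H4.G2

open Matrix Cfsg.Lie Subgroup Cfsg.Agent.H8
open scoped MatrixGroups

theorem zh (m : ℕ) : ZH (2 ^ (m + 1) : ZMod (2 ^ (m + 2))) (2 ^ m) where
  kk := by ring
  hh := by
    have := ZMod.natCast_self (2 ^ (m + 2))
    push_cast at this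
    linear_combination this
  h0 e := by
    have : ((2 ^ (m + 1) : ℕ) : ZMod (2 ^ (m + 2))) = 0 := by exact_mod_cast e
    have := Nat.le_of_dvd (by positivity) ((ZMod.natCast_eq_zero_iff _ _).1 this)
    exact absurd this (not_le.2 (Nat.pow_lt_pow_right (by norm_num) (by omega)))
  two i hi := ((ZMod.neg_eq_self_iff i).1 (neg_eq_of_add_eq_zero_left hi)).imp_right fun e => by
    rw [← ZMod.natCast_zmod_val i, show i.val = 2 ^ (m + 1) from
      Nat.eq_of_mul_eq_mul_left two_pos (e.trans (pow_succ' 2 (m + 1)))]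
    push_cast; rfl

theorem card_Mo (Z : Type*) : Nat.card (Mo Z) = Nat.card Z * Nat.card Z * 4 := by
  rw [Nat.card_congr (⟨fun v => (v.a, v.b, v.e, v.d), fun p => ⟨p.1, p.2.1, p.2.2.1, p.2.2.2⟩, fun _ => rfl,
    fun _ => rfl⟩ : Mo Z ≃ Z × Z × Bool × Bool)]
  simp [mul_assoc]

theorem exists_hom {Γ : Type*} [Group Γ] {N : ℕ} [NeZero N] {x y w s : Γ} (hx : x ^ N = 1) (hy : y ^ N = 1)
    (hxy : Commute x y) (wx : w * x * w⁻¹ = x⁻¹) (wy : w * y * w⁻¹ = y⁻¹) (sx : s * x * s⁻¹ = y) (ww : w * w = 1)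
    (ss : s * s = 1) (ws : w * s = s * w) : ∃ θ : Mo (ZMod N) →* Γ, ∀ a b e d,
      θ ⟨a, b, e, d⟩ = x ^ a.val * y ^ b.val * (bif e then w else 1) * (bif d then s else 1) := by
  have add : ∀ x : Γ, x ^ N = 1 → ∀ i j : ZMod N, x ^ (i + j).val = x ^ i.val * x ^ j.val := fun x hx i j => by
    rw [ZMod.val_add, ← pow_eq_pow_mod _ hx, pow_add]
  have neg : ∀ x : Γ, x ^ N = 1 → ∀ i : ZMod N, x ^ (-i).val = (x ^ i.val)⁻¹ := fun x hx i => by
    rw [eq_inv_iff_mul_eq_one, ← add x hx, neg_add_cancel, ZMod.val_zero, pow_zero]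
  have sy : s * y * s⁻¹ = x := by
    rw [← sx, ← mul_assoc, ← mul_assoc, ss, one_mul, mul_assoc, ← _root_.mul_inv_rev, ss, inv_one, mul_one]
  have mv : ∀ (g u v : Γ), g * u * g⁻¹ = v → ∀ (n : ℕ) r, g * (u ^ n * r) = v ^ n * (g * r) := fun g u v h n r => by
    rw [← h, conj_pow]; group
  have w1 := mv _ _ _ wx
  have w2 := mv _ _ _ wy
  have s1 := mv _ _ _ sx
  have s2 := mv _ _ _ sy
  have c1 : ∀ (i j : ℕ) r, y ^ j * (x ^ i * r) = x ^ i * (y ^ j * r) := fun i j r => by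
    rw [← mul_assoc, ← (hxy.pow_pow i j).eq, mul_assoc]
  have c2 : ∀ (i j : ℕ) r, y ^ j * ((x ^ i)⁻¹ * r) = (x ^ i)⁻¹ * (y ^ j * r) := fun i j r => by
    rw [← mul_assoc, ← (hxy.pow_pow i j).inv_left.eq, mul_assoc]
  have c4 : ∀ r, s * (w * r) = w * (s * r) := fun r => by rw [← mul_assoc, ← ws, mul_assoc]
  have c5 : ∀ r, w * (w * r) = r := fun r => by rw [← mul_assoc, ww, one_mul]
  have c6 : ∀ r, s * (s * r) = r := fun r => by rw [← mul_assoc, ss, one_mul]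
  refine ⟨MonoidHom.mk' (fun v => x ^ v.a.val * y ^ v.b.val * (bif v.e then w else 1) * (bif v.d then s else 1)) ?_,
    fun _ _ _ _ => rfl⟩
  rintro ⟨a, b, e, d⟩ ⟨a', b', e', d'⟩
  refine mul_right_cancel (b := w) ?_
  cases e <;> cases d <;> cases e' <;> cases d' <;>
    simp only [Mo.mul_def, Mo.sg_true, Mo.sg_false, cond_true, cond_false, add x hx, add y hy, neg x hx, neg y hy,
      mul_assoc, one_mul, w1, w2, s1, s2, c1, c2, c4, c5, c6, inv_pow, Bool.xor_self, Bool.xor_false,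
      Bool.false_xor]

variable {F : Type*} [Field F] [Fintype F]

local instance : Fact (Nat.Prime 2) := Nat.fact_prime_two

theorem sylow_SL2 (hF : Odd (Fintype.card F)) : ∃ (m : ℕ) (a b : SL(2, F)), a ^ 2 ^ (m + 1) = -1 ∧ b * b = -1 ∧
    b * a * b⁻¹ = a⁻¹ ∧ (Nat.card SL(2, F)).factorization 2 = m + 3 := by
  have h2 := H5.two_ne_zero_of_odd_card hF
  obtain ⟨p, hp⟩ := CharP.exists F
  have := CharP.char_ne_zero_of_finite F p
  have : NeZero p := ⟨this⟩
  obtain ⟨u, v, huv⟩ := CharP.sq_add_sq F p (-1)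
  push_cast at huv
  let i : SL(2, F) := H5.wSL
  let j : SL(2, F) := SL2.mk (u : F) v v (-u) (by linear_combination -huv)
  have ii : i * i = -1 := H5.wSL_mul_self
  have jj : j * j = -1 := by
    apply SL2.ext4 <;> simp only [j] <;> sl2_simp <;> first | ring1 | linear_combination huv
  have ji : j * i = -(i * j) := by
    apply SL2.ext4 <;> simp only [i, j, H5.wSL] <;> sl2_simp <;> ring
  have pg : ∀ i : SL(2, F), i * i = -1 → IsPGroup 2 (zpowers i) := fun i hi =>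
    IsPGroup.of_card_dvd_pow (n := 2) (by
      rw [Nat.card_zpowers]
      exact orderOf_dvd_of_pow_eq_one (by rw [show 2 ^ 2 = 2 * 2 from rfl, pow_mul, pow_two i, hi]; simp))
  have nm : zpowers j ≤ normalizer (zpowers i : Set SL(2, F)) := zpowers_le.2 (mem_normalizer_of_cj_le (by
    rw [cj, MonoidHom.map_zpowers, zpowers_le]
    change j * i * j⁻¹ ∈ _
    rw [ji, neg_mul, mul_inv_cancel_right, ← neg_one_mul, ← ii]
    exact mul_mem (mul_mem (mem_zpowers i) (mem_zpowers i)) (mem_zpowers i)))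
  obtain ⟨P, hP⟩ := ((pg i ii).to_sup_of_normal_left' (pg j jj) nm).exists_le_sylow
  have inv : ∀ x : SL(2, F), orderOf x = 2 → x = -1 := fun x hx =>
    (SL2.eq_one_or_neg_one_of_mul_self h2 (H9.mul_self_of_orderOf_two hx)).resolve_left (by rintro rfl; simp at hx)
  rcases H5.cyclic_or_quaternion_of_no_four P.isPGroup' (fun E _ hE h4 => by
    obtain ⟨x, -, y, -, e1, e2, e3⟩ := H5.exists_not_mem_zpowers_of_card_sq hE h4
    exact e3 (by rw [inv x e1, inv y e2]; exact mem_zpowers _)) with hc | ⟨m, a, b, h1, h3, h4, h5, h6, h7⟩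
  · have := congrArg Subtype.val (hc.isMulCommutative.is_comm.comm ⟨j, hP (mem_sup_right (mem_zpowers j))⟩
      ⟨i, hP (mem_sup_left (mem_zpowers i))⟩)
    have e : j * i = i * j := this
    rw [ji, ← neg_one_mul, mul_eq_right] at e
    exact (SL2.neg_one_ne_one h2 e).elim
  obtain ⟨m, rfl⟩ : ∃ m', m = m' + 1 := ⟨m - 1, by omega⟩
  have e1 : a ^ 2 ^ (m + 1) = -1 := inv _ (by
    rw [orderOf_pow_of_dvd (by positivity) (h3 ▸ pow_dvd_pow 2 (by omega)), h3, pow_succ 2 (m + 1),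
      Nat.mul_div_cancel_left _ (by positivity)])
  refine ⟨m, a, b, e1, by rw [← pow_two, h5, e1], h6, Nat.pow_right_injective (le_refl 2) ?_⟩
  obtain ⟨e⟩ := H5.nonempty_equiv_quaternion (n := 2 ^ (m + 1)) (by rw [h3, pow_succ']) h4 h5 h6
  have := Nat.card_congr e.toEquiv
  rw [← h7, Nat.card_eq_fintype_card (α := QuaternionGroup _), QuaternionGroup.card] at this
  simp only
  rw [← P.card_eq_multiplicity]
  exact this.trans (by ring)

theorem exists_theta (hF : Odd (Fintype.card F)) : ∃ (m : ℕ) (θ : Mo (ZMod (2 ^ (m + 2))) →* GL (Fin 8) F),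
    θ.range ≤ (YD F).map psi ∧ θ ⟨2 ^ (m + 1), 2 ^ (m + 1), false, false⟩ = z8 F ∧
    (Nat.card SL(2, F)).factorization 2 = m + 3 := by
  have h2 := H5.two_ne_zero_of_odd_card hF
  obtain ⟨m, α, β, h1, h3, h4, h5⟩ := sylow_SL2 hF
  have n1 : SpecialLinearGroup.toGL (-1 : SL(2, F)) = -1 := Units.ext rfl
  obtain ⟨a, ha⟩ : ∃ a, a = SpecialLinearGroup.toGL α := ⟨_, rfl⟩
  obtain ⟨b, hb⟩ : ∃ b, b = SpecialLinearGroup.toGL β := ⟨_, rfl⟩
  have a1 : a ^ 2 ^ (m + 1) = -1 := by rw [ha, ← map_pow, h1, n1]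
  have bb : b * b = -1 := by rw [hb, ← map_mul, h3, n1]
  have ba : b * a * b⁻¹ = a⁻¹ := by rw [ha, hb, ← map_inv, ← map_mul, ← map_mul, h4, map_inv]
  have da : a.1.det = 1 := by rw [ha]; exact α.2
  have db : b.1.det = 1 := by rw [hb]; exact β.2
  have d0 : (1 + a.1).det ≠ 0 := fun e => by
    have := mul_neg_geom_sum (-a.1) (2 ^ (m + 1))
    rw [sub_neg_eq_add, Even.neg_pow (Nat.even_pow.2 ⟨even_two, by omega⟩), ← Units.val_pow_eq_pow_val, a1] at this
    have := congrArg det this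
    rw [det_mul, e, zero_mul] at this
    simp [det_fin_two] at this
    exact h2 (by linear_combination this)
  obtain ⟨δ, hδ⟩ : ∃ δ : GL (Fin 2) F, δ.1 = 1 + a.1 := ⟨GeneralLinearGroup.mkOfDetNeZero _ d0, rfl⟩
  obtain ⟨ε, hε⟩ : ∃ ε, ε = a⁻¹ * δ := ⟨_, rfl⟩
  have hε' : ε.1 = 1 + a⁻¹.1 := by rw [hε, Units.val_mul, hδ, mul_add, Units.inv_mul, mul_one, add_comm]
  have aδ : Commute a δ := Units.ext (by simp [hδ, mul_add, add_mul])
  have δε : Commute δ ε := hε ▸ aδ.symm.inv_right.mul_right rfl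
  have bδ : b * δ = ε * b := Units.ext (by
    rw [Units.val_mul, Units.val_mul, hδ, hε', ← ba]; simp [mul_add, add_mul, mul_assoc, -coe_units_inv])
  have bε : b * ε = δ * b := Units.ext (by
    rw [Units.val_mul, Units.val_mul, hδ, hε', mul_add, add_mul, ← Units.val_mul, ← Units.val_mul,
      show b * a⁻¹ = a * b by rw [← mul_inv_eq_iff_eq_mul, ← conj_inv, ba, inv_inv], mul_one, one_mul])
  have hσ : psi (δ * ε, δ * ε) = 1 := psi_scalar (l := 2 + a.1.trace) (by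
    have : a⁻¹.1 = adjugate a.1 := by rw [ha]; rfl
    rw [Units.val_mul, hδ, hε', add_mul, mul_add, mul_add, Units.mul_inv, this, adjugate_fin_two]
    ext i j
    fin_cases i <;> fin_cases j <;> simp [trace_fin_two] <;> ring)
  have hm : psi ((-1, -1) : GL (Fin 2) F × GL (Fin 2) F) = 1 := psi_scalar (l := -1) (by simp)
  have δa : δ = a * ε := by rw [hε, mul_inv_cancel_left]
  obtain ⟨x, hx⟩ : ∃ x, x = psi (δ, δ) := ⟨_, rfl⟩
  obtain ⟨y, hy⟩ : ∃ y, y = psi (δ, ε) := ⟨_, rfl⟩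
  obtain ⟨w, hw⟩ : ∃ w, w = psi (b, b) := ⟨_, rfl⟩
  obtain ⟨s, hs⟩ : ∃ s, s = psi (1, b) := ⟨_, rfl⟩
  have δδ : δ * δ = a * (δ * ε) := by rw [δε.eq, ← mul_assoc, ← δa]
  have εε : ε * ε = a⁻¹ * (δ * ε) := by rw [← mul_assoc, ← hε]
  have x2 : x ^ 2 = psi (a, a) := by
    rw [← mul_one (psi (a, a)), ← hσ, hx, pow_two, ← map_mul, ← map_mul, Prod.mk_mul_mk, Prod.mk_mul_mk, δδ]
  have y2 : y ^ 2 = psi (a, a⁻¹) := by
    rw [← mul_one (psi (a, a⁻¹)), ← hσ, hy, pow_two, ← map_mul, ← map_mul, Prod.mk_mul_mk, Prod.mk_mul_mk, δδ, εε]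
  have xN : x ^ 2 ^ (m + 2) = 1 := by rw [pow_succ', pow_mul, x2, ← map_pow, Prod.pow_mk, a1, hm]
  have yN : y ^ 2 ^ (m + 2) = 1 := by rw [pow_succ', pow_mul, y2, ← map_pow, Prod.pow_mk, inv_pow, a1, inv_neg, inv_one, hm]
  have xy : Commute x y := by
    rw [hx, hy]; exact Commute.map (show (δ, δ) * (δ, ε) = (δ, ε) * (δ, δ) from Prod.ext rfl δε.eq) psi
  have xyz : x ^ 2 ^ (m + 1) * y ^ 2 ^ (m + 1) = z8 F := by
    rw [pow_succ', pow_mul, pow_mul, x2, y2, ← Commute.mul_pow, ← map_mul, ← map_pow, Prod.mk_mul_mk, mul_inv_cancel,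
      Prod.pow_mk, ← pow_two, ← pow_mul, ← pow_succ', a1, one_pow, z8, ← one_mul (psi ((1, -1) : GL (Fin 2) F × GL (Fin 2) F)),
      ← hm, ← map_mul]
    · simp
    · exact Commute.map (show (a, a) * (a, a⁻¹) = (a, a⁻¹) * (a, a) from Prod.ext rfl (by simp)) psi
  have wx : w * x * w⁻¹ = x⁻¹ := by
    rw [mul_inv_eq_iff_eq_mul, eq_inv_mul_iff_mul_eq]
    conv_rhs => rw [← one_mul w, ← hσ]
    simp only [hw, hx, ← map_mul, Prod.mk_mul_mk, mul_assoc, bδ]
  have wy : w * y * w⁻¹ = y⁻¹ := by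
    rw [mul_inv_eq_iff_eq_mul, eq_inv_mul_iff_mul_eq]
    conv_rhs => rw [← one_mul w, ← hσ]
    simp only [hw, hy, ← map_mul, Prod.mk_mul_mk, mul_assoc, bδ, bε]
    rw [← mul_assoc ε, ← δε.eq, mul_assoc]
  have sx : s * x * s⁻¹ = y := by
    rw [mul_inv_eq_iff_eq_mul, hs, hx, hy, ← map_mul, ← map_mul, Prod.mk_mul_mk, Prod.mk_mul_mk, bδ, one_mul, mul_one]
  have ww : w * w = 1 := by rw [hw, ← map_mul, Prod.mk_mul_mk, bb, hm]
  have ss : s * s = z8 F := by rw [hs, ← map_mul, Prod.mk_mul_mk, bb, one_mul, z8]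
  have ws : w * s = s * w := by rw [hw, hs, ← map_mul, ← map_mul, Prod.mk_mul_mk, Prod.mk_mul_mk, one_mul, mul_one]
  have zz : z8 F * z8 F = 1 := by rw [z8, ← map_mul]; simp [← Prod.one_eq_mk]
  have xx : x ^ 2 ^ (m + 1) * x ^ 2 ^ (m + 1) = 1 := by rw [← pow_add, ← two_mul, ← pow_succ', xN]
  obtain ⟨θ, hθ⟩ := exists_hom (s := s * x ^ 2 ^ (m + 1)) xN yN xy wx wy (by rw [← sx]; group) ww (by
      have e : x ^ 2 ^ (m + 1) = s⁻¹ * y ^ 2 ^ (m + 1) * s := by rw [← sx, conj_pow]; group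
      have zs : s * z8 F = z8 F * s := by rw [← ss, mul_assoc]
      calc _ = s * (x ^ 2 ^ (m + 1) * (s * x ^ 2 ^ (m + 1) * s⁻¹)) * s := by group
        _ = s * z8 F * s := by rw [← conj_pow, sx, xyz]
        _ = 1 := by rw [zs, mul_assoc, ss, zz])
    (by rw [← mul_assoc, ws, mul_assoc, mul_assoc, mul_right_inj, ← mul_inv_eq_iff_eq_mul, ← conj_pow, wx, inv_pow,
      inv_eq_of_mul_eq_one_right xx])
  have mx : x ∈ (YD F).map psi := hx ▸ mem_map_of_mem _ (mem_YD.2 rfl)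
  have my : y ∈ (YD F).map psi := hy ▸ mem_map_of_mem _ (mem_YD.2 (by rw [δa, Units.val_mul, det_mul, da, one_mul]))
  have mw : w ∈ (YD F).map psi := hw ▸ mem_map_of_mem _ (mem_YD.2 rfl)
  have ms : s ∈ (YD F).map psi := hs ▸ mem_map_of_mem _ (mem_YD.2 (by simp [db]))
  refine ⟨m, θ, ?_, ?_, h5⟩
  · rintro _ ⟨⟨i, j, e, d⟩, rfl⟩
    rw [hθ]
    refine mul_mem (mul_mem (mul_mem (pow_mem mx _) (pow_mem my _)) ?_) ?_
    · cases e; exacts [one_mem _, mw]
    · cases d; exacts [one_mem _, mul_mem ms (pow_mem mx _)]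
  · have : (2 ^ (m + 1) : ZMod (2 ^ (m + 2))).val = 2 ^ (m + 1) := by
      have := ZMod.val_cast_of_lt (Nat.pow_lt_pow_right (by norm_num : 1 < 2) (by omega : m + 1 < m + 2))
      exact_mod_cast this
    rw [hθ, this, xyz]; simp

theorem exists_model (hF : Odd (Fintype.card F)) (P : Sylow 2 (chevG2.group F)) :
    ∃ m : ℕ, Nonempty (Mo (ZMod (2 ^ (m + 2))) ≃* P) := by
  classical
  have h2 := H5.two_ne_zero_of_odd_card hF
  obtain ⟨m, θ, h1, h3, h4⟩ := exists_theta hF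
  have H := zh m
  have c : Nat.card (Mo (ZMod (2 ^ (m + 2)))) = 2 ^ (2 * (m + 3)) := by rw [card_Mo, Nat.card_zmod]; ring
  have : Finite (Mo (ZMod (2 ^ (m + 2)))) := Nat.finite_of_card_ne_zero (by rw [c]; positivity)
  have pg : IsPGroup 2 (Mo (ZMod (2 ^ (m + 2)))) := IsPGroup.of_card c
  have inj : Function.Injective θ := by
    rw [← MonoidHom.ker_eq_bot_iff]
    by_contra hn
    have := pg.isNilpotent
    obtain ⟨g, hg⟩ := exists_prime_orderOf_dvd_card' (G := (θ.ker ⊓ center _ : Subgroup _)) 2 (by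
      obtain ⟨n, e⟩ := (pg.to_subgroup (θ.ker ⊓ center _)).exists_card_eq
      rw [e]
      refine dvd_pow_self 2 ?_
      rintro rfl
      exact L0.inf_center_ne_bot_of_isNilpotent hn (card_eq_one.1 e))
    rw [← orderOf_coe] at hg
    rcases H.central (H9.mul_self_of_orderOf_two hg) (mem_center_iff.1 g.2.2) with e | e
    · simp [e] at hg
    · exact psi_z_ne h2 (by rw [← h3, ← e]; exact g.2.1)
  have pr : IsPGroup 2 θ.range := pg.of_surjective _ θ.rangeRestrict_surjective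
  have s1 : IsSylowIn 2 θ.range ((YD F).map psi) := by
    obtain ⟨Q, hQ⟩ := exists_isSylowIn 2 ((YD F).map psi)
    refine hQ.of_card_ge pr h1 ?_
    rw [hQ.card_eq, ← Nat.card_congr (MonoidHom.ofInjective inj).toEquiv, c]
    refine Nat.pow_le_pow_right (by norm_num) ?_
    have n0 := (Nat.card_pos (α := SL(2, F))).ne'
    have := (Nat.factorization_le_iff_dvd Nat.card_pos.ne' (mul_ne_zero n0 n0)).2 card_map_dvd 2
    rw [Nat.factorization_mul n0 n0, Finsupp.add_apply, h4] at this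
    omega
  have s2 : IsSylowIn 2 θ.range (G8 F) := IsSylowIn.of_normalizer (h1.trans map_le) (s1.of_le
    (le_inf (h1.trans map_le) le_normalizer) fun g hg => cent_le h2 (G8_le hg.1) (by
      obtain ⟨v, hv⟩ := (mem_normalizer_iff.1 hg.2 _).1 ⟨_, h3⟩
      have e : v = 1 ∨ v = ⟨2 ^ (m + 1), 2 ^ (m + 1), false, false⟩ := H.central
        (inj (by rw [map_mul, hv, conj_mul, ← h3, ← map_mul, H.zz]; simp)) fun x => inj (by
          obtain ⟨x', hx'⟩ := (mem_normalizer_iff.1 (inv_mem hg.2) _).1 ⟨x, rfl⟩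
          rw [map_mul, map_mul, hv, show θ x = g * θ x' * g⁻¹ by rw [hx']; group, conj_mul, conj_mul, ← h3, ← map_mul,
            ← map_mul, H.cz])
      rcases e with rfl | rfl
      · rw [map_one, eq_comm, conj_eq_one_iff] at hv
        exact (psi_z_ne h2 hv).elim
      · rw [← mul_inv_eq_iff_eq_mul, ← hv, h3]))
  obtain ⟨e⟩ := exists_iso h2
  exact ⟨m, ⟨(((MonoidHom.ofInjective inj).trans (subgroupOfEquivOfLe s2.le).symm).trans
    (Sylow.equiv s2.toSylow (P.mapSurjective (f := e.toMonoidHom) e.surjective))).trans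
    (equivMapOfInjective _ e.toMonoidHom e.injective).symm⟩⟩

end Cfsg.Agent.H4.G2
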