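import Cfsg.Agent.FT.P02b

/-! Hall and Higman, Theorem B: linear algebra. -/

set_option autoImplicit false
set_option linter.unusedSectionVars false

namespace Cfsg.Agent.H4.HH

open Subgroup Module Cfsg.Agent.FT Cfsg.Agent.FT.Rp Cfsg.Agent.FT.B02 Cfsg.Agent.L0 Cfsg.Agent.H8

universe u w

variable {F : Type*} [Field F] {W : Type w} [AddCommGroup W] [Module F W] {p : ℕ} [hp : Fact p.Prime] [CharP F p]

theorem geo {A : Type*} [Ring A] [Algebra F A] (u : A) (k : ℕ) :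
    ∑ i ∈ Finset.range (p ^ k), u ^ i = (u - 1) ^ (p ^ k - 1) ∧ (u - 1) ^ p ^ k = u ^ p ^ k - 1 := by
  have h2 : (Polynomial.X - 1 : Polynomial F) ^ p ^ k = Polynomial.X ^ p ^ k - 1 := by rw [sub_pow_char_pow, one_pow]
  have h1 : ∑ i ∈ Finset.range (p ^ k), (Polynomial.X : Polynomial F) ^ i = (Polynomial.X - 1) ^ (p ^ k - 1) := by
    refine mul_left_cancel₀ (Polynomial.X_sub_C_ne_zero 1) ?_
    rw [map_one, mul_geom_sum, ← pow_succ', Nat.sub_add_cancel (Nat.one_le_pow _ _ hp.out.pos), h2]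
  exact ⟨by simpa using congrArg (Polynomial.aeval u) h1, by simpa using congrArg (Polynomial.aeval u) h2⟩

theorem nak {ξ : End F W} {n : ℕ} (h0 : ξ ^ n = 0) (U : Submodule F W) (hU : ∀ v ∈ U, ξ v ∈ U)
    (h : ∀ v, ∃ w, v - ξ w ∈ U) (v : W) : v ∈ U := by
  have : ∀ k v, ∃ w, v - (ξ ^ k) w ∈ U := fun k => by
    induction k with
    | zero => exact fun v => ⟨v, by simp⟩
    | succ k ih =>
      intro v
      obtain ⟨w, hw⟩ := h v
      obtain ⟨z, hz⟩ := ih w
      exact ⟨z, by simpa [pow_succ'] using add_mem hw (hU _ hz)⟩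
  simpa [h0] using this n v

theorem filt {ξ Y : End F W} (hc : ξ * Y = Y * ξ) {η : End F (End F W)} (hη : ∀ Φ, η Φ = (ξ * Φ - Φ * ξ) * Y) (Ψ : End F W)
    (k : ℕ) : ∀ j s v, (ξ ^ j) v = 0 → j + s ≤ k + 1 → (η ^ k) Ψ v ∈ LinearMap.range (ξ ^ s) := by
  have triv : ∀ (Φ : End F W) j s v, (ξ ^ j) v = 0 → j = 0 ∨ s = 0 → Φ v ∈ LinearMap.range (ξ ^ s) := by
    rintro Φ j s v hv (rfl | rfl)
    · rw [show v = 0 from hv, map_zero]; exact zero_mem _
    · exact ⟨_, rfl⟩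
  induction k with
  | zero => exact fun j s v hv h => triv _ j s v hv (by omega)
  | succ k ih =>
    intro j s v hv h
    rcases j with _ | j
    · exact triv _ _ s v hv (Or.inl rfl)
    rcases s with _ | s
    · exact triv _ _ _ v hv (Or.inr rfl)
    have h1 : (ξ ^ (j + 1)) (Y v) = 0 := by
      rw [← End.mul_apply, (Commute.pow_left hc _).eq, End.mul_apply, hv, map_zero]
    obtain ⟨w, hw⟩ := ih (j + 1) s _ h1 (by omega)
    rw [pow_succ' η, End.mul_apply, hη, End.mul_apply, LinearMap.sub_apply, End.mul_apply, End.mul_apply, ← hw]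
    exact sub_mem ⟨w, by rw [pow_succ', End.mul_apply]⟩ (ih j (s + 1) _ (by rwa [pow_succ] at h1) (by omega))

theorem jor [FiniteDimensional F W] {ξ : End F W} {N : ℕ} (h1 : ξ ≠ 0) (h0 : ξ ^ (N + 1) = 0)
    (H : ∀ j s, ξ ^ j = 0 → j + s ≤ N + 2 → ∀ Y, ξ * Y = Y * ξ → ∃ c : F, ∀ v, Y v - c • v ∈ LinearMap.range (ξ ^ s)) :
    ξ ^ N ≠ 0 ∧ finrank F W = N + 1 := by
  have h2 : ξ ^ N ≠ 0 := fun h2 => by
    obtain ⟨c, hc⟩ := H N 2 h2 le_rfl ξ rfl
    refine h1 (LinearMap.ext fun v => ?_)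
    by_cases c0 : c = 0
    · refine nak h0 (LinearMap.ker ξ) (fun v hv => by simp [show ξ v = 0 from hv]) (fun v => ?_) v
      obtain ⟨w, hw⟩ := hc v
      exact ⟨w, by simpa [c0, pow_two, sub_eq_zero] using hw.symm⟩
    · rw [show v = 0 from nak h0 ⊥ (fun v hv => by simp [show v = 0 from hv]) (fun v => ?_) v, map_zero, map_zero]
      obtain ⟨w, hw⟩ := hc v
      refine ⟨c⁻¹ • (v - ξ w), ?_⟩
      rw [map_smul, map_sub, ← End.mul_apply, ← pow_two, hw, sub_sub_cancel, inv_smul_smul₀ c0, sub_self]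
      exact zero_mem _
  obtain ⟨m, hm⟩ := DFunLike.ne_iff.1 h2
  obtain ⟨f, hf⟩ := Projective.exists_dual_eq_one F hm
  let φ : End F W := ∑ i ∈ Finset.range (N + 1), (f ∘ₗ ξ ^ (N - i)).smulRight ((ξ ^ i) m)
  have hφ : ∀ v, φ v = ∑ i ∈ Finset.range (N + 1), f ((ξ ^ (N - i)) v) • (ξ ^ i) m := fun v => by
    simp [φ, LinearMap.sum_apply]
  obtain ⟨c, hc⟩ := H (N + 1) 1 h0 le_rfl φ (LinearMap.ext fun v => by
    rw [End.mul_apply, End.mul_apply, hφ, hφ, map_sum, Finset.sum_range_succ, Finset.sum_range_succ', map_smul,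
      ← End.mul_apply ξ, ← pow_succ', Nat.sub_zero, ← End.mul_apply (ξ ^ N), ← pow_succ, h0]
    simp only [LinearMap.zero_apply, smul_zero, map_zero, zero_smul, add_zero]
    refine Finset.sum_congr rfl fun i hi => ?_
    rw [map_smul, ← End.mul_apply ξ, ← pow_succ', ← End.mul_apply _ ξ, ← pow_succ,
      show N - (i + 1) + 1 = N - i by have := Finset.mem_range.1 hi; omega])
  have h3 : ∀ v, f ((ξ ^ N) v) • m - c • v ∈ LinearMap.range ξ := fun v => by
    have := hc v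
    rw [pow_one, hφ, Finset.sum_range_succ', add_sub_assoc] at this
    exact (add_mem_cancel_left (sum_mem fun i _ => Submodule.smul_mem _ _
      (LinearMap.mem_range.2 ⟨_, by rw [pow_succ', End.mul_apply]⟩))).1 this
  obtain rfl : c = 1 := by
    by_contra hn
    obtain ⟨w, hw⟩ := h3 m
    have := congrArg (ξ ^ N) hw
    rw [hf, ← sub_smul, map_smul, ← End.mul_apply, ← pow_succ, h0] at this
    exact hm ((smul_eq_zero.1 this.symm).resolve_left (sub_ne_zero.2 (Ne.symm hn)))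
  refine ⟨h2, le_antisymm ?_ (not_lt.1 fun h => hm ?_)⟩
  · let b := fun i : Fin (N + 1) => (ξ ^ (i : ℕ)) m
    have h4 : Submodule.span F (Set.range b) = ⊤ := eq_top_iff.2 fun v _ => nak h0 _ (fun v hv => ?_) (fun v => ?_) v
    · have := finrank_range_le_card (R := F) b
      rwa [Set.finrank, h4, finrank_top, Fintype.card_fin] at this
    · refine Submodule.span_induction ?_ (by simp) (fun _ _ _ _ a b => by rw [map_add]; exact add_mem a b)
        (fun a _ _ h => by rw [map_smul]; exact Submodule.smul_mem _ _ h) hv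
      rintro _ ⟨i, rfl⟩
      rw [← End.mul_apply, ← pow_succ']
      by_cases hi : i.1 + 1 < N + 1
      · exact Submodule.subset_span ⟨⟨_, hi⟩, rfl⟩
      · rw [show i.1 + 1 = N + 1 by omega, h0]; exact zero_mem _
    · obtain ⟨w, hw⟩ := h3 v
      refine ⟨-w, ?_⟩
      rw [map_neg, hw, one_smul, sub_neg_eq_add, add_sub_cancel]
      exact Submodule.smul_mem _ _ (Submodule.subset_span ⟨0, rfl⟩)
  · have h4 : ∀ n, finrank F W ≤ n → LinearMap.ker (ξ ^ n) = _ := fun n => End.ker_pow_eq_ker_pow_finrank_of_le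
    have : m ∈ LinearMap.ker (ξ ^ N) := by rw [h4 N (by omega), ← h4 (N + 1) h.le, h0]; rfl
    exact this

theorem orb {G M : Type*} [Group G] [Finite G] [AddCommGroup M] (x : G) (I : AddSubgroup M) (T : G → M)
    (hI : ∀ a, ∑ i ∈ Finset.range (orderOf x), T (x ^ i * a * (x ^ i)⁻¹) ∈ I) (s : Finset G) :
    (∀ r ∈ zpowers x, ∀ a ∈ s, r * a * r⁻¹ ∈ s) → (∀ r ∈ zpowers x, ∀ a ∈ s, r * a * r⁻¹ = a → r = 1) →
      ∑ a ∈ s, T a ∈ I := by
  classical
  induction s using Finset.strongInduction with | H s ih =>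
  intro h1 h2
  rcases s.eq_empty_or_nonempty with rfl | ⟨a, ha⟩
  · exact zero_mem _
  let o := (Finset.range (orderOf x)).image fun i => x ^ i * a * (x ^ i)⁻¹
  have ho : ∀ b, b ∈ o ↔ ∃ r ∈ zpowers x, r * a * r⁻¹ = b := fun b => by
    simp only [o, mem_zpowers_iff_mem_range_orderOf, Finset.mem_image, exists_exists_and_eq_and]
  have hs : o ⊆ s := fun b hb => by obtain ⟨r, hr, rfl⟩ := (ho b).1 hb; exact h1 r hr a ha
  rw [← Finset.sum_sdiff hs, Finset.sum_image fun i hi j hj e => pow_injOn_Iio_orderOf (by simpa using hi) (by simpa using hj)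
    (inv_mul_eq_one.1 (h2 _ (mul_mem (inv_mem (npow_mem_zpowers x i)) (npow_mem_zpowers x j)) a ha (by
      calc _ = (x ^ i)⁻¹ * (x ^ j * a * (x ^ j)⁻¹) * x ^ i := by group
        _ = a := by rw [← show _ = _ from e]; group)))]
  refine add_mem (ih _ (Finset.sdiff_ssubset hs ⟨a, (ho a).2 ⟨1, one_mem _, by simp⟩⟩) (fun r hr b hb => ?_)
    fun r hr b hb => h2 r hr b (Finset.mem_sdiff.1 hb).1) (hI a)
  rw [Finset.mem_sdiff] at hb ⊢
  refine ⟨h1 r hr b hb.1, fun h => hb.2 ?_⟩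
  obtain ⟨t, ht, e⟩ := (ho _).1 h
  refine (ho b).2 ⟨r⁻¹ * t, mul_mem (inv_mem hr) ht, ?_⟩
  calc _ = r⁻¹ * (t * a * t⁻¹) * r := by group
    _ = b := by rw [e]; group

end Cfsg.Agent.H4.HH
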