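import Cfsg.Agent.H4.HH1

/-! Hall and Higman, Theorem B: the induction. -/

set_option autoImplicit false
set_option linter.unusedSectionVars false

namespace Cfsg.Agent.H4.HH

open Subgroup Module Cfsg.Agent.FT Cfsg.Agent.FT.Rp Cfsg.Agent.FT.B02 Cfsg.Agent.L0 Cfsg.Agent.H8

universe u w

variable {F : Type*} [Field F] [IsAlgClosed F] {p q : ℕ} [hp : Fact p.Prime] [CharP F p] [hq : Fact q.Prime]

theorem fin {G : Type u} [Group G] [Finite G] {W : Type w} [AddCommGroup W] [Module F W] [FiniteDimensional F W] [Nontrivial W]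
    {L Q : Subgroup G} {ρ : G → End F W} (hρ : RepOn L ρ) (hQ : Q ≤ L) {x : G} (hx : x ∈ L) (hn : x ∈ 𝐍(Q))
    (hD : der Q ≤ Zen Q) {ζ : Zen Q →* F} (hζ : Function.Injective ζ) (hw : wt ρ ζ = ⊤) (hP : (#|Q| : F) ≠ 0)
    (hirr : ∀ T : Submodule F W, T ≠ ⊥ → (∀ q ∈ Q, ∀ w ∈ T, ρ q w ∈ T) → T = ⊤) {n N : ℕ} (ho : orderOf x = p ^ n)
    (hN : p ^ n = N + 2) (hf : ∀ r ∈ zpowers x, ∀ a ∈ Q, a ∉ Zen Q → r * a * r⁻¹ = a → r = 1) (h1 : ρ x - 1 ≠ 0)
    (h0 : (ρ x - 1) ^ (N + 1) = 0) : (ρ x - 1) ^ N ≠ 0 ∧ finrank F W = N + 1 := by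
  classical
  have := Fintype.ofFinite Q
  have := Fintype.ofFinite G
  have hτ := hρ.conjRep
  have hz : ∀ (z : Zen Q) v, ρ z v = ζ z • v := fun z v => (hw.ge Submodule.mem_top : v ∈ wt ρ ζ) z
  refine jor h1 h0 fun j s hj hs Y hY => ?_
  have hY' : ∀ r ∈ zpowers x, conjRep ρ r Y = Y := fun r hr => by
    obtain ⟨i, rfl⟩ := (mem_powers_iff_mem_zpowers.2 hr : ∃ i, x ^ i = r)
    have : Commute (ρ x) Y := by simpa [Commute, SemiconjBy, sub_mul, mul_sub] using hY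
    rw [conjRep_apply, ← mul_assoc, hρ.pow hx, (this.pow_left i).eq, ← hρ.pow hx, mul_assoc, hρ.mul_inv (pow_mem hx i), mul_one]
  have cm : ∀ g ∈ L, ∀ A B, conjRep ρ g (A * B) = conjRep ρ g A * conjRep ρ g B := fun g hg A B => by
    simp only [conjRep_apply, mul_assoc]
    rw [← mul_assoc (ρ g⁻¹), hρ.inv_mul hg, one_mul]
  have cr : ∀ g ∈ L, ∀ a ∈ L, conjRep ρ g (ρ a) = ρ (g * a * g⁻¹) := fun g hg a ha => by
    rw [hρ.conj hg ha, conjRep_apply, mul_assoc]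
  let ε : End F (End F W) := ∑ g : Q, conjRep ρ g
  have hε : ∀ A, ε A = ∑ g : Q, conjRep ρ g A := fun A => LinearMap.sum_apply _ _ _
  have h2 : ∀ A, ∃ c : F, c • 1 = ε A := fun A => Submodule.mem_span_singleton.1 (by
    rw [← fix_conjRep_eq (hρ.mono hQ) le_rfl hirr, hε]; exact hτ.sum_mem_fix hQ A)
  let T : G → End F W := fun h => if h ∈ Q then ε (Y * ρ h⁻¹) * ρ h else 0
  have h3 : ∀ r ∈ zpowers x, ∀ a, T (r * a * r⁻¹) = conjRep ρ r (T a) := fun r hr a => by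
    have k1 := zpowers_le.2 hx hr
    have k2 := mem_normalizer_iff.1 (zpowers_le.2 hn hr)
    by_cases ha : a ∈ Q
    · simp only [T, if_pos ha, if_pos ((k2 a).1 ha)]
      rw [cm r k1, cr r k1 a (hQ ha), show (r * a * r⁻¹)⁻¹ = r * a⁻¹ * r⁻¹ by group, ← cr r k1 _ (hQ (inv_mem ha))]
      conv_lhs => rw [← hY' r hr, ← cm r k1]
      congr 1
      rw [hε, hε, map_sum]
      refine (Fintype.sum_equiv (Q.normalizerMonoidHom ⟨r, zpowers_le.2 hn hr⟩).toEquiv _ _ fun g => ?_).symm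
      rw [hτ.apply_apply k1 (hQ g.2), hτ.apply_apply (hQ (Subtype.prop _)) k1]
      congr 2
      change _ = r * g * r⁻¹ * r
      group
    · simp only [T, if_neg ha, if_neg (mt (k2 a).2 ha), map_zero]
  let I : AddSubgroup (End F W) :=
    { carrier := {Φ | ∀ v, Φ v ∈ LinearMap.range ((ρ x - 1) ^ s)}
      add_mem' := fun a b v => add_mem (a v) (b v)
      zero_mem' := fun v => zero_mem _
      neg_mem' := fun a v => neg_mem (a v) }
  have h4 := orb x I T (fun a v => by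
      rw [Finset.sum_congr rfl fun i _ => (h3 _ (npow_mem_zpowers x i) a).trans (by rw [hτ.pow hx]), ← LinearMap.sum_apply,
        ho, (geo (F := F) _ n).1]
      refine filt (Y := ρ x⁻¹) ?_ (fun Φ => ?_) _ _ j s v (by rw [hj]; rfl) (by omega)
      · rw [sub_mul, mul_sub, hρ.mul_inv hx, hρ.inv_mul hx, one_mul, mul_one]
      · rw [LinearMap.sub_apply, conjRep_apply, End.one_apply]
        simp only [sub_mul, mul_sub, mul_assoc, hρ.mul_inv hx, one_mul, mul_one]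
        abel)
    (Finset.univ.filter fun a => a ∈ Q ∧ a ∉ Zen Q) (fun r hr a ha => by
      have k2 := zpowers_le.2 hn hr
      simp only [Finset.mem_filter, Finset.mem_univ, true_and] at ha ⊢
      exact ⟨(mem_normalizer_iff.1 k2 a).1 ha.1, mt (mem_normalizer_iff.1 (normalizer_le_Zen Q k2) a).2 ha.2⟩)
    fun r hr a ha => hf r hr a (Finset.mem_filter.1 ha).2.1 (Finset.mem_filter.1 ha).2.2
  have h5 : ∑ h : Q, T h = (#|Zen Q| * #|Q| : F) • Y := by
    simp only [T, SetLike.coe_mem, if_true, hε, Finset.sum_mul]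
    rw [Finset.sum_comm, Finset.sum_congr rfl (g := fun g : Q => if (g : G) ∈ Zen Q then (#|Q| : F) • Y else 0),
      sum_ite_mem (Zen_le Q), ← Nat.cast_smul_eq_nsmul F, smul_smul]
    intro g _
    have : ∀ h : Q, conjRep ρ g (Y * ρ (h : G)⁻¹) * ρ h = ζ (B02.cm hD g h⁻¹)⁻¹ • conjRep ρ g Y := fun h => by
      rw [cm _ (hQ g.2), cr _ (hQ g.2) _ (hQ (inv_mem h.2)), mul_assoc, ← hρ.mul (hQ (mul_mem (mul_mem g.2 (inv_mem h.2))
        (inv_mem g.2))) (hQ h.2), ← mul_one (conjRep ρ g Y), ← mul_smul_comm, mul_one]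
      congr 1
      ext v
      rw [LinearMap.smul_apply, End.one_apply, ← hz]
      congr 2
      simp only [Subgroup.coe_inv, cm_coe]
      group
    rw [Finset.sum_congr rfl fun h _ => this h, ← Finset.sum_smul]
    simp only [← map_inv, inv_inv, sum_comp_cm hD hζ]
    split_ifs with hg
    · rw [conjRep_center (hρ.mono hQ) hw hg, End.one_apply]
    · rw [zero_smul]
  obtain ⟨c, hc⟩ := h2 Y
  have h6 : ∑ h : Q, T h = ∑ a ∈ Finset.univ.filter (fun a => a ∈ Q ∧ a ∉ Zen Q), T a + (#|Zen Q| * c : F) • 1 := by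
    rw [← smul_smul, hc, Nat.cast_smul_eq_nsmul, ← sum_ite_mem (Zen_le Q),
      Finset.sum_filter, ← Finset.sum_subset (Finset.subset_univ (Finset.univ.filter (· ∈ Q))) fun a _ ha =>
        if_neg fun h => ha (by simpa using h.1), Finset.sum_subtype (p := (· ∈ Q)) _ (by simp), ← Finset.sum_add_distrib]
    refine Finset.sum_congr rfl fun a _ => ?_
    by_cases ha : (a : G) ∈ Zen Q
    · rw [if_neg fun h => h.2 ha, if_pos ha, zero_add]
      have k : ∀ z : Zen Q, ρ z = ζ z • 1 := fun z => LinearMap.ext (hz z)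
      simp only [T, if_pos a.2]
      rw [k ⟨_, ha⟩, k ⟨_, inv_mem ha⟩, mul_smul_comm, mul_smul_comm, map_smul, mul_one, mul_one, smul_smul, ← map_mul]
      exact (congrArg (ζ · • ε Y) (Subtype.ext (mul_inv_cancel _))).trans (by rw [map_one, one_smul])
    · rw [if_pos ⟨a.2, ha⟩, if_neg ha, add_zero]
  have h7 : (#|Zen Q| * #|Q| : F) ≠ 0 := mul_ne_zero (fun h => hP (by
    obtain ⟨c, hc⟩ := card_dvd_of_le (Zen_le Q)
    rw [hc, Nat.cast_mul, h, zero_mul])) hP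
  refine ⟨(#|Zen Q| * #|Q| : F)⁻¹ * (#|Zen Q| * c), fun v => (Submodule.smul_mem_iff _ h7).1 ?_⟩
  have := h4 v
  rw [← sub_eq_iff_eq_add.2 h6, h5] at this
  rwa [smul_sub, smul_smul, mul_inv_cancel_left₀ h7]

/-- the possible degrees -/
def Gd (p q n k : ℕ) (A : Prop) : Prop := k + 1 = p ^ n ∨
  ∃ n₀ m, 1 ≤ n₀ ∧ n₀ ≤ n ∧ 1 ≤ m ∧ p ^ n₀ - 1 = q ^ m ∧ A ∧ k + 1 = p ^ (n - n₀) * (p ^ n₀ - 1)

theorem Gd.up {n k a : ℕ} {A : Prop} (h : Gd p q n k A) : Gd p q (a + n) (p ^ a - 1 + p ^ a * k) A := by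
  have : p ^ a - 1 + p ^ a * k + 1 = p ^ a * (k + 1) := by
    have := Nat.one_le_pow a p hp.out.pos
    rw [mul_add]; omega
  rcases h with h | ⟨n₀, m, h1, h2, h3, h4, h5, h6⟩
  · exact Or.inl (by rw [this, h, pow_add])
  · exact Or.inr ⟨n₀, m, h1, by omega, h3, h4, h5, by rw [this, h6, ← mul_assoc, ← pow_add, Nat.add_sub_assoc h2]⟩

theorem bez {G : Type*} [Group G] {T : Subgroup G} {x : G} {i a : ℕ} (h1 : x ^ i ∈ T) (h2 : x ^ p ^ a ∈ T) :
    ∃ b ≤ a, p ^ b ∣ i ∧ x ^ p ^ b ∈ T := by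
  obtain ⟨b, k, hb⟩ := (Nat.dvd_prime_pow hp.out).1 (Nat.gcd_dvd_right i (p ^ a))
  refine ⟨b, k, hb ▸ Nat.gcd_dvd_left _ _, ?_⟩
  rw [← hb, ← zpow_natCast, Nat.gcd_eq_gcd_ab, zpow_add, zpow_mul, zpow_mul, zpow_natCast, zpow_natCast]
  exact mul_mem (zpow_mem h1 _) (zpow_mem h2 _)

theorem main (hne : q ≠ p) (A : Prop) (M : ℕ) : ∀ (n : ℕ) {G : Type u} [Group G] [Finite G] {W : Type w} [AddCommGroup W]
    [Module F W] [FiniteDimensional F W] {L Q : Subgroup G} {ρ : G → End F W} {x : G}, n + #|Q| + finrank F W < M →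
    RepOn L ρ → Q ≤ L → x ∈ L → IsPGroup q Q → x ∈ 𝐍(Q) → x ^ p ^ (n + 1) = 1 →
    (¬ ∀ g ∈ Q, ρ g * ρ (x ^ p ^ n) = ρ (x ^ p ^ n) * ρ g) → ((∀ a ∈ Q, ∀ b ∈ Q, a * b = b * a) ∨ A) →
    ∃ k, Gd p q (n + 1) k A ∧ (ρ x - 1) ^ k ≠ 0 := by
  induction M with
  | zero => intros; omega
  | succ M ih =>
  intro n G _ _ W _ _ _ L Q ρ x hM hρ hQL hx hQ hn h1 hy hA
  classical
  by_cases hf : ¬ ∀ g ∈ Q, ρ g = 1 → g = 1
  · let f : L →* End F W := ⟨⟨fun g => ρ g, hρ.one⟩, fun a b => hρ.mul a.2 b.2⟩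
    have := Fintype.ofFinite (Q.subgroupOf L)
    have := Fintype.ofFinite ((Q.subgroupOf L).map (QuotientGroup.mk' f.ker))
    refine ih n (L := ⊤) (Q := (Q.subgroupOf L).map (QuotientGroup.mk' f.ker)) (ρ := QuotientGroup.lift f.ker f le_rfl)
      (x := QuotientGroup.mk' f.ker ⟨x, hx⟩) ?_ ⟨map_one _, fun _ _ => map_mul _ _ _⟩ le_top trivial
      ((pgroup_subgroupOf hQ L).map _) (le_normalizer_map _ ⟨_, le_normalizer_comap L.subtype hn, rfl⟩)
      (by rw [← map_pow]; exact (congrArg _ (Subtype.ext h1)).trans (map_one _))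
      (fun h => hy fun g hg => h _ ⟨⟨g, hQL hg⟩, hg, rfl⟩) (hA.imp_left ?_)
    · have := Fintype.card_lt_of_surjective_not_injective _ ((QuotientGroup.mk' f.ker).subgroupMap_surjective (Q.subgroupOf L))
        fun h => hf fun g hg e => congrArg (fun a => a.1.1) (h (a₁ := ⟨⟨g, hQL hg⟩, hg⟩) (a₂ := 1)
          (Subtype.ext ((QuotientGroup.eq_one_iff _).2 e)))
      rw [← Nat.card_eq_fintype_card, ← Nat.card_eq_fintype_card, card_subgroupOf_of_le hQL] at this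
      omega
    · rintro h _ ⟨a, ha, rfl⟩ _ ⟨b, hb, rfl⟩
      rw [← map_mul, ← map_mul]
      exact congrArg _ (Subtype.ext (h a ha b hb))
  push Not at hf
  have fc : ∀ g ∈ L, g ∈ 𝐍(Q) → ∀ a ∈ Q, ρ a * ρ g = ρ g * ρ a → a * g = g * a := fun g hg hg' a ha e => by
    have := hf _ (mul_mem (mem_normalizer_iff.1 hg' a |>.1 ha) (inv_mem ha)) (by
      rw [hρ.mul (mul_mem (mul_mem hg (hQL ha)) (inv_mem hg)) (inv_mem (hQL ha)), hρ.conj hg (hQL ha), ← e, mul_assoc (ρ a),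
        hρ.mul_inv hg, mul_one, hρ.mul_inv (hQL ha)])
    rw [mul_inv_eq_one, mul_inv_eq_iff_eq_mul] at this
    exact this.symm
  set y := x ^ p ^ n with ydef
  have hyL : y ∈ L := pow_mem hx _
  have hyn : y ∈ 𝐍(Q) := pow_mem hn _
  by_cases hmin : ¬ ∀ R < Q, x ∈ 𝐍(R) → R ≤ 𝐂[y]
  · push Not at hmin
    obtain ⟨R, h2, h3, h4⟩ := hmin
    exact ih n (by have := card_lt_of_lt h2; omega) hρ (h2.le.trans hQL) hx (hQ.to_le h2.le) h3 h1
      (fun h => h4 fun g hg => mem_centralizer_singleton_iff.2 (fc y hyL hyn g (h2.le hg) (h g hg)))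
      (hA.imp_left fun h a ha b hb => h a (h2.le ha) b (h2.le hb))
  push Not at hmin
  have hnc : ¬ Q ≤ 𝐂[y] := fun h => hy fun g hg => by
    rw [← hρ.mul (hQL hg) hyL, ← hρ.mul hyL (hQL hg), mem_centralizer_singleton_iff.1 (h hg)]
  have hpx : IsPGroup p (zpowers x) := IsPGroup.of_card_dvd_pow ((Nat.card_zpowers x).symm ▸ orderOf_dvd_of_pow_eq_one h1)
  have hpQ := not_dvd_card_of_pgroup hne hQ
  have hP : (#|Q| : F) ≠ 0 := mt (CharP.cast_eq_zero_iff F p _).1 hpQ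
  have ca := (CopAct.of_pgroup hpx hpQ (zpowers_le.2 hn)).mono_left (zpowers_le.2 (npow_mem_zpowers x (p ^ n)))
  have hR : ⁅Q, zpowers y⁆ = Q := (ca.commutator_le.eq_or_lt).resolve_right fun h => hnc (centralizer_zpowers y ▸
    ca.le_centralizer_of_commutator_le (centralizer_zpowers y ▸ hmin _ h (le_normalizer_commutator (zpowers_le.2 hn)
      (zpowers_le.2 (centralizer_le_normalizer _ (centralizer_zpowers y ▸ mem_centralizer_singleton_iff.2
        (Commute.self_pow x _).eq))) (mem_zpowers x))) le_rfl)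
  have hD0 : der Q ≤ 𝐂[y] := hmin _ (der_lt (solvable_of_pgroup hQ) (by rintro rfl; exact hnc bot_le))
    (le_normalizer_commutator (zpowers_le.2 hn) (zpowers_le.2 hn) (mem_zpowers x))
  have hC : Q ⊓ 𝐂[y] ≤ Zen Q := by
    have k : zpowers y ≤ 𝐂((Q ⊓ 𝐂[y] : Subgroup G)) := le_centralizer_iff.1 (centralizer_zpowers y ▸ inf_le_right)
    exact le_inf inf_le_left (le_centralizer_iff.1 (hR.ge.trans (commutator_le.2 fun g hg r hr => mul_mem
      (conj_mem_of_le_normalizer (le_normalizer_centralizer (normalIn_of_der_le (le_inf (der_le Q) hD0) inf_le_left).2) hg (k hr))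
      (inv_mem (k hr)))))
  have hD : der Q ≤ Zen Q := (le_inf (der_le Q) hD0).trans hC
  have res : ∀ (S : Submodule F W) a, a ≤ n → Q ≤ hρ.stabSub S → x ^ p ^ a ∈ hρ.stabSub S →
      (¬ ∀ g ∈ Q, ∀ w ∈ S, ρ g w = w) → a ≠ 0 ∨ S ≠ ⊤ →
      ∃ k, Gd p q (n - a + 1) k A ∧ ∃ w ∈ S, ((ρ (x ^ p ^ a) - 1) ^ k) w ≠ 0 := fun S a ha h2 h3 h4 h5 => by
    obtain ⟨σ, hσ, e⟩ := (hρ.mono (K := hρ.stabSub S) fun _ h => h.1).exists_restrict S fun g hg => hg.2.1
    have e1 : (x ^ p ^ a) ^ p ^ (n - a) = y := by rw [← pow_mul, ← pow_add, Nat.add_sub_cancel' ha]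
    have e2 : zpowers y ≤ hρ.stabSub S := zpowers_le.2 (e1 ▸ pow_mem h3 _)
    obtain ⟨k, k1, k2⟩ := ih (n - a) (by
        have := S.finrank_le
        rcases h5 with h | h
        · omega
        · have := Submodule.finrank_lt h; omega) hσ h2 h3 hQ (pow_mem hn _)
      (by rw [← pow_mul, ← pow_add, ← add_assoc, Nat.add_sub_cancel' ha, h1]) (fun h => h4 fun g hg w hw => by
        have := hσ.commutator_le_ker h2 e2 (fun a ha r hr => by
          obtain ⟨i, rfl⟩ := (mem_powers_iff_mem_zpowers.2 hr : ∃ i, y ^ i = r)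
          rw [hσ.pow (e2 (mem_zpowers y))]
          exact (Commute.pow_right (e1 ▸ h a ha) i).eq) (hR.ge hg)
        rw [← e g (h2 hg) ⟨w, hw⟩, this.2, End.one_apply]) hA
    obtain ⟨s, hs⟩ := DFunLike.ne_iff.1 k2
    refine ⟨k, k1, s, s.2, fun h => hs (Subtype.ext (Eq.trans ?_ h))⟩
    clear hs h k1 k2
    induction k with
    | zero => rfl
    | succ k ih => simp only [pow_succ', End.mul_apply, LinearMap.sub_apply, End.one_apply, Submodule.coe_sub, e _ h3, ih]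
  have hZL := (Zen_le Q).trans hQL
  have hZ : (#|Zen Q| : F) ≠ 0 := mt (CharP.cast_eq_zero_iff F p _).1 (H8.not_dvd_card_of_le (Zen_le Q) hpQ)
  obtain ⟨χ, hχ⟩ : ∃ χ : Zen Q →* F, ¬ ∀ g ∈ Q, ∀ w ∈ wt ρ χ, ρ g w = w := by
    by_contra hn
    push Not at hn
    have := (hρ.mono hZL).wt_induction (fun a ha b hb => by
      rw [← hρ.mul (hZL ha) (hZL hb), ← hρ.mul (hZL hb) (hZL ha), comm_of_mem (comm_Zen Q) ha hb]) hZ
      (S := fix Q ρ) fun χ w hw g hg => hn χ g hg w hw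
    exact hy fun g hg => by rw [show ρ g = 1 from LinearMap.ext fun w => this.ge Submodule.mem_top g hg, mul_one, one_mul]
  have h0 : wt ρ χ ≠ ⊥ := fun h => hχ fun g _ w hw => by rw [h] at hw; rw [show w = 0 from hw, map_zero]
  have hst : ∀ g ∈ L, ∀ hg : g ∈ 𝐍(Zen Q), chConj ⟨g, hg⟩ χ = χ → g ∈ hρ.stabSub (wt ρ χ) := fun g h hg e =>
    hρ.mem_stabSub h fun w hw => e ▸ hρ.apply_mem_wt hZL ⟨g, hg⟩ h hw
  have hQs : Q ≤ hρ.stabSub (wt ρ χ) := fun g hg => hρ.mem_stabSub (hQL hg) fun w hw z => by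
    rw [hρ.apply_apply (hZL z.2) (hQL hg), ← mem_centralizer_iff.1 z.2.2 g hg, ← hρ.apply_apply (hQL hg) (hZL z.2), hw z, map_smul]
  have hex : ∃ a, x ^ p ^ a ∈ hρ.stabSub (wt ρ χ) := ⟨_, h1 ▸ one_mem _⟩
  have ha := Nat.find_spec hex
  have ha' := @Nat.find_min _ _ hex
  have han : Nat.find hex ≤ n + 1 := Nat.find_min' hex (h1 ▸ one_mem _)
  generalize Nat.find hex = a at ha ha' han
  have key : ∀ k, ∀ w ∈ wt ρ χ, ((ρ (x ^ p ^ a) - 1) ^ k) w ≠ 0 → (ρ x - 1) ^ (p ^ a - 1 + p ^ a * k) ≠ 0 := by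
    intro k w hw h2 h3
    have := Fintype.ofFinite (Zen Q)
    have h4 : ((ρ (x ^ p ^ a) - 1) ^ k) w ∈ wt ρ χ := by
      clear h2 h3
      induction k with
      | zero => exact hw
      | succ k ih => rw [pow_succ', End.mul_apply, LinearMap.sub_apply]; exact sub_mem (ha.2.1 _ ih) ih
    rw [pow_add, pow_mul, (geo (F := F) _ a).2, ← (geo (F := F) _ a).1, ← hρ.pow hx] at h3
    have := congrArg (proj ρ χ) (LinearMap.congr_fun h3 w)
    rw [End.mul_apply, LinearMap.sum_apply, map_sum, Finset.sum_eq_single 0, pow_zero, End.one_apply, proj_of_mem hZ h4,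
      LinearMap.zero_apply, map_zero] at this
    · exact h2 this
    · intro i hi i0
      have k1 := normalizer_le_Zen Q (pow_mem hn i)
      rw [← hρ.pow hx]
      refine proj_of_mem_ne (fun e => ?_) (hρ.apply_mem_wt hZL ⟨_, k1⟩ (pow_mem hx i) h4)
      obtain ⟨b, -, k2, k3⟩ := bez (hst _ (pow_mem hx i) k1 e) ha
      exact ha' ((Nat.pow_lt_pow_iff_right hp.out.one_lt).1 ((Nat.le_of_dvd (Nat.pos_of_ne_zero i0) k2).trans_lt
        (Finset.mem_range.1 hi))) k3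
    · exact fun h => (h (Finset.mem_range.2 (pow_pos hp.out.pos a))).elim
  rcases han.eq_or_lt with rfl | han
  · obtain ⟨w, hw, w0⟩ := Submodule.exists_mem_ne_zero_of_ne_bot h0
    exact ⟨_, Gd.up (n := 0) (Or.inl rfl), key 0 w hw w0⟩
  by_cases h2 : a ≠ 0 ∨ wt ρ χ ≠ ⊤
  · obtain ⟨k, k1, w, hw, k2⟩ := res _ a (by omega) hQs ha hχ h2
    exact ⟨_, by have := k1.up (a := a); rwa [show a + (n - a + 1) = n + 1 by omega] at this, key k w hw k2⟩
  push Not at h2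
  obtain ⟨rfl, hw⟩ := h2
  have hz : ∀ z : Zen Q, ρ z = χ z • 1 := fun z => LinearMap.ext fun v => (hw.ge Submodule.mem_top : v ∈ wt ρ χ) z
  have hζ : Function.Injective χ := (injective_iff_map_eq_one χ).2 fun z e => Subtype.ext (hf _ z.2.1 (by rw [hz, e, one_smul]))
  have hxZ : x ∈ 𝐂(Zen Q) := mem_centralizer_iff.2 fun z h => fc x hx hn z h.1 (by rw [hz ⟨z, h⟩]; simp)
  have hna : ¬ ∀ a ∈ Q, ∀ b ∈ Q, a * b = b * a := fun h => hnc fun g hg => mem_centralizer_singleton_iff.2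
    (mem_centralizer_iff.1 (pow_mem hxZ _) g ⟨hg, mem_centralizer_iff.2 fun a ha => h a ha g hg⟩)
  obtain ⟨S, -, S0, hSx, hSQ, hS⟩ := exists_irreducible hρ hQL hD hζ h0 hP hx hn hxZ fun g hg h => hC ⟨hg, by
    have := (CopAct.of_pgroup hpx (H8.not_dvd_card_of_le (Zen_le Q) hpQ) (zpowers_le.2 (normalizer_le_Zen Q hn)))
    obtain ⟨z, h2, c, hc, rfl⟩ := this.exists_eq_mul_of_commutator_mem_singleton (mem_zpowers x) (x := g) (by
      rw [← commutatorElement_inv]; exact inv_mem h)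
    exact mul_mem (mem_centralizer_singleton_iff.2 (mem_centralizer_iff.1 (pow_mem hxZ _) z h2))
      (mem_centralizer_singleton_iff.2 (Commute.pow_right (mem_centralizer_singleton_iff.1 hc) _).eq)⟩
  by_cases h2 : S ≠ ⊤
  · obtain ⟨w, hw, w0⟩ := Submodule.exists_mem_ne_zero_of_ne_bot S0
    obtain ⟨k, k1, v, -, k2⟩ := res S 0 n.zero_le (fun g hg => hρ.mem_stabSub (hQL hg) (hSQ g hg))
      (by simpa using hρ.mem_stabSub hx hSx) (fun h => hna fun a ha b hb => commutatorElement_eq_one_iff_mul_comm.1 (by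
        have k := hD (commutator_mem_commutator ha hb)
        have := h _ k.1 w hw
        rw [hz ⟨_, k⟩, LinearMap.smul_apply, End.one_apply, ← sub_eq_zero] at this
        nth_rw 2 [← one_smul F w] at this
        rw [← sub_smul, smul_eq_zero_iff_left w0, sub_eq_zero, ← map_one χ] at this
        exact congrArg Subtype.val (hζ this))) (Or.inr h2)
    exact ⟨k, k1, fun h => k2 (by rw [pow_zero, pow_one, h]; rfl)⟩
  obtain rfl := not_not.1 h2
  have : Nontrivial W := (Submodule.nontrivial_iff F).1 (nontrivial_of_ne _ _ S0)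
  have y1 : y ≠ 1 := fun h => hnc fun g _ => mem_centralizer_singleton_iff.2 (by rw [h, mul_one, one_mul])
  obtain ⟨N, hN⟩ : ∃ N, p ^ (n + 1) = N + 2 := Nat.exists_eq_add_of_le' (Nat.one_lt_pow n.succ_ne_zero hp.out.one_lt)
  by_cases h3 : (ρ x - 1) ^ (N + 1) = 0
  swap
  · exact ⟨_, Or.inl hN.symm, h3⟩
  have ho := orderOf_eq_prime_pow y1 h1
  have h4 : ρ x - 1 ≠ 0 := fun h => hy fun g _ => by rw [hρ.pow hx, sub_eq_zero.1 h, one_pow, mul_one, one_mul]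
  obtain ⟨h5, h6⟩ := fin hρ hQL hx hn hD hζ hw hP (fun T => hS T le_top) ho hN (fun r hr a ha ha' e => by
    by_contra r1
    obtain ⟨i, rfl⟩ := (mem_powers_iff_mem_zpowers.2 hr : ∃ i, x ^ i = r)
    obtain ⟨b, k1, k2, k3⟩ := bez (T := 𝐂[a]) (mem_centralizer_singleton_iff.2 (mul_inv_eq_iff_eq_mul.1 e)) (h1 ▸ one_mem _)
    obtain rfl | k1 := k1.eq_or_lt
    · exact r1 (orderOf_dvd_iff_pow_eq_one.1 (ho ▸ k2))
    have := pow_mem k3 (p ^ (n - b))
    rw [← pow_mul, ← pow_add, Nat.add_sub_cancel' (Nat.le_of_lt_succ k1)] at this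
    exact ha' (hC ⟨ha, mem_centralizer_singleton_iff.2 (mem_centralizer_singleton_iff.1 this).symm⟩)) h4 h3
  have h7 := finrank_end_eq (hρ.mono hQL) hD hζ hw hP fun T => hS T le_top
  obtain ⟨j, hj⟩ := hQ.exists_card_eq
  rw [finrank_linearMap, h6] at h7
  obtain ⟨m, -, hm⟩ := (Nat.dvd_prime_pow hq.out).1 (hj ▸ (Dvd.intro _ h7).trans (relIndex_dvd_card _ _))
  refine ⟨N, Or.inr ⟨n + 1, m, by omega, le_rfl, Nat.pos_of_ne_zero ?_, by omega, hA.resolve_left hna, by simp [hN]⟩, h5⟩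
  rintro rfl
  exact h4 (by rwa [hm, pow_zero, pow_one] at h3)

end Cfsg.Agent.H4.HH
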