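import Cfsg.Agent.H4.FFX
import Cfsg.Agent.H4.Factor

/-!
# Passing to the faithful action on a normal elementary abelian subgroup
-/

set_option autoImplicit false

namespace Cfsg.Agent.H4

open Subgroup
open scoped commutatorElement MatrixGroups

variable {G : Type*} [Group G] {p : ℕ}

/-- The holomorph of `V`. -/
abbrev Hol (V : Subgroup G) := V ⋊[MonoidHom.id (MulAut V)] MulAut V

instance finite_hol (V : Subgroup G) [Finite G] : Finite (Hol V) :=
  Finite.of_equiv _ SemidirectProduct.equivProd.symm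

/-- The action of `G` on `V` as a map into the holomorph. -/
def holRep (V : Subgroup G) [V.Normal] : G →* Hol V :=
  SemidirectProduct.inr.comp MulAut.conjNormal

/-- The copy of `U ⊓ V` in the holomorph. -/
def holImg (V U : Subgroup G) : Subgroup (Hol V) := (U.subgroupOf V).map SemidirectProduct.inl

section basic

variable {V U W A : Subgroup G}

theorem inl_mem_holImg {v : V} : SemidirectProduct.inl v ∈ holImg V U ↔ (v : G) ∈ U :=
  mem_map_iff_mem SemidirectProduct.inl_injective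

theorem mem_holImg {x : Hol V} : x ∈ holImg V U ↔ ∃ v : V, (v : G) ∈ U ∧
    SemidirectProduct.inl v = x := Iff.rfl

theorem card_holImg (h : U ≤ V) : Nat.card (holImg V U) = Nat.card U := by
  rw [holImg, card_map_of_injective SemidirectProduct.inl_injective, L0.card_subgroupOf_of_le h]

theorem holImg_mono (h : U ≤ W) : holImg V U ≤ holImg V W := map_mono (comap_mono h)

theorem exists_holImg {U' : Subgroup (Hol V)} (h : U' ≤ holImg V V) :
    ∃ U, U ≤ V ∧ holImg V U = U' := by
  refine ⟨(U'.comap SemidirectProduct.inl).map V.subtype, map_subtype_le _, ?_⟩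
  rw [holImg, H7.subgroupOf_map_subtype', map_comap_eq_self]
  exact h.trans (map_le_range _ _)

theorem isElementaryAbelian_holImg (h : IsElementaryAbelian p U) :
    IsElementaryAbelian p (holImg V U) := EA.map (EA.subgroupOf h V) _

variable [V.Normal]

theorem holRep_conj (g : G) (v : V) : holRep V g * SemidirectProduct.inl v * (holRep V g)⁻¹ =
    SemidirectProduct.inl (MulAut.conjNormal g v) := by
  rw [holRep, MonoidHom.comp_apply, ← map_inv]
  exact (SemidirectProduct.inl_aut (φ := MonoidHom.id (MulAut V)) (MulAut.conjNormal g) v).symm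

theorem holRep_mem_centralizer (h : U ≤ V) {g : G} :
    holRep V g ∈ centralizer (holImg V U : Set (Hol V)) ↔ g ∈ centralizer (U : Set G) := by
  have key : ∀ v : V, SemidirectProduct.inl v * holRep V g = holRep V g * SemidirectProduct.inl v ↔
      (v : G) * g = g * v := by
    intro v
    rw [eq_comm, ← mul_inv_eq_iff_eq_mul, holRep_conj, SemidirectProduct.inl_inj, Subtype.ext_iff,
      MulAut.conjNormal_apply, mul_inv_eq_iff_eq_mul, eq_comm]
  rw [mem_centralizer_iff, mem_centralizer_iff]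
  constructor
  · exact fun h1 u hu => (key ⟨u, h hu⟩).1 (h1 _ (inl_mem_holImg.2 hu))
  · rintro h1 _ ⟨v, hv, rfl⟩
    exact (key v).2 (h1 v hv)

theorem holRep_eq_one {g : G} : holRep V g = 1 ↔ g ∈ centralizer (V : Set G) := by
  constructor
  · intro h
    rw [← holRep_mem_centralizer le_rfl, h]
    exact one_mem _
  · intro h
    have : MulAut.conjNormal (H := V) g = 1 := by
      ext v
      rw [MulAut.conjNormal_apply, ← mem_centralizer_iff.1 h v v.2, mul_inv_cancel_right]
      rfl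
    rw [holRep, MonoidHom.comp_apply, this, map_one]

theorem ker_holRep : (holRep V).ker = centralizer (V : Set G) := by
  ext g
  exact holRep_eq_one

theorem holRep_mem_normalizer (h : U ≤ V) {g : G} :
    holRep V g ∈ normalizer (holImg V U : Set (Hol V)) ↔ g ∈ normalizer (U : Set G) := by
  have key : ∀ g : G, (∀ x ∈ holImg V U, holRep V g * x * (holRep V g)⁻¹ ∈ holImg V U) ↔
      ∀ u ∈ U, g * u * g⁻¹ ∈ U := by
    intro g
    constructor
    · intro h1 u hu
      have := h1 _ (inl_mem_holImg.2 (show ((⟨u, h hu⟩ : V) : G) ∈ U from hu))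
      rwa [holRep_conj, inl_mem_holImg] at this
    · rintro h1 _ ⟨v, hv, rfl⟩
      rw [holRep_conj, inl_mem_holImg]
      exact h1 v hv
  rw [← zpowers_le, ← zpowers_le, ← MonoidHom.map_zpowers, le_normalizer_iff, le_normalizer_iff]
  constructor
  · exact fun h1 x hx => (key x).1 (h1 _ ⟨x, hx, rfl⟩)
  · rintro h1 _ ⟨x, hx, rfl⟩
    exact (key x).2 (h1 x hx)

theorem map_holRep_le_normalizer (A : Subgroup G) :
    A.map (holRep V) ≤ normalizer (holImg V V : Set (Hol V)) := by
  rintro _ ⟨g, -, rfl⟩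
  exact (holRep_mem_normalizer le_rfl).2 (le_normalizer_of_normal (mem_top g))

theorem map_holRep_inf_centralizer (A : Subgroup G) :
    A.map (holRep V) ⊓ centralizer (holImg V V : Set (Hol V)) = ⊥ := by
  rw [eq_bot_iff]
  rintro _ ⟨⟨g, -, rfl⟩, h⟩
  exact holRep_eq_one.2 ((holRep_mem_centralizer le_rfl).1 h)

theorem holImg_inf_centralizer (A : Subgroup G) :
    holImg V V ⊓ centralizer ((A.map (holRep V) : Subgroup (Hol V)) : Set (Hol V)) =
      holImg V (V ⊓ centralizer (A : Set G)) := by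
  obtain ⟨U, hU, he⟩ := exists_holImg (inf_le_left : holImg V V ⊓
    centralizer ((A.map (holRep V) : Subgroup (Hol V)) : Set (Hol V)) ≤ _)
  refine le_antisymm ?_ (le_inf (holImg_mono inf_le_left) (le_centralizer_iff.1 ?_))
  · rw [← he]
    refine holImg_mono (le_inf hU (le_centralizer_iff.1 fun a ha => ?_))
    rw [← holRep_mem_centralizer hU, he]
    exact le_centralizer_iff.1 inf_le_right ⟨a, ha, rfl⟩
  · rintro _ ⟨a, ha, rfl⟩
    rw [holRep_mem_centralizer inf_le_left]
    exact le_centralizer_iff.1 inf_le_right ha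

theorem jv_eq_mul (A : Subgroup G) : jv V A =
    Nat.card ↥(A ⊓ centralizer (V : Set G)) * jv (holImg V V) (A.map (holRep V)) := by
  rw [jv_def, jv_def, holImg_inf_centralizer, card_holImg inf_le_left,
    L0.card_eq_card_inf_ker_mul_card_map (holRep V) A, ker_holRep, mul_assoc]

theorem isBestOffenderOn_map_holRep [Finite G] (h : IsBestOffenderOn p V A) :
    IsBestOffenderOn p (holImg V V) (A.map (holRep V)) := by
  obtain ⟨h1, h2, h3⟩ := isBestOffenderOn_iff.1 h
  refine isBestOffenderOn_iff.2 ⟨fun B hB => ?_, ?_, ?_⟩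
  · have h4 := h1 (A ⊓ B.comap (holRep V)) inf_le_left
    have h5 : A ⊓ B.comap (holRep V) ⊓ centralizer (V : Set G) = A ⊓ centralizer (V : Set G) := by
      rw [inf_assoc, ← ker_holRep, inf_eq_right.2 (ker_le_comap _ _)]
    rw [jv_eq_mul, jv_eq_mul A, map_inf_comap, inf_eq_right.2 hB, h5] at h4
    exact Nat.le_of_mul_le_mul_left h4 Nat.card_pos
  · rw [← map_commutator, (Subgroup.map_eq_bot_iff _).2 (ker_holRep (V := V) ▸ h2)]
    exact bot_le
  · rintro _ ⟨a, ha, rfl⟩
    rw [← map_pow, holRep_eq_one.2 (h3 a ha)]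
    exact one_mem _

end basic

variable [Finite G] [hp : Fact p.Prime] {V K : Subgroup G} [V.Normal]

/-- The image of `J(K)` in the holomorph satisfies the hypotheses of the structure theorem. -/
theorem ff_hol (hV : IsElementaryAbelian p V) (hVK : V ≤ K) (hsep : IsPSolvable p K)
    (hO : ∀ D : Subgroup G, D ≤ K → K ≤ normalizer (D : Set G) →
      (∀ a ∈ D, ∃ k, a ^ p ^ k ∈ centralizer (V : Set G)) → D ≤ centralizer (V : Set G))
    {H : Subgroup (Hol V)} (hH : H = (thompsonSubgroupOf p K).map (holRep V)) :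
    FF p (holImg V V) H ((pPrimeCore p H).map H.subtype) ∧ GenTv p (holImg V V) H := by
  have h0 : pCore p H = ⊥ := by
    rw [← L0.map_pCore_eq_bot_iff, eq_bot_iff]
    have h1 : K.map (holRep V) ≤ normalizer (((pCore p H).map H.subtype : Subgroup (Hol V)) :
        Set (Hol V)) := le_trans (hH ▸ H8.map_le_normalizer_map
          (le_normalizer_thompsonSubgroupOf K) _) (L0.normalizer_le_normalizer_map_pCore H)
    have h2 := hO (K ⊓ ((pCore p H).map H.subtype).comap (holRep V)) inf_le_left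
      (H8.le_normalizer_inf le_normalizer ((map_le_iff_le_comap.1 h1).trans (le_normalizer_comap _)))
      (fun a ha => by
        obtain ⟨k, hk⟩ := H5.IsPGroup_pow_eq_one (L0.map_pCore_isPGroup H) ha.2
        exact ⟨k, by rwa [← holRep_eq_one, map_pow]⟩)
    intro x hx
    obtain ⟨j, hj, rfl⟩ := (hH ▸ map_subtype_le _ hx : x ∈ (thompsonSubgroupOf p K).map (holRep V))
    exact holRep_eq_one.2 (h2 ⟨thompsonSubgroupOf_le K hj, hx⟩)
  have hs : IsPSolvable p H :=
    hH ▸ L0.IsPSolvable.map (L0.IsPSolvable.of_le hsep (thompsonSubgroupOf_le K)) _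
  have h := FF.of (isElementaryAbelian_holImg hV) (hH ▸ map_holRep_le_normalizer _)
    (hH ▸ map_holRep_inf_centralizer _) (L0.IsPSolvable.centralizer_pPrimeCore_le hs h0)
  refine ⟨h, h.genTv (le_antisymm ?_ (iSup_le fun A => A.2.1))⟩
  refine hH.le.trans (map_le_iff_le_comap.2 (thompsonSubgroupOf_le_iff.2 fun A hA =>
    map_le_iff_le_comap.1 ?_))
  exact le_iSup_of_le ⟨A.map (holRep V), hH ▸ map_mono (le_thompsonSubgroupOf hA),
    isBestOffenderOn_map_holRep (isBestOffenderOn_of_mem_maxEA hV hVK hA)⟩ le_rfl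

omit [Finite G] hp in
theorem GenTv.exists_tv {Γ : Type*} [Group Γ] {V H : Subgroup Γ} (h : GenTv p V H) (h1 : H ≠ ⊥) :
    ∃ a, Tv p V H a := by
  by_contra hcon
  push Not at hcon
  exact h1 (eq_bot_iff.2 (h ⊥ fun b tb => absurd tb (hcon b)))

theorem sup_inf_centralizer_mem_maxEA (hV : IsElementaryAbelian p V) (hVK : V ≤ K)
    (hsep : IsPSolvable p K)
    (hO : ∀ D : Subgroup G, D ≤ K → K ≤ normalizer (D : Set G) →
      (∀ a ∈ D, ∃ k, a ^ p ^ k ∈ centralizer (V : Set G)) → D ≤ centralizer (V : Set G))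
    {A : Subgroup G} (hA : A ∈ maxEA p K) : V ⊔ (A ⊓ centralizer (V : Set G)) ∈ maxEA p K := by
  have h1 := (ff_hol hV hVK hsep hO rfl).1.jv_eq (map_mono (le_thompsonSubgroupOf hA))
    (isBestOffenderOn_map_holRep (isBestOffenderOn_of_mem_maxEA hV hVK hA))
  have h2 := jv_eq_mul (V := V) A
  rw [h1, card_holImg le_rfl, jv_def, inf_centralizer_eq_of_mem_maxEA hV hVK hA] at h2
  refine mem_maxEA_of_card_le hA (sup_le hVK (inf_le_left.trans hA.1))
    (EA.sup hV (EA.mono hA.2.1 inf_le_left) (le_centralizer_iff.1 inf_le_right)) ?_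
  have h3 := H8.card_sup_mul_card_inf (N := V) (H := A ⊓ centralizer (V : Set G))
    le_normalizer_of_normal
  rw [← inf_assoc, inf_eq_left.2 (inf_le_left.trans (EA.le_centralizer hV)), mul_comm (Nat.card V),
    ← h2] at h3
  exact (Nat.eq_of_mul_eq_mul_right Nat.card_pos h3).ge

theorem commutator_omegaOne_centerThompsonOf_le (hV : IsElementaryAbelian p V) (hVK : V ≤ K)
    (hsep : IsPSolvable p K)
    (hO : ∀ D : Subgroup G, D ≤ K → K ≤ normalizer (D : Set G) →
      (∀ a ∈ D, ∃ k, a ^ p ^ k ∈ centralizer (V : Set G)) → D ≤ centralizer (V : Set G)) :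
    ⁅omegaOne p (centerThompsonOf p (K ⊓ centralizer (V : Set G))), thompsonSubgroupOf p K⁆ ≤ V := by
  rw [commutator_comm]
  refine (le_commStab_iff.1 (thompsonSubgroupOf_le_iff.2 fun A hA =>
    le_commStab_iff.2 ⟨le_normalizer_of_normal, ?_⟩)).2
  have h1 := mem_maxEA_of_le (sup_inf_centralizer_mem_maxEA hV hVK hsep hO hA)
    (sup_le (le_inf hVK (EA.le_centralizer hV)) (inf_le_inf_right _ hA.1)) inf_le_left
  rw [commutator_comm]
  refine (commutator_mono (omegaOne_centerThompsonOf_le h1) le_rfl).trans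
    (commutator_sup_left_le le_normalizer_of_normal le_normalizer_of_normal
      (commutator_le_left _ _) ?_)
  rw [commutator_eq_bot_iff_le_centralizer.2 (inf_le_left.trans (EA.le_centralizer hA.2.1))]
  exact bot_le

theorem exists_factor (hV : IsElementaryAbelian p V) (hVK : V ≤ K) (hsep : IsPSolvable p K)
    (hO : ∀ D : Subgroup G, D ≤ K → K ≤ normalizer (D : Set G) →
      (∀ a ∈ D, ∃ k, a ^ p ^ k ∈ centralizer (V : Set G)) → D ≤ centralizer (V : Set G))
    (hJ : ¬ thompsonSubgroupOf p K ≤ centralizer (V : Set G)) :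
    (p = 2 ∨ p = 3) ∧ ∃ E : Subgroup G, centralizer (V : Set G) ≤ E ∧
      E ≤ thompsonSubgroupOf p K ⊔ centralizer (V : Set G) ∧
      thompsonSubgroupOf p K ⊔ centralizer (V : Set G) ≤ normalizer (E : Set G) ∧
      ∃ ψ : E →* SL(2, ZMod p), Function.Surjective ψ ∧
        ψ.ker = (centralizer (V : Set G)).subgroupOf E := by
  obtain ⟨h, hg⟩ := ff_hol hV hVK hsep hO rfl
  obtain ⟨a, ta⟩ := hg.exists_tv (by rwa [Ne, Subgroup.map_eq_bot_iff, ker_holRep])
  refine ⟨h.two_or_three ta, ?_⟩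
  obtain ⟨E, ⟨e⟩, h1, h2⟩ : ∃ E : Subgroup (Hol V), Nonempty (E ≃* SL(2, ZMod p)) ∧
      E ≤ (thompsonSubgroupOf p K).map (holRep V) ∧
      (thompsonSubgroupOf p K).map (holRep V) ≤ normalizer (E : Set (Hol V)) :=
    ⟨_, h.nonempty_equiv_fac ta, h.fac_le ta, h.le_normalizer_fac' hg ta⟩
  have h3 : ((thompsonSubgroupOf p K).map (holRep V)).comap (holRep V) =
      thompsonSubgroupOf p K ⊔ centralizer (V : Set G) := by rw [comap_map_eq, ker_holRep]
  refine ⟨E.comap (holRep V), ker_holRep (V := V) ▸ ker_le_comap _ _, h3 ▸ comap_mono h1,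
    h3 ▸ (comap_mono h2).trans (le_normalizer_comap _),
    e.toMonoidHom.comp ((holRep V).subgroupComap E), e.surjective.comp ?_, ?_⟩
  · rintro ⟨x, hx⟩
    obtain ⟨g, -, rfl⟩ := h1 hx
    exact ⟨⟨g, hx⟩, rfl⟩
  · ext g
    rw [MonoidHom.mem_ker, MonoidHom.comp_apply, MulEquiv.coe_toMonoidHom, MulEquiv.map_eq_one_iff,
      Subtype.ext_iff, mem_subgroupOf, ← holRep_eq_one]
    rfl

variable {X : Subgroup G} {q : ℕ} [Fact q.Prime]

theorem thompson_le_of_coprime (hV : IsElementaryAbelian p V) (hVK : V ≤ K) [K.Normal]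
    (hsep : IsPSolvable p K)
    (hO : ∀ D : Subgroup G, D ≤ K → K ≤ normalizer (D : Set G) →
      (∀ a ∈ D, ∃ k, a ^ p ^ k ∈ centralizer (V : Set G)) → D ≤ centralizer (V : Set G))
    (hX : IsPGroup q X) (hq : ¬ q ∣ Nat.card K) {S M : Subgroup G} (hS : H8.IsSylowIn p S K)
    (hSM : S ≤ M) (hVM : K ⊓ centralizer (V : Set G) ≤ M) (hXM : K ⊓ centralizer (X : Set G) ≤ M)
    (hMK : M ≤ K) : thompsonSubgroupOf p K ≤ M := by
  obtain ⟨h, hg⟩ := ff_hol hV hVK hsep hO rfl
  have hJn := thompsonSubgroupOf_normal (p := p) K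
  have hXH : X.map (holRep V) ≤ normalizer (((thompsonSubgroupOf p K).map (holRep V) :
      Subgroup (Hol V)) : Set (Hol V)) := H8.map_le_normalizer_map le_normalizer_of_normal _
  have hT := (hS.inf_of_le_normalizer (le_normalizer_thompsonSubgroupOf (p := p) K)).map (holRep V)
  rw [inf_eq_right.2 (thompsonSubgroupOf_le K)] at hT
  have h1 := h.le_of_sylow_of_centralizer hg (hX.map _)
    (L0.not_dvd_card_map _ (L0.not_dvd_card_of_le (thompsonSubgroupOf_le K) hq))
    (map_holRep_le_normalizer X) hXH (hXH.trans (L0.normalizer_le_normalizer_map_pPrimeCore _))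
    (M := M.map (holRep V)) hT (map_mono (inf_le_left.trans hSM)) (by
      refine (inf_le_inf_right _ (map_mono (thompsonSubgroupOf_le K))).trans ?_
      rw [(H8.CopAct.of_pgroup hX hq le_normalizer_of_normal).map_inf_centralizer']
      exact map_mono hXM)
  intro j hj
  obtain ⟨m, hm, he⟩ := h1 ⟨j, hj, rfl⟩
  have h2 : m⁻¹ * j ∈ M := hVM ⟨K.mul_mem (K.inv_mem (hMK hm)) (thompsonSubgroupOf_le K hj),
    holRep_eq_one.1 (by rw [map_mul, map_inv, he, inv_mul_cancel])⟩
  exact (mul_mem_cancel_left (inv_mem hm)).1 h2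

theorem exists_plane_of_coprime (hV : IsElementaryAbelian p V) (hVK : V ≤ K) [K.Normal]
    (hsep : IsPSolvable p K)
    (hO : ∀ D : Subgroup G, D ≤ K → K ≤ normalizer (D : Set G) →
      (∀ a ∈ D, ∃ k, a ^ p ^ k ∈ centralizer (V : Set G)) → D ≤ centralizer (V : Set G))
    (hX : IsPGroup q X) (hq : ¬ q ∣ Nat.card K)
    (hJ : ¬ thompsonSubgroupOf p K ≤ centralizer (V : Set G)) :
    (p = 2 ∨ p = 3) ∧ ∃ W D : Subgroup G, W ≤ K ⊓ centralizer (X : Set G) ∧
      D ≤ K ⊓ centralizer (X : Set G) ∧ IsElementaryAbelian p W ∧ Nat.card W = p ^ 2 ∧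
      D ≤ normalizer (W : Set G) ∧ ∃ ψ : D →* SL(2, ZMod p), Function.Surjective ψ ∧
        ∀ d : D, ψ d = 1 ↔ (d : G) ∈ centralizer (W : Set G) := by
  obtain ⟨h, hg⟩ := ff_hol hV hVK hsep hO rfl
  obtain ⟨a, ta⟩ := hg.exists_tv (by rwa [Ne, Subgroup.map_eq_bot_iff, ker_holRep])
  have hJn := thompsonSubgroupOf_normal (p := p) K
  have hXH : X.map (holRep V) ≤ normalizer (((thompsonSubgroupOf p K).map (holRep V) :
      Subgroup (Hol V)) : Set (Hol V)) := H8.map_le_normalizer_map le_normalizer_of_normal _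
  obtain ⟨W', h1, h2, h3, φ, h4, h5⟩ := h.exists_plane_fixed hg ta (hX.map _)
    (L0.not_dvd_card_map _ (L0.not_dvd_card_of_le (thompsonSubgroupOf_le K) hq))
    (map_holRep_le_normalizer X) hXH (hXH.trans (L0.normalizer_le_normalizer_map_pPrimeCore _))
  obtain ⟨W, hW, rfl⟩ := exists_holImg (h1.trans inf_le_left)
  have hcop := (H8.CopAct.of_pgroup hX (L0.not_dvd_card_of_le (thompsonSubgroupOf_le (p := p) K) hq)
    le_normalizer_of_normal).map_inf_centralizer' (holRep V)
  have hD : ∀ d : ↥(thompsonSubgroupOf p K ⊓ centralizer (X : Set G)), holRep V d ∈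
      (thompsonSubgroupOf p K).map (holRep V) ⊓
        centralizer ((X.map (holRep V) : Subgroup (Hol V)) : Set (Hol V)) :=
    fun d => hcop ▸ ⟨d, d.2, rfl⟩
  refine ⟨h.two_or_three ta, W, thompsonSubgroupOf p K ⊓ centralizer (X : Set G),
    le_inf (hW.trans hVK) (le_centralizer_iff.1 fun x hx => ?_),
    inf_le_inf_right _ (thompsonSubgroupOf_le K), EA.mono hV hW, by rw [← card_holImg hW, h2],
    fun d hd => (holRep_mem_normalizer hW).1 (h3 (hD ⟨d, hd⟩)),
    φ.comp (((holRep V).comp (Subgroup.subtype _)).codRestrict _ fun d => (hD d).1),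
    fun M => ?_, fun d => ?_⟩
  · rw [← holRep_mem_centralizer hW]
    exact le_centralizer_iff.1 (h1.trans inf_le_right) ⟨x, hx, rfl⟩
  · obtain ⟨⟨g, hg1⟩, hg2, rfl⟩ := h5 M
    obtain ⟨d, hd, rfl⟩ := hcop.le ⟨hg1, hg2⟩
    exact ⟨⟨d, hd⟩, rfl⟩
  · rw [← holRep_mem_centralizer hW]
    exact h4 _ (hD d).2

omit [V.Normal] in
theorem vG_hO (D : Subgroup G) (_ : D ≤ K) (hn : K ≤ normalizer (D : Set G))
    (h : ∀ a ∈ D, ∃ k, a ^ p ^ k ∈
      centralizer (((vG p K).map K.subtype : Subgroup G) : Set G)) :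
    D ≤ centralizer (((vG p K).map K.subtype : Subgroup G) : Set G) := by
  have := vG_normal (p := p) (G := K)
  have hDn : (D.subgroupOf K).Normal := normal_subgroupOf_of_le_normalizer hn
  have h1 := le_centralizer_of_pow_mem_of_le_iSup (D := D.subgroupOf K) vG_le_iSup (fun a ha => by
    obtain ⟨k, hk⟩ := h a ha
    refine ⟨k, ?_⟩
    rw [← mem_map_iff_mem K.subtype_injective, H7.map_subtype_centralizer]
    exact ⟨(a ^ p ^ k).2, hk⟩)
  have h2 := map_mono (f := K.subtype) h1
  rw [H7.map_subtype_centralizer, map_subgroupOf_eq_of_le ‹_›] at h2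
  exact h2.trans inf_le_right

theorem generation_of_coprime_normal [K.Normal] (hsep : IsPSolvable p K) (hO : pPrimeCore p K = ⊥)
    (hX : IsPGroup q X) (hq : ¬ q ∣ Nat.card K) {S : Subgroup G} (hS : H8.IsSylowIn p S K) :
    K ≤ (K ⊓ normalizer (thompsonSubgroupOf p S : Set G)) ⊔ (K ⊓ centralizer (omZ p S : Set G)) ⊔
      (K ⊓ centralizer (X : Set G)) := by
  have := vG_characteristic (p := p) (G := K)
  have hV := EA.map (isElementaryAbelian_vG (L0.IsPSolvable.centralizer_pCore_le hsep hO))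
    K.subtype
  have hZ : omZ p S ≤ (vG p K).map K.subtype := by
    obtain ⟨S, rfl⟩ := hS.exists_sylow
    rw [← map_omZ_of_disjoint _ (by rw [ker_subtype]; exact disjoint_bot_right)]
    exact map_mono (omZ_le_vG S)
  have h1 := thompson_le_of_coprime hV (map_subtype_le _) hsep vG_hO hX hq hS
    (M := (K ⊓ normalizer (thompsonSubgroupOf p S : Set G)) ⊔ (K ⊓ centralizer (omZ p S : Set G)) ⊔
      (K ⊓ centralizer (X : Set G)))
    (le_sup_of_le_left (le_sup_of_le_left (le_inf hS.le (le_normalizer_thompsonSubgroupOf S))))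
    (le_sup_of_le_left (le_sup_of_le_right (inf_le_inf_left _ (centralizer_anti hZ))))
    le_sup_right (sup_le (sup_le inf_le_left inf_le_left) inf_le_left)
  intro g hg
  obtain ⟨n, hn, hng⟩ := exists_mul_mem_normalizer_thompsonSubgroupOf hS (thompsonSubgroupOf_le K)
    (le_normalizer_thompsonSubgroupOf K) (thompsonSubgroupOf_le_of_isSylowIn hS) hg
  exact (mul_mem_cancel_left (h1 hn)).1 (mem_sup_left (mem_sup_left
    ⟨mul_mem (thompsonSubgroupOf_le K hn) hg, hng⟩))

theorem exists_plane_of_coprime_normal [K.Normal] (hsep : IsPSolvable p K)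
    (hO : pPrimeCore p K = ⊥) (hX : IsPGroup q X) (hq : ¬ q ∣ Nat.card K)
    (hnf : ¬ IsThompsonFactorizable p K) :
    (p = 2 ∨ p = 3) ∧ ∃ W D : Subgroup G, W ≤ K ⊓ centralizer (X : Set G) ∧
      D ≤ K ⊓ centralizer (X : Set G) ∧ IsElementaryAbelian p W ∧ Nat.card W = p ^ 2 ∧
      D ≤ normalizer (W : Set G) ∧ ∃ ψ : D →* SL(2, ZMod p), Function.Surjective ψ ∧
        ∀ d : D, ψ d = 1 ↔ (d : G) ∈ centralizer (W : Set G) := by
  have := vG_characteristic (p := p) (G := K)
  refine exists_plane_of_coprime (EA.map (isElementaryAbelian_vG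
    (L0.IsPSolvable.centralizer_pCore_le hsep hO)) K.subtype) (map_subtype_le _) hsep vG_hO hX hq
    fun h => hnf (isThompsonFactorizable_of_le_centralizer ?_)
  rw [← map_le_map_iff_of_injective K.subtype_injective, H7.map_subtype_centralizer]
  exact le_inf (map_subtype_le _) h

end Cfsg.Agent.H4
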