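import Cfsg.Agent.H4.R4c
import Cfsg.Agent.L0.ElemAb
import Cfsg.Agent.H6.Count

/-! Constrained groups of sectional rank four with quotient of order 168: frames. -/

set_option autoImplicit false
set_option linter.unusedSectionVars false

namespace Cfsg.Agent.H4.R3

open Subgroup Cfsg.Agent.FT Cfsg.Agent.L0 Cfsg.Agent.H8 Cfsg.Agent.H4.R4

universe u

/-- the natural module -/
abbrev V := ZMod 2 × ZMod 2 × ZMod 2

/-- the linear map with given columns -/
def lin (v w u p : V) : V := p.1 • v + p.2.1 • w + p.2.2 • u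

theorem lin_add (v w u p q : V) : lin v w u (p + q) = lin v w u p + lin v w u q := by
  simp only [lin, Prod.fst_add, Prod.snd_add, add_smul]; abel

theorem eq_lin (f : V →+ V) (p : V) : f p = lin (f (1, 0, 0)) (f (0, 1, 0)) (f (0, 0, 1)) p := by
  have : ∀ p : V, p = lin (1, 0, 0) (0, 1, 0) (0, 0, 1) p := by decide
  conv_lhs => rw [this p]
  simp only [lin, map_add, ZMod.map_smul]

theorem sq2 : ∀ x : Multiplicative V, x ^ 2 = 1 := by decide

theorem eqv {W : Type*} [Group W] [Finite W] (h : ∀ x : W, x * x = 1) (hc : Nat.card W = 8) : Nonempty (W ≃* Multiplicative V) := by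
  have := Fact.mk Nat.prime_two
  have k : ∀ a b : W, a * b = b * a := fun a b => by
    rw [← inv_eq_of_mul_eq_one_right (h (a * b)), mul_inv_rev, inv_eq_of_mul_eq_one_right (h a), inv_eq_of_mul_eq_one_right (h b)]
  letI : CommGroup W := { mul_comm := k }
  letI : Module (ZMod 2) (Additive W) := AddCommGroup.zmodModule fun x => (pow_two x.toMul).trans (h _)
  have h1 := Module.natCard_eq_pow_finrank (K := ZMod 2) (V := Additive W)
  rw [Nat.card_zmod, show Nat.card (Additive W) = 2 ^ 3 from hc] at h1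
  exact ⟨AddEquiv.toMultiplicativeRight (LinearEquiv.ofFinrankEq (R := ZMod 2) (Additive W) V (by
    rw [← Nat.pow_right_injective le_rfl h1]; simp)).toAddEquiv⟩

variable {G : Type u} [Group G] [Finite G] {A B D H L M N Q W : Subgroup G} {a b c g s t x y z ρ σ τ : G} {co : G → V} {T T' : V → V}

/-- the hypotheses -/
structure Hy (Q : Subgroup G) (σ : G) : Prop where
  nQ : Q.Normal
  pQ : IsPGroup 2 Q
  idx : Q.index = 168
  smp : ∀ H : Subgroup G, H.Normal → Q ≤ H → H = Q ∨ H = ⊤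
  s7 : σ ^ 7 = 1
  sQ : σ ∉ Q
  sr : SR G

/-- `g` acts as `T` -/
def Ac (A : Subgroup G) (co : G → V) (g : G) (T : V → V) : Prop := ∀ x ∈ A, co (g * x * g⁻¹) = T (co x)

/-- coordinates on the section `A / B` -/
structure Fm (Q A B : Subgroup G) (co : G → V) : Prop where
  nA : A.Normal
  add : ∀ x ∈ A, ∀ y ∈ A, co (x * y) = co x + co y
  ker : ∀ x ∈ A, co x = 0 ↔ x ∈ B
  surj : ∀ v, ∃ x ∈ A, co x = v
  inQ : ∀ g, Ac A co g id ↔ g ∈ Q
  ex : ∀ g, ∃ v w u, Function.Injective (lin v w u) ∧ Ac A co g (lin v w u)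
  onto : ∀ v w u, Function.Injective (lin v w u) → ∃ g, Ac A co g (lin v w u)

theorem Hy.fm (h : Hy Q σ) [A.Normal] [B.Normal] (hB : B ≤ A) (hc : #|A| = 8 * #|B|) (hs : ∀ a ∈ A, a * a ∈ B)
    (h1 : ∀ q ∈ Q, ∀ a ∈ A, q * a * q⁻¹ * a⁻¹ ∈ B) (ha : a ∈ A) (h2 : σ * a * σ⁻¹ * a⁻¹ ∉ B) : ∃ co, Fm Q A B co := by
  classical
  have := Fact.mk Nat.prime_two
  let π := QuotientGroup.mk' B
  have := Normal.map ‹A.Normal› π (QuotientGroup.mk'_surjective B)
  have k0 : 0 < #|B| := Nat.card_pos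
  obtain ⟨e⟩ := eqv (W := A.map π) (fun x => Subtype.ext (sqm hs x x.2)) (Nat.eq_of_mul_eq_mul_left k0 (by rw [← card_quo hB, hc, mul_comm]))
  let φ : G →* MulAut (Multiplicative V) := (MulAut.congr e).toMonoidHom.comp (MulAut.conjNormal.comp π)
  let co : G → V := fun x => if k : π x ∈ A.map π then (e ⟨π x, k⟩).toAdd else 0
  have c1 : ∀ x (hx : x ∈ A), co x = (e ⟨π x, mem_map_of_mem π hx⟩).toAdd := fun x hx => dif_pos _
  have c2 : ∀ g, Ac A co g fun v => (φ g (Multiplicative.ofAdd v)).toAdd := fun g x hx => by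
    rw [c1 _ (Normal.conj_mem ‹_› x hx g), c1 x hx]
    simp only [φ, ofAdd_toAdd, MonoidHom.comp_apply, MulEquiv.coe_toMonoidHom, MulAut.congr_apply, MulEquiv.trans_apply,
      MulEquiv.symm_apply_apply]
    congr 2
  have c3 : ∀ x ∈ A, ∀ y ∈ A, co (x * y) = co x + co y := fun x hx y hy => by
    rw [c1 _ (mul_mem hx hy), c1 x hx, c1 y hy, ← toAdd_mul, ← map_mul e]; rfl
  have c4 : ∀ x ∈ A, co x = 0 ↔ x ∈ B := fun x hx => by
    rw [c1 x hx, toAdd_eq_zero, map_eq_one_iff _ e.injective, Subtype.ext_iff]; exact QuotientGroup.eq_one_iff x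
  have c5 : ∀ v, ∃ x ∈ A, co x = v := fun v => by
    obtain ⟨⟨_, x, hx, rfl⟩, k⟩ := e.surjective (Multiplicative.ofAdd v)
    exact ⟨x, hx, (c1 x hx).trans (congrArg Multiplicative.toAdd k)⟩
  have c6 : ∀ g, Ac A co g id ↔ g ∈ φ.ker := fun g => ⟨fun k => MulEquiv.ext fun v => by
    obtain ⟨x, hx, e⟩ := c5 v.toAdd
    have := (c2 g x hx).symm.trans (k x hx)
    rw [e] at this
    exact congrArg Multiplicative.ofAdd this, fun k x hx => by rw [c2 g x hx, show φ g = 1 from k]; rfl⟩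
  have c7 : ∀ g, ∀ x ∈ A, co (g * x * g⁻¹) = co x ↔ g * x * g⁻¹ * x⁻¹ ∈ B := fun g x hx => by
    have m := Normal.conj_mem ‹_› x hx g
    have := c3 _ (mul_mem m (inv_mem hx)) _ hx
    rw [inv_mul_cancel_right] at this
    rw [← c4 _ (mul_mem m (inv_mem hx)), this, add_eq_right]
  have c8 : φ.ker = Q := (h.smp _ inferInstance fun q hq => (c6 q).1 fun x hx => (c7 q x hx).2 (h1 q hq x hx)).resolve_right fun k =>
    h2 ((c7 σ a ha).1 ((c6 σ).2 (k.ge (mem_top σ)) a ha))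
  have c9 : φ.range = ⊤ := eq_top_of_card_eq _ (by
    rw [← index_ker, c8, h.idx, card_mulAut_of_elementary (p := 2) (n := 3) sq2 (by simp)]; decide)
  refine ⟨co, ‹_›, c3, c4, c5, fun g => c8 ▸ c6 g, fun g => ?_, fun v w u k => ?_⟩
  · have := fun p => eq_lin (AddMonoidHom.mk' (fun v => (φ g (Multiplicative.ofAdd v)).toAdd) fun a b => by
      rw [ofAdd_add, map_mul, toAdd_mul]) p
    exact ⟨_, _, _, fun p q e => by rw [← this, ← this] at e; exact (φ g).injective e, fun x hx => (c2 g x hx).trans (this _)⟩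
  · let ψ : Multiplicative V →* Multiplicative V := MonoidHom.mk' (fun p : Multiplicative V => Multiplicative.ofAdd (lin v w u p.toAdd))
      fun p q => congrArg Multiplicative.ofAdd (lin_add _ _ _ _ _)
    have kψ : Function.Injective ψ := fun p q e => k e
    obtain ⟨g, e⟩ := c9.ge (mem_top (MulEquiv.ofBijective ψ (Finite.injective_iff_bijective.1 kψ)))
    exact ⟨g, fun x hx => (c2 g x hx).trans (congrArg Multiplicative.toAdd (DFunLike.congr_fun e (Multiplicative.ofAdd (co x))))⟩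

theorem Ac.cast (h : Ac A co g T) (e : ∀ v, T v = T' v) : Ac A co g T' := fun x hx => (h x hx).trans (e _)

namespace Fm

variable (f : Fm Q A B co)
include f

theorem cj (hx : x ∈ A) (g : G) : g * x * g⁻¹ ∈ A := f.nA.conj_mem x hx g

theorem mul (h : Ac A co g T) (h' : Ac A co y T') : Ac A co (g * y) fun v => T (T' v) := fun x hx => by
  rw [show g * y * x * (g * y)⁻¹ = g * (y * x * y⁻¹) * g⁻¹ by group, h _ (f.cj hx y), h' x hx]

theorem inv (h : Ac A co g T) (e : ∀ v, T' (T v) = v) : Ac A co g⁻¹ T' := fun x hx => by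
  rw [← e (co _), ← h _ (f.cj hx g⁻¹)]; congr 2; group

theorem one : co 1 = 0 := by simpa using f.add 1 (one_mem _) 1 (one_mem _)

theorem cinv (hx : x ∈ A) : co x⁻¹ = co x := by
  have := f.add _ (inv_mem hx) _ hx
  rw [inv_mul_cancel, f.one] at this
  revert this; generalize co x⁻¹ = p; generalize co x = q; revert p q; decide

theorem mQ (h : Ac A co g T) (e : ∀ v, T v = v) : g ∈ Q := (f.inQ g).1 (h.cast e)

theorem nQ (h : Ac A co g T) {v : V} (e : T v ≠ v) : g ∉ Q := fun k => by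
  obtain ⟨x, hx, rfl⟩ := f.surj v
  exact e ((h x hx).symm.trans ((f.inQ g).2 k x hx))

theorem mulQ (h : Ac A co g T) (hy : y ∈ Q) : Ac A co (g * y) T := f.mul h ((f.inQ y).2 hy)

theorem eqB (hx : x ∈ A) (hy : y ∈ A) (e : co x = co y) : x * y⁻¹ ∈ B := by
  rw [← f.ker _ (mul_mem hx (inv_mem hy)), f.add _ hx _ (inv_mem hy), f.cinv hy, e]
  generalize co y = p; revert p; decide

theorem cm (h : Ac A co g T) (hx : x ∈ A) : co (g * x * g⁻¹ * x⁻¹) = T (co x) + co x := by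
  rw [f.add _ (f.cj hx g) _ (inv_mem hx), h x hx, f.cinv hx]

end Fm

/-- transvections with centre `(1, 0, 0)` -/
def t1 : V → V := fun p => (p.1 + p.2.1, p.2.1, p.2.2)
/-- the second one -/
def t2 : V → V := fun p => (p.1 + p.2.1 + p.2.2, p.2.1, p.2.2)
/-- the third one -/
def t3 : V → V := fun p => (p.1 + p.2.2, p.2.1, p.2.2)
/-- an element of order three -/
def rr : V → V := fun p => (p.1, p.2.2, p.2.1 + p.2.2)
/-- its inverse -/
def ri : V → V := fun p => (p.1, p.2.1 + p.2.2, p.2.1)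
/-- a transvection inverting `rr` -/
def tt : V → V := fun p => (p.1, p.2.1, p.2.2 + p.2.1)
/-- a conjugating element -/
def sw : V → V := fun p => (p.2.2, p.2.1, p.1)

/-- canonical lifts -/
structure Can (A : Subgroup G) (co : G → V) (ρ x₁ x₂ x₃ g τ : G) : Prop where
  r3 : ρ ^ 3 = 1
  aρ : Ac A co ρ rr
  a1 : Ac A co x₁ t1
  a2 : Ac A co x₂ t2
  a3 : Ac A co x₃ t3
  ag : Ac A co g sw
  aτ : Ac A co τ tt
  e2 : ρ * x₁ * ρ⁻¹ = x₂
  e3 : ρ * x₂ * ρ⁻¹ = x₃
  e1 : ρ * x₃ * ρ⁻¹ = x₁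
  pr : x₁ * x₂ * x₃ = 1
  eτ : g * x₁ * g⁻¹ = τ

theorem r3 (h : ρ ^ 3 = 1) (a : G) : ρ * (ρ * (ρ * a * ρ⁻¹) * ρ⁻¹) * ρ⁻¹ = a := by
  calc _ = ρ ^ 3 * a * (ρ ^ 3)⁻¹ := by simp only [pow_succ, pow_zero]; group
    _ = _ := by rw [h]; group

theorem Fm.can (f : Fm Q A B co) (h : Hy Q σ) : ∃ ρ x₁ x₂ x₃ g τ, Can A co ρ x₁ x₂ x₃ g τ := by
  have := h.nQ
  obtain ⟨r, hr⟩ := f.onto (1, 0, 0) (0, 0, 1) (0, 1, 1) (by decide)
  replace hr : Ac A co r rr := hr.cast (by decide)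
  obtain ⟨ρ, h3, e⟩ := lift (p := 3) (by norm_num) h.pQ (v := QuotientGroup.mk' Q r) (by
    rw [← map_pow, pow_three]; exact (QuotientGroup.eq_one_iff _).2 (f.mQ (f.mul hr (f.mul hr hr)) (by decide)))
  have hρ : Ac A co ρ rr := by simpa using f.mulQ hr (QuotientGroup.eq.1 e.symm)
  have hρ' : Ac A co ρ⁻¹ ri := f.inv hρ (by decide)
  obtain ⟨a, ha⟩ := f.onto (1, 0, 0) (1, 1, 0) (0, 0, 1) (by decide)
  replace ha : Ac A co a t1 := ha.cast (by decide)
  obtain ⟨g, hg⟩ := f.onto (0, 0, 1) (0, 1, 0) (1, 0, 0) (by decide)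
  replace hg : Ac A co g sw := hg.cast (by decide)
  have hb : Ac A co (ρ * a * ρ⁻¹) t2 := (f.mul (f.mul hρ ha) hρ').cast (by decide)
  have hc : Ac A co (ρ * (ρ * a * ρ⁻¹) * ρ⁻¹) t3 := (f.mul (f.mul hρ hb) hρ').cast (by decide)
  have k := r3 h3 a
  generalize eb : ρ * a * ρ⁻¹ = b at hb hc k
  generalize ec : ρ * b * ρ⁻¹ = c at hc k
  have h1 : Ac A co (b⁻¹ * c) t1 := (f.mul (f.inv hb (T' := t2) (by decide)) hc).cast (by decide)
  exact ⟨ρ, b⁻¹ * c, c⁻¹ * a, a⁻¹ * b, g, _, h3, hρ, h1, (f.mul (f.inv hc (T' := t3) (by decide)) ha).cast (by decide),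
    (f.mul (f.inv ha (T' := t1) (by decide)) hb).cast (by decide), hg, (f.mul (f.mul hg h1) (f.inv hg (T' := sw) (by decide))).cast (by decide),
    by rw [← ec, ← k, ← ec]; group, by rw [← k, ← eb, ← k]; group, by rw [← eb, ← ec, ← eb]; group, by group, rfl⟩

end Cfsg.Agent.H4.R3
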