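import Cfsg.Agent.H4.R3a

/-! Constrained groups of sectional rank four with quotient of order 168: general lemmas. -/

set_option autoImplicit false
set_option linter.unusedSectionVars false

namespace Cfsg.Agent.H4.R3

open Subgroup Cfsg.Agent.FT Cfsg.Agent.L0 Cfsg.Agent.H8 Cfsg.Agent.H4.R4

universe u

variable {G : Type u} [Group G] [Finite G] {A B D H K L M N Q W : Subgroup G} {a b c g n p s t x y z ρ σ τ γ δ ε x₁ x₂ x₃ : G} {co : G → V}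

theorem cjN [N.Normal] (hx : x ∈ N) (g : G) : g * x * g⁻¹ ∈ N := Normal.conj_mem ‹_› x hx g

theorem Hy.cm_all (h : Hy Q σ) [L.Normal] [D.Normal] (h1 : ∀ q ∈ Q, ∀ d ∈ D, q * d * q⁻¹ * d⁻¹ ∈ L)
    (h2 : ∀ d ∈ D, σ * d * σ⁻¹ * d⁻¹ ∈ L) (g : G) : ∀ d ∈ D, g * d * g⁻¹ * d⁻¹ ∈ L := by
  let K : Subgroup G :=
    { carrier := {g | ∀ d ∈ D, g * d * g⁻¹ * d⁻¹ ∈ L}
      one_mem' := fun d _ => by simp
      mul_mem' := fun {a b} ha hb d hd => by convert mul_mem (cjN (hb d hd) a) (ha d hd) using 1; group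
      inv_mem' := fun {a} ha d hd => by convert cjN (inv_mem (ha d hd)) a⁻¹ using 1; group }
  exact ((h.smp K ⟨fun a ha g d hd => by convert cjN (ha _ (cjN hd g⁻¹)) g using 1; group⟩ h1).resolve_left
    fun e => h.sQ (e.le h2)).ge (mem_top g)

theorem Hy.quo (h : Hy Q σ) [N.Normal] (hN : N ≤ Q) : Hy (Q.map (QuotientGroup.mk' N)) (QuotientGroup.mk' N σ) := by
  have s := QuotientGroup.mk'_surjective N
  have k := (QuotientGroup.ker_mk' N).le.trans hN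
  refine ⟨h.nQ.map _ s, h.pQ.map _, (index_map_eq Q s k).trans h.idx, fun H hH hle => ?_, by rw [← map_pow, h.s7, map_one],
    fun e => h.sQ ((comap_map_eq_self k).le e), h.sr.quo N⟩
  exact (h.smp _ (hH.comap _) (map_le_iff_le_comap.1 hle)).imp (fun e => by rw [← e, map_comap_eq_self_of_surjective s]) fun e => by
    rw [← map_comap_eq_self_of_surjective s H, e, map_top_of_surjective _ s]

theorem irr (h7 : σ ^ 7 = 1) (h8 : #|M| = 8) (hf : M ⊓ 𝐂[σ] = ⊥) (hK : K ≤ M) (hn : σ ∈ 𝐍(K)) (h0 : K ≠ ⊥) : K = M := by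
  have := Fact.mk (by norm_num : Nat.Prime 7)
  have k := cmod h7 hn
  rw [eq_bot_iff.2 ((inf_le_inf_right _ hK).trans hf.le), card_bot] at k
  have k1 := card_le_of_le hK
  have k2 := (one_lt_card_iff_ne_bot K).2 h0
  exact eq_of_le_of_card_ge hK (by unfold Nat.ModEq at k; omega)

theorem clσ (p : G) : ∀ g ∈ zpowers σ, ∀ x ∈ H6.cl p, g * x * g⁻¹ ∈ H6.cl p := fun g _ _ hx => IsConj.trans hx (isConj_iff.2 ⟨g, rfl⟩)

theorem l16 [W.Normal] (h7 : σ ^ 7 = 1) (h8 : #|M| = 8) (hf : M ⊓ 𝐂[σ] = ⊥) (hn : σ ∈ 𝐍(M)) (hW : ∀ w ∈ W, w * w = 1) (hM : M ≤ W)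
    (h16 : #|W| = 16) (hp : p ∈ W) (h1 : g * p * g⁻¹ ≠ p) (h2 : (H6.cl p).ncard ≤ 7) : M.Normal := by
  have := Fact.mk (by norm_num : Nat.Prime 7)
  have i2 : (M.subgroupOf W).index = 2 := by
    have := (M.subgroupOf W).card_mul_index
    rw [card_subgroupOf_of_le hM, h8, h16] at this; omega
  have p1 : ∀ g : G, g * p * g⁻¹ ≠ 1 := fun k e => h1 (by rw [conj_eq_one_iff.1 e]; group)
  rw [← irr h7 h8 hf M.normalCore_le nN fun e => ?_]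
  · infer_instance
  by_cases k1 : ∀ g : G, g * p * g⁻¹ ∈ M
  · exact p1 1 (by simpa using e.le (show p ∈ M.normalCore from k1))
  by_cases k2 : ∀ g : G, g * p * g⁻¹ ∉ M
  · refine h1 ((eq_inv_of_mul_eq_one_right (mem_bot.1 (e.le fun k => ?_))).trans (inv_eq_of_mul_eq_one_right (hW p hp)))
    have : k * p * k⁻¹ * (k * g * p * (k * g)⁻¹) ∈ M :=
      (mul_mem_iff_of_index_two i2 (a := ⟨_, cjN hp k⟩) (b := ⟨_, cjN hp (k * g)⟩)).2 (iff_of_false (k2 _) (k2 _))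
    convert this using 1; group
  push Not at k1 k2
  obtain ⟨a, ha⟩ := k1
  obtain ⟨b, hb⟩ := k2
  have k := fm (S := H6.cl p ∩ M) h7 fun g hg x hx => ⟨clσ p g hg x hx.1, (mem_normalizer_iff.1 (zpowers_le.2 hn hg) x).1 hx.2⟩
  rw [Set.eq_empty_of_forall_notMem (s := _ ∩ _ ∩ _) fun y hy => by
    obtain ⟨k, rfl⟩ := isConj_iff.1 hy.1.1
    exact p1 k (hf.le ⟨hy.1.2, hy.2⟩), Set.ncard_empty] at k
  have k3 := Set.ncard_lt_ncard (s := H6.cl p ∩ M) (t := H6.cl p) ⟨Set.inter_subset_left, fun e => ha (e (isConj_iff.2 ⟨a, rfl⟩)).2⟩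
  have k4 := (Set.ncard_pos (s := H6.cl p ∩ M)).2 ⟨_, isConj_iff.2 ⟨b, rfl⟩, hb⟩
  unfold Nat.ModEq at k; omega

theorem Hy.l16 (h : Hy Q σ) [W.Normal] (h8 : #|M| = 8) (hf : M ⊓ 𝐂[σ] = ⊥) (hn : σ ∈ 𝐍(M)) (hW : ∀ w ∈ W, w * w = 1) (hM : M ≤ W)
    (h16 : #|W| = 16) : M.Normal ∨ ∃ z ∈ W, z ≠ 1 ∧ ∀ g, g * z * g⁻¹ = z := by
  have := Fact.mk Nat.prime_two
  have := h.nQ
  obtain ⟨S, hS, le⟩ := exists_isSylowIn_ge h.pQ (le_top : Q ≤ ⊤)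
  obtain ⟨⟨p, hp, c⟩, p1⟩ := ne_bot_iff_exists_ne_one.1 (inf_centralizer_ne_bot_of_isPGroup (W := W)
    (fun w => ⟨1, Subtype.ext ((pow_two w.1).trans (hW _ w.2))⟩) hS.pgroup (fun _ _ => nN) (by rintro rfl; simp at h16))
  replace p1 : p ≠ 1 := fun e => p1 (Subtype.ext e)
  refine or_iff_not_imp_right.2 fun k => ?_
  push Not at k
  obtain ⟨g, hg⟩ := k p hp p1
  refine R3.l16 h.s7 h8 hf hn hW hM h16 hp hg ?_
  have k1 := Set.ncard_le_ncard (s := H6.cl p) (t := W) fun y hy => (isConj_iff.1 hy).elim fun k e => e ▸ cjN hp k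
  rw [← Nat.card_coe_set_eq (W : Set G), SetLike.coe_sort_coe, h16] at k1
  have k2 := index_dvd_of_le (le_centralizer_singleton_iff.2 c)
  have k3 := hS.not_dvd_relIndex
  rw [relIndex_top_right] at k3
  have k4 := (Nat.Coprime.pow_right 3 ((Nat.prime_two.coprime_iff_not_dvd).2 k3).symm).dvd_of_dvd_mul_left
    (show _ ∣ 2 ^ 3 * 21 from (index_dvd_of_le le).trans h.idx.dvd)
  have k5 := k2.trans k4
  rw [← H6.ncard_cl_eq_index] at k5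
  generalize (H6.cl p).ncard = m at k1 k5
  interval_cases m <;> simp_all

theorem Hy.f1 (h : Hy Q σ) (h8 : #|N| = 8) (hf : N ⊓ 𝐂[σ] = ⊥) (hN : N ≤ 𝐂(Q)) (hz : z ∈ 𝐂(Q)) (zσ : z ∈ 𝐂[σ])
    (h1 : ∀ g, g * z * g⁻¹ * z⁻¹ ∈ N) (h2 : g * z * g⁻¹ ≠ z) (hx : x ∉ Q) (x2 : x * x ∈ Q) (hn : n ∈ N) : x * (n * z) ≠ n * z * x := fun e => by
  have := Fact.mk Nat.prime_two
  have := Fact.mk (by norm_num : Nat.Prime 7)
  have := h.nQ
  have s1 : H6.cl z ⊆ (· * z) '' N := fun y hy => (isConj_iff.1 hy).elim fun k e => ⟨_, h1 k, by simp [e]⟩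
  have c1 : ((· * z) '' (N : Set G)).ncard = 8 := by
    rw [Set.ncard_image_of_injective _ (mul_left_injective z), ← Nat.card_coe_set_eq, SetLike.coe_sort_coe, h8]
  have k := R4.fm h.s7 (clσ z)
  rw [show H6.cl z ∩ 𝐂[σ] = {z} from Set.eq_singleton_iff_unique_mem.2 ⟨⟨IsConj.refl z, zσ⟩, fun y hy => by
    obtain ⟨m, hm, rfl⟩ := s1 hy.1
    exact mul_eq_right.2 (hf.le ⟨hm, (mul_mem_cancel_right zσ).1 hy.2⟩)⟩, Set.ncard_singleton] at k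
  have k1 := Set.ncard_le_ncard s1
  have k2 := (Set.one_lt_ncard (s := H6.cl z)).2 ⟨_, isConj_iff.2 ⟨g, rfl⟩, z, IsConj.refl z, h2⟩
  have k3 : (H6.cl z).ncard = 8 := by unfold Nat.ModEq at k; omega
  have k4 : IsConj z (n * z) := (Set.eq_of_subset_of_ncard_le s1 (by omega)).ge ⟨n, hn, rfl⟩
  rw [show H6.cl z = H6.cl (n * z) from Set.ext fun y => ⟨k4.symm.trans, k4.trans⟩, H6.ncard_cl_eq_index] at k3
  have k5 := card_dvd_of_le (sup_le (le_centralizer_singleton_iff.2 (mul_mem (hN hn) hz)) (zpowers_le.2 (mem_centralizer_singleton_iff.2 e)))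
  rw [H5.card_sup_zpowers nN hx (pow_two x ▸ x2)] at k5
  have k6 := (𝐂[n * z]).card_mul_index
  rw [k3, ← Q.card_mul_index, h.idx] at k6
  rw [show #|𝐂[n * z]| = #|Q| * 21 by omega] at k5
  exact absurd (Nat.dvd_of_mul_dvd_mul_left Nat.card_pos k5) (by norm_num)

theorem r5 (hS : SR G) (hle : N ≤ B) (hc : #|B| = 8 * #|N|) (hx : x ∈ 𝐍(B)) (hy : y ∈ 𝐍(B)) (h0 : ∀ b ∈ B, b * b ∈ N)
    (h1 : ∀ b ∈ B, b * x * (b * x) ∈ N) (h2 : ∀ b ∈ B, b * y * (b * y) ∈ N) (h3 : ∀ b ∈ B, b * (x * y) * (b * (x * y)) ∈ N)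
    (n1 : x ∉ B) (n2 : y ∉ B) (n3 : x * y ∉ B) : False := by
  have := Fact.mk Nat.prime_two
  have x2 : x * x ∈ B := hle (by simpa using h1 1 (one_mem _))
  have y2 : y * y ∈ B := hle (by simpa using h2 1 (one_mem _))
  have z2 : x * y * (x * y) ∈ B := hle (by simpa using h3 1 (one_mem _))
  have k1 : y ∈ 𝐍((B ⊔ zpowers x : Subgroup G)) := H9.mem_normalizer_of_conj_mem fun g hg => by
    rcases two hx x2 hg with k | ⟨b, hb, rfl⟩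
    · exact mem_sup_left (H9.conj_mem_of_mem_normalizer hy k)
    · convert mul_mem (mul_mem (mem_sup_left (H9.conj_mem_of_mem_normalizer hy hb)) (inv_mem (mem_sup_right (mem_zpowers x))))
        (mem_sup_left (mul_mem z2 (inv_mem y2))) using 1
      group
  have k2 : y ∉ B ⊔ zpowers x := fun k => by
    rcases two hx x2 k with k | ⟨b, hb, rfl⟩
    · exact n2 k
    · exact n3 (by convert mul_mem (H9.conj_mem_of_mem_normalizer hx hb) x2 using 1; group)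
  have := hS N (B ⊔ zpowers x ⊔ zpowers y) (le_sup_of_le_left (le_sup_of_le_left hle)) fun g hg => by
    rcases two k1 (mem_sup_left y2) hg with k | ⟨w, k, rfl⟩ <;> rcases two hx x2 k with k | ⟨b, hb, rfl⟩
    exacts [h0 _ k, h1 _ hb, h2 _ k, mul_assoc b x y ▸ h3 _ hb]
  rw [H5.card_sup_zpowers k1 k2 (pow_two y ▸ mem_sup_left y2), H5.card_sup_zpowers hx n1 (pow_two x ▸ x2), hc] at this
  have : 0 < #|N| := Nat.card_pos
  omega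

theorem odd3 {k : ℕ} (h : δ ^ 6 = 1) (hk : δ ^ 2 ^ k = 1) : δ * δ = 1 := by
  have := pow_gcd_eq_one.2 ⟨show (δ ^ 2) ^ 3 = 1 by rw [← pow_mul, h], show (δ ^ 2) ^ 2 ^ k = 1 by rw [pow_right_comm, hk, one_pow]⟩
  rwa [Nat.Coprime.pow_right k (by norm_num : Nat.Coprime 3 2), pow_one, pow_two] at this

theorem q8 {k : ℕ} (pr : x₁ * x₂ * x₃ = 1) (h1 : x₁ * x₁ = γ) (h2 : x₂ * x₂ = γ) (h3 : x₃ * x₃ = γ) (hk : γ ^ 2 ^ k = 1) :
    γ * γ = 1 ∧ x₂ * x₁ = γ * (x₁ * x₂) := by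
  have c1 : Commute x₁ γ := h1 ▸ (Commute.refl _).mul_right (Commute.refl _)
  have c2 : Commute x₂ γ := h2 ▸ (Commute.refl _).mul_right (Commute.refl _)
  have h4 : γ * (x₁ * x₂ * (x₁ * x₂)) = 1 := by rw [← h3, eq_inv_of_mul_eq_one_right pr]; group
  have e : γ ^ 3 * (x₂ * x₁) = x₁ * x₂ := mul_left_cancel (a := x₁) (mul_right_cancel (b := x₂) (by
    calc _ = γ ^ 2 * (γ * (x₁ * x₂ * (x₁ * x₂))) := by rw [← mul_assoc x₁, (c1.pow_right 3).eq]; group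
      _ = x₁ * x₁ * (x₂ * x₂) := by rw [h4, mul_one, pow_two, h1, h2]
      _ = _ := by group))
  have e6 : γ ^ 6 = 1 := mul_right_cancel (b := x₂ * γ) (by
    calc _ = γ ^ 3 * (γ ^ 3 * (x₂ * x₁)) * x₁ := by rw [← h1]; group
      _ = γ ^ 3 * x₁ * (x₂ * x₁) := by rw [e]; group
      _ = x₁ * (γ ^ 3 * (x₂ * x₁)) := by rw [← (c1.pow_right 3).eq, mul_assoc]
      _ = _ := by rw [e, ← mul_assoc, h1, c2.eq, one_mul])
  have e2 := odd3 e6 hk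
  exact ⟨e2, by rw [← e, pow_three, e2, mul_one, ← mul_assoc, e2, one_mul]⟩

theorem st {k l : ℕ} (e2 : ρ * x₁ * ρ⁻¹ = x₂) (e3 : ρ * x₂ * ρ⁻¹ = x₃) (e1 : ρ * x₃ * ρ⁻¹ = x₁) (pr : x₁ * x₂ * x₃ = 1)
    (h1 : x₁ * x₁ = γ) (cγ : ∀ g, Commute g γ) (hτ : τ * τ = γ) (k1 : τ⁻¹ * x₁ * τ = x₁ * δ) (cδ : ∀ g, Commute g δ)
    (k2 : τ⁻¹ * ρ * τ = ρ⁻¹ * ε) (cε : ∀ g, Commute g ε) (hk : γ ^ 2 ^ k = 1) (hl : δ ^ 2 ^ l = 1) :
    γ * γ = 1 ∧ τ * x₂ * (τ * x₂) = x₁ := by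
  have h2 : x₂ * x₂ = γ := by rw [← e2, conj_mul, h1, cγ, mul_inv_cancel_right]
  obtain ⟨g2, c⟩ := q8 pr h1 h2 (by rw [← e3, conj_mul, h2, cγ, mul_inv_cancel_right]) hk
  have k : ∀ a, τ⁻¹ * (ρ * a * ρ⁻¹) * τ = ρ⁻¹ * (τ⁻¹ * a * τ) * ρ := fun a => by
    calc _ = τ⁻¹ * ρ * τ * (τ⁻¹ * a * τ) * (τ⁻¹ * ρ * τ)⁻¹ := by group
      _ = _ := by rw [k2, mul_assoc ρ⁻¹, ← cε]; group
  have y2 : τ⁻¹ * x₂ * τ = x₃ * δ := by rw [← e2, k, k1, ← e1, mul_assoc ρ⁻¹, mul_assoc _ δ, ← cδ]; group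
  have y3 : τ⁻¹ * x₃ * τ = x₂ * δ := by rw [← e3, k, y2, ← e3, mul_assoc ρ⁻¹, mul_assoc _ δ, ← cδ]; group
  have x3 := eq_inv_of_mul_eq_one_right pr
  have e : γ * δ ^ 3 = 1 := by
    calc _ = x₁ * (γ * (γ * (x₁ * x₂))⁻¹) * x₂ * x₂⁻¹ * x₂ * δ ^ 3 := by rw [← c, ← mul_assoc x₁, cγ]; group
      _ = x₁ * (x₃ * x₂) * δ ^ 3 := by rw [x3, mul_inv_rev γ, ← mul_assoc γ, ← cγ]; group
      _ = τ⁻¹ * x₁ * τ * (τ⁻¹ * x₂ * τ) * (τ⁻¹ * x₃ * τ) := by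
        rw [k1, y2, y3, pow_three]; simp only [mul_assoc, (cδ x₃).left_comm, (cδ x₂).left_comm]
      _ = τ⁻¹ * (x₁ * x₂ * x₃) * τ := by group
      _ = 1 := by rw [pr]; group
  have d2 : δ * δ = 1 := odd3 (by
    rw [show 6 = 3 * 2 from rfl, pow_mul, eq_inv_of_mul_eq_one_right e, pow_two, ← mul_inv_rev, g2, inv_one]) hl
  have d : δ = γ := by
    rw [pow_three, d2, mul_one] at e
    rw [eq_inv_of_mul_eq_one_right e, inv_eq_of_mul_eq_one_right g2]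
  refine ⟨g2, ?_⟩
  calc _ = τ * τ * (τ⁻¹ * x₂ * τ) * x₂ := by group
    _ = x₃ * x₂ := by rw [hτ, y2, d, cγ, ← mul_assoc, g2, one_mul]
    _ = (γ * (x₁ * x₂))⁻¹ * γ * x₂ := by rw [x3]; group
    _ = x₁⁻¹ * x₂⁻¹ * (γ * x₂) := by rw [← c]; group
    _ = _ := by rw [← cγ, ← h1]; group

theorem Hy.can (h : Hy Q σ) (f : Fm Q A B co) (c : Can A co ρ x₁ x₂ x₃ g τ) [L.Normal] (hL : ∀ g, ∀ q ∈ Q, g * q * g⁻¹ * q⁻¹ ∈ L) :
    x₁ * x₁ * (x₁ * x₁) ∈ L ∧ τ * x₂ * (τ * x₂) * x₁⁻¹ ∈ L := by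
  let π := QuotientGroup.mk' L
  have k : ∀ q ∈ Q, ∀ g, Commute g (π q) := fun q hq g => by
    obtain ⟨g, rfl⟩ := QuotientGroup.mk'_surjective L g
    have := (QuotientGroup.eq_one_iff _).2 (hL g q hq)
    change π g * π q = π q * π g
    simpa [π, mul_inv_eq_iff_eq_mul] using this
  have k2 : ∀ q ∈ Q, ∃ k, π q ^ 2 ^ k = 1 := fun q hq => (h.pQ ⟨q, hq⟩).imp fun k e => by
    rw [← map_pow, show q ^ 2 ^ k = 1 from congrArg Subtype.val e, map_one]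
  have τ' := f.inv c.aτ (T' := tt) (by decide)
  have m1 := f.mQ (f.mul c.a1 c.a1) (by decide)
  have m2 := f.mQ (f.mul (f.inv c.a1 (T' := t1) (by decide)) (f.mul (f.mul τ' c.a1) c.aτ)) (by decide)
  have m3 := f.mQ (f.mul c.aρ (f.mul (f.mul τ' c.aρ) c.aτ)) (by decide)
  obtain ⟨_, l1⟩ := k2 _ m1
  obtain ⟨_, l2⟩ := k2 _ m2
  obtain ⟨e1, e2⟩ := st (ρ := π ρ) (x₁ := π x₁) (x₂ := π x₂) (x₃ := π x₃) (τ := π τ) (by rw [← c.e2]; simp) (by rw [← c.e3]; simp)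
    (by rw [← c.e1]; simp) (by rw [← map_mul, ← map_mul, c.pr, map_one]) (map_mul _ _ _).symm (k _ m1)
    (by rw [← map_mul, ← c.eτ, conj_mul, map_mul, map_mul, k _ m1]; simp) (by simp) (k _ m2) (by simp) (k _ m3) l1 l2
  exact ⟨(QuotientGroup.eq_one_iff _).1 ((map_mul π _ _).trans e1), (QuotientGroup.eq_one_iff _).1 (by
    change π _ = 1
    simp only [map_mul, map_inv, e2, mul_inv_cancel])⟩

end Cfsg.Agent.H4.R3
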