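import Cfsg.Agent.H4.R3b

/-! Constrained groups of sectional rank four with quotient of order 168: one non-central chief factor. -/

set_option autoImplicit false
set_option linter.unusedSectionVars false

namespace Cfsg.Agent.H4.R3

open Subgroup Cfsg.Agent.FT Cfsg.Agent.L0 Cfsg.Agent.H8 Cfsg.Agent.H4.R4
open scoped commutatorElement

universe u

variable {G : Type u} [Group G] [Finite G] {A B D H K L M N Q W : Subgroup G} {a b c g n p q s t u x y z ρ σ τ γ x₁ x₂ x₃ : G} {co : G → V}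

/-- `Q = M × C_Q(σ)` -/
structure Gd (Q M : Subgroup G) (σ : G) : Prop where
  le : M ≤ Q
  sq : ∀ m ∈ M, m * m = 1
  card : #|M| = 8
  cen : M ≤ 𝐂(Q)
  nσ : σ ∈ 𝐍(M)
  inf : M ⊓ 𝐂[σ] = ⊥
  dec : ∀ q ∈ Q, ∃ m ∈ M, ∃ c ∈ Q ⊓ 𝐂[σ], q = m * c

theorem gd_of (hQ : IsPGroup 2 Q) (h7 : σ ^ 7 = 1) (hA : A ≤ Q) (ab : A ≤ 𝐂(A)) (nσ : σ ∈ 𝐍(A)) (nQ : Q ≤ 𝐍(A))
    (sq : ∀ a ∈ A, a * a ∈ 𝐂[σ]) (h16 : #|A| ≤ 16) (nc : σ ∉ 𝐂(A)) (dec : ∀ q ∈ Q, ∃ a ∈ A, ∃ c ∈ Q ⊓ 𝐂[σ], q = a * c) :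
    ∃ M ≤ A, Gd Q M σ := by
  have := Fact.mk (by norm_num : Nat.Prime 7)
  have c := cop (by norm_num) h7 (hQ.to_le hA) nσ
  have l := c.commutator_le
  have n1 : ∀ {X : Subgroup G}, X ≤ 𝐍(A) → X ≤ 𝐂[σ] → X ≤ 𝐍(⁅A, zpowers σ⁆) := fun h1 h2 =>
    le_normalizer_commutator h1 ((centralizer_zpowers σ ▸ h2).trans (centralizer_le_normalizer _))
  have n2 := n1 (zpowers_le.2 nσ) (zpowers_le.2 (mem_centralizer_singleton_iff.2 rfl)) (mem_zpowers σ)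
  have i := centralizer_zpowers σ ▸ c.commutator_inf_centralizer_eq_bot (comm_iff_le_centralizer.2 ab)
  have s := pw (n := 2) c.commutator_commutator n2 (fun x hx y hy => Commute.mul_pow (ab (l hy) x (l hx)) 2)
    fun x hx => (pow_two x).symm ▸ sq x (l hx)
  have n0 : ⁅A, zpowers σ⁆ ≠ ⊥ := fun e => nc (le_centralizer_singleton_iff.1 (centralizer_zpowers σ ▸ commutator_eq_bot_iff_le_centralizer.1 e))
  have d := fun x => c.exists_eq_commutator_mul (x := x)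
  rw [centralizer_zpowers] at d
  generalize ⁅A, zpowers σ⁆ = M at *
  have pM := hQ.to_le (l.trans hA)
  have c8 : #|M| = 8 := by
    have k := cmod h7 n2
    obtain ⟨j, hj⟩ := pM.exists_card_eq
    have k1 := (card_le_of_le l).trans h16
    have k2 := (one_lt_card_iff_ne_bot M).2 n0
    rw [i, card_bot, hj] at k
    rw [hj] at k1 k2 ⊢
    have : j ≤ 4 := (Nat.pow_le_pow_iff_right one_lt_two).1 k1
    interval_cases j <;> simp_all [Nat.ModEq]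
  have k : M ⊓ 𝐂((Q ⊓ 𝐂[σ] : Subgroup G)) = M := irr h7 c8 i inf_le_left (le_normalizer_inf (zpowers_le.2 n2) (zpowers_le.2
    (H9.mem_normalizer_of_conj_mem fun x hx => mem_centralizer_iff.2 fun y hy => by
      have e := mem_centralizer_singleton_iff.1 (mem_inf.1 hy).2
      calc y * (σ * x * σ⁻¹) = y * σ * x * σ⁻¹ := by group
        _ = σ * x * (y * σ⁻¹) := by rw [e, mul_assoc σ y, hx y hy]; group
        _ = _ := by rw [(show Commute y σ from e).inv_right.eq, ← mul_assoc])) (mem_zpowers σ))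
    (inf_centralizer_ne_bot_of_isPGroup pM (hQ.to_le inf_le_left) (n1 (inf_le_left.trans nQ) inf_le_right) n0)
  refine ⟨M, l, l.trans hA, fun m hm => (pow_two m).symm.trans (s m hm), c8, fun m hm q hq => ?_, n2, i, fun q hq => ?_⟩
  · obtain ⟨a, ha, c, hc, rfl⟩ := dec q hq
    rw [mul_assoc, (k.ge hm).2 c hc, ← mul_assoc, ab (l hm) a ha, mul_assoc]
  · obtain ⟨a, ha, c, hc, rfl⟩ := dec q hq
    obtain ⟨m, hm, e, he, rfl⟩ := d a ha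
    exact ⟨m, hm, _, mul_mem ⟨hA he.1, he.2⟩ hc, mul_assoc _ _ _⟩

theorem Gd.cardQ (h : Gd Q M σ) : #|Q| = 8 * #|(Q ⊓ 𝐂[σ] : Subgroup G)| := by
  have := card_sup_mul_card_inf_of_le_normalizer (h.cen.trans ((centralizer_anti (inf_le_left : Q ⊓ 𝐂[σ] ≤ Q)).trans (centralizer_le_normalizer _)))
  rwa [le_antisymm (sup_le h.le inf_le_left) fun q hq => (h.dec q hq).elim fun m k => k.2.elim fun c e =>
    e.2 ▸ mul_mem (mem_sup_left k.1) (mem_sup_right e.1), eq_bot_iff.2 ((inf_le_inf_left _ inf_le_right).trans h.inf.le), card_bot, mul_one,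
    h.card] at this

theorem Gd.sqC (h : Gd Q M σ) (hq : q ∈ Q) : ∃ c ∈ Q ⊓ 𝐂[σ], q * c⁻¹ ∈ M ∧ q * q = c * c := by
  obtain ⟨m, hm, c, hc, rfl⟩ := h.dec q hq
  exact ⟨c, hc, by simpa using hm, by rw [mul_assoc, ← mul_assoc c, h.cen hm c hc.1, ← mul_assoc, ← mul_assoc, h.sq m hm, one_mul]⟩

theorem Gd.cyc (h : Gd Q M σ) (hy : Hy Q σ) : ∃ c, zpowers c = Q ⊓ 𝐂[σ] := by
  have p := hy.pQ.to_le (inf_le_left : Q ⊓ 𝐂[σ] ≤ Q)
  have k := hy.sr _ Q ((Phi_le (Q ⊓ 𝐂[σ])).trans inf_le_left) fun q hq => (h.sqC hq).elim fun c e => e.2.2 ▸ pow_two c ▸ pow_mem_Phi p e.1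
  rw [h.cardQ] at k
  by_cases e : Q ⊓ 𝐂[σ] = ⊥
  · exact ⟨1, by rw [e, zpowers_one_eq_bot]⟩
  obtain ⟨c, hc, -, e⟩ := ext (Phi_le _) (fun x hx => pow_two x ▸ pow_mem_Phi p hx) (card_lt_of_lt (Phi_lt e))
  exact ⟨c, eq_of_sup_Phi (zpowers_le.2 hc) ((sup_comm _ _).trans (eq_of_le_of_card_ge (sup_le (Phi_le _) (zpowers_le.2 hc)) (by omega)))⟩

theorem Gd.ab (h : Gd Q M σ) (hy : Hy Q σ) (hx : x ∈ Q) (hq : q ∈ Q) : Commute x q := by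
  obtain ⟨c, e⟩ := h.cyc hy
  obtain ⟨m, hm, d, hd, rfl⟩ := h.dec x hx
  obtain ⟨m', hm', d', hd', rfl⟩ := h.dec q hq
  refine Commute.mul_left (h.cen hm _ hq).symm (Commute.mul_right (h.cen hm' d hd.1) ?_)
  obtain ⟨i, rfl⟩ := e.ge hd
  obtain ⟨j, rfl⟩ := e.ge hd'
  exact Commute.zpow_zpow_self c i j

theorem gen (hu : IsPGroup 2 (zpowers u)) (hy : y ∈ zpowers u) (h : y ∉ zpowers (u * u)) : u ∈ zpowers y := by
  have k := pow_two u ▸ pow_mem_Phi hu (mem_zpowers u)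
  refine (eq_of_sup_Phi (zpowers_le.2 hy) (le_antisymm (sup_le (zpowers_le.2 hy) (Phi_le _)) (zpowers_le.2 ?_))).ge (mem_zpowers u)
  rcases two (W := zpowers (u * u)) (centralizer_le_normalizer _ (le_centralizer_singleton_iff.1 (zpowers_le.2
    (mem_centralizer_singleton_iff.2 (mul_assoc _ _ _))))) (mem_zpowers _) (mem_sup_right hy) with e | ⟨w, hw, e⟩
  · exact absurd e h
  · exact (mul_mem_cancel_left (mem_sup_right (zpowers_le.2 k hw))).1 (e ▸ mem_sup_left (mem_zpowers y))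

theorem gen' {n : ℕ} (hu : IsPGroup 2 (zpowers u)) (hy : y ∈ zpowers u) (h : y ^ n = 1) (hn : u ^ n ≠ 1) : y ∈ zpowers (u * u) :=
  by_contra fun e => hn (by obtain ⟨i, rfl⟩ := gen hu hy e; rw [← zpow_natCast, ← zpow_mul, mul_comm, zpow_mul, zpow_natCast, h, one_zpow])

theorem card_zp (hu : IsPGroup 2 (zpowers u)) (h : u ≠ 1) : #|zpowers u| = #|zpowers (u * u)| * 2 := by
  rw [← H5.card_sup_zpowers (x := u) (centralizer_le_normalizer _ (le_centralizer_singleton_iff.1 (zpowers_le.2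
    (mem_centralizer_singleton_iff.2 (mul_assoc _ _ _))))) (fun e => (Phi_lt (zpowers_ne_bot.2 h)).not_ge (zpowers_le.2 (zpowers_le.2
      (pow_two u ▸ pow_mem_Phi hu (mem_zpowers u)) e))) (pow_two u ▸ mem_zpowers _), sup_eq_right.2 (zpowers_le.2 (mul_mem (mem_zpowers u) (mem_zpowers u)))]

/-- elements of order at most two of an abelian subgroup -/
def Om (Q : Subgroup G) (h : ∀ x ∈ Q, ∀ y ∈ Q, Commute x y) : Subgroup G where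
  carrier := {x | x ∈ Q ∧ x * x = 1}
  mul_mem' := fun {a b} k l => ⟨mul_mem k.1 l.1, by rw [← pow_two, (h a k.1 b l.1).mul_pow, pow_two, pow_two, k.2, l.2, one_mul]⟩
  one_mem' := ⟨one_mem _, one_mul _⟩
  inv_mem' := fun k => ⟨inv_mem k.1, by rw [← mul_inv_rev, k.2, inv_one]⟩

instance [Q.Normal] (h : ∀ x ∈ Q, ∀ y ∈ Q, Commute x y) : (Om Q h).Normal :=
  ⟨fun x hx g => ⟨cjN hx.1 g, by rw [conj_mul, hx.2, mul_one, mul_inv_cancel]⟩⟩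

theorem Can.fix (c : Can A co ρ x₁ x₂ x₃ g τ) (f : Fm Q A B co) (ab : ∀ x ∈ A, ∀ y ∈ A, Commute x y) (ha : a ∈ A) (e : co a = (1, 0, 0)) :
    ∃ b ∈ A, co b = (1, 0, 0) ∧ ρ * b * ρ⁻¹ = b ∧ b = a * (ρ * a * ρ⁻¹) * (ρ * (ρ * a * ρ⁻¹) * ρ⁻¹) := by
  have m1 := f.cj ha ρ
  have m2 := f.cj m1 ρ
  refine ⟨_, mul_mem (mul_mem ha m1) m2, ?_, ?_, rfl⟩
  · rw [f.add _ (mul_mem ha m1) _ m2, f.add _ ha _ m1, c.aρ _ m1, c.aρ _ ha, e]; decide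
  · rw [← conj_mul, ← conj_mul, R3.r3 c.r3, ab _ (mul_mem m1 m2) a ha, mul_assoc a]

theorem Can.cen (c : Can A co ρ x₁ x₂ x₃ g τ) (hb : ρ * b * ρ⁻¹ = b) (hn : ρ * n * ρ⁻¹ = n) (h : x₁ * b * x₁⁻¹ = n * b) (n2 : n * n = 1)
    (n1 : x₁ * n * x₁⁻¹ = n) : n = 1 ∧ x₁ * b * x₁⁻¹ = b ∧ x₂ * b * x₂⁻¹ = b ∧ x₃ * b * x₃⁻¹ = b := by
  have k : ∀ {x y b}, ρ * b * ρ⁻¹ = b → x * b * x⁻¹ = y → ρ * x * ρ⁻¹ * b * (ρ * x * ρ⁻¹)⁻¹ = ρ * y * ρ⁻¹ := fun {x y b} e e' => by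
    rw [← e']; nth_rw 1 [← e]; group
  have h2 := k hb h
  rw [← conj_mul, hn, hb, c.e2] at h2
  have h3 := k hb h2
  rw [← conj_mul, hn, hb, c.e3] at h3
  have m2 := k hn n1
  rw [hn, c.e2] at m2
  have e : n = 1 := by
    have : b = x₁ * (x₂ * (x₃ * b * x₃⁻¹) * x₂⁻¹) * x₁⁻¹ := by
      calc b = x₁ * x₂ * x₃ * b * (x₁ * x₂ * x₃)⁻¹ := by rw [c.pr]; group
        _ = _ := by group
    rwa [h3, ← conj_mul (a := n), m2, h2, ← mul_assoc n, n2, one_mul, h, eq_comm, mul_eq_right] at this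
  rw [e, one_mul] at h h2 h3
  exact ⟨e, h, h2, h3⟩

theorem Gd.four (h : Gd Q M σ) (hy : Hy Q σ) (hq : q ∈ Q) : q ^ 4 = 1 := by
  have := hy.nQ
  obtain ⟨c, ec⟩ := h.cyc hy
  have ab := fun x hx y hy' => h.ab (x := x) (q := y) hy hx hy'
  have cQ : c ∈ Q := (ec.le (mem_zpowers c)).1
  have sq : ∀ q ∈ Q, q * q ∈ zpowers (c * c) := fun q hq => by
    obtain ⟨d, hd, -, e⟩ := h.sqC hq
    obtain ⟨i, rfl⟩ := ec.ge hd
    exact ⟨i, by rw [e]; exact (Commute.refl c).mul_zpow i⟩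
  have p4 : ∀ x : G, x ^ 4 = x * x * (x * x) := fun x => by simp only [pow_succ, pow_zero, one_mul, mul_assoc]
  suffices c ^ 4 = 1 by
    obtain ⟨i, e⟩ := sq q hq
    rw [p4, ← e, ← Commute.mul_zpow rfl, ← p4, this, one_zpow]
  by_contra c4
  have l1 : zpowers (c * c) ≤ zpowers c := zpowers_le.2 (mul_mem (mem_zpowers c) (mem_zpowers c))
  have l2 : zpowers (c * c * (c * c)) ≤ zpowers (c * c) := zpowers_le.2 (mul_mem (mem_zpowers _) (mem_zpowers _))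
  have l3 : zpowers (c * c) ≤ Q := zpowers_le.2 (mul_mem cQ cQ)
  have : (zpowers (c * c)).Normal := ⟨fun _ ⟨i, e⟩ g => by rw [← e, ← conj_zpow, ← conj_mul]; exact zpow_mem (sq _ (cjN cQ g)) i⟩
  have cen : ∀ g, ∀ d ∈ zpowers (c * c), g * d * g⁻¹ = d := fun g d hd => mul_inv_eq_one.1 (hy.cm_all (L := ⊥)
    (fun q hq d hd => by rw [ab q hq d (l3 hd)]; simp) (fun d hd => by rw [← mem_centralizer_singleton_iff.1 (ec.le (l1 hd)).2]; simp) g d hd)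
  have cm : ∀ g, ∀ q ∈ Q, g * q * g⁻¹ * q⁻¹ ∈ Om Q ab := fun g q hq => ⟨mul_mem (cjN hq g) (inv_mem hq), by
    rw [← pow_two, (ab _ (cjN hq g) _ (inv_mem hq)).mul_pow, pow_two, pow_two, conj_mul, cen g _ (sq q hq)]; group⟩
  have pc := hy.pQ.to_le (zpowers_le.2 cQ)
  have nD : M ≤ 𝐍(zpowers (c * c)) := fun _ _ => nN
  have l4 : ∀ q ∈ Q, q ^ 4 = 1 → q ∈ M ⊔ zpowers (c * c) := fun q hq e => by
    obtain ⟨d, hd, k, e'⟩ := h.sqC hq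
    simpa using mul_mem (mem_sup_left k) (mem_sup_right (gen' pc (ec.ge hd) (by rw [p4, ← e', ← p4, e]) c4))
  have l5 : ∀ q ∈ Om Q ab, q ∈ M ⊔ zpowers (c * c) := fun q hq => l4 q hq.1 (by rw [p4, hq.2, one_mul])
  have AQ := sup_le h.le l3
  have : (M ⊔ zpowers (c * c)).Normal := ⟨fun a ha g => by simpa using mul_mem (l5 _ (cm g a (AQ ha))) ha⟩
  have cA := card_sup_mul_card_inf_of_le_normalizer nD
  rw [eq_bot_iff.2 ((inf_le_inf_left _ ((l1.trans ec.le).trans inf_le_right)).trans h.inf.le), card_bot, mul_one, h.card] at cA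
  obtain ⟨⟨a, ha⟩, a1⟩ := ne_bot_iff_exists_ne_one.1 (show M ≠ ⊥ by rintro rfl; simpa using h.card)
  obtain ⟨co, f⟩ := hy.fm le_sup_right cA (fun a ha => sq a (AQ ha)) (fun q hq a ha => by rw [ab q hq a (AQ ha)]; simp) (mem_sup_left ha) fun k => by
    have := h.inf.le (mem_inf.2 ⟨mul_mem (H9.conj_mem_of_mem_normalizer h.nσ ha) (inv_mem ha), (ec.le (l1 k)).2⟩)
    rw [mem_bot, mul_inv_eq_one, mul_inv_eq_iff_eq_mul] at this
    exact a1 (Subtype.ext (h.inf.le ⟨ha, mem_centralizer_singleton_iff.2 this.symm⟩))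
  obtain ⟨ρ, x₁, x₂, x₃, g, τ, k⟩ := f.can hy
  obtain ⟨k1, k2⟩ := hy.can f k cm
  have m1 : x₁ * x₁ ∈ M ⊔ zpowers (c * c) := l4 _ (f.mQ (f.mul k.a1 k.a1) (by decide)) (by rw [p4, k1.2])
  obtain ⟨m', hm', em⟩ := f.surj (1, 0, 0)
  obtain ⟨m, hm, d, hd, rfl⟩ := (H9.mem_sup_of_le_normalizer nD).1 hm'
  rw [f.add _ (mem_sup_left hm) _ (mem_sup_right hd), (f.ker _ (mem_sup_right hd)).2 hd, add_zero] at em
  obtain ⟨b, hb, b1, b2, b3⟩ := k.fix f (fun x hx y hy => ab x (AQ hx) y (AQ hy)) (mem_sup_left hm) em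
  have mO : m ∈ Om Q ab := ⟨h.le hm, h.sq m hm⟩
  have bO : b ∈ Om Q ab := b3 ▸ mul_mem (mul_mem mO (cjN mO ρ)) (cjN (cjN mO ρ) ρ)
  have m2 : x₁ * b * x₁⁻¹ * b⁻¹ ∈ zpowers (c * c) := (f.ker _ (mul_mem (f.cj hb _) (inv_mem hb))).1 (by rw [f.cm k.a1 hb, b1]; decide)
  obtain ⟨-, f1, f2, f3⟩ := k.cen b2 (cen ρ _ m2) (inv_mul_cancel_right _ _).symm (cm x₁ b bO.1).2 (cen x₁ _ m2)
  have dc : ∀ y ∈ M ⊔ zpowers (c * c), co y = 0 ∨ co y = (1, 0, 0) → y ∈ zpowers (c * c) ∨ y * b⁻¹ ∈ zpowers (c * c) := fun y hy e =>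
    e.imp (f.ker y hy).1 fun e => f.eqB hy hb (e.trans b1.symm)
  have γ1 : co (x₁ * x₁) = 0 ∨ co (x₁ * x₁) = (1, 0, 0) := by
    have w := l5 _ k2
    have w2 := mul_mem (mul_mem w (f.cj w x₁)) m1
    have := f.mul k.aτ k.a2 _ w2
    rw [show τ * x₂ * (τ * x₂) * x₁⁻¹ * (x₁ * (τ * x₂ * (τ * x₂) * x₁⁻¹) * x₁⁻¹) * (x₁ * x₁) = (τ * x₂) ^ 4 by rw [p4]; group,
      show τ * x₂ * (τ * x₂) ^ 4 * (τ * x₂)⁻¹ = τ * x₂ * (τ * x₂) * x₁⁻¹ * (x₁ * (τ * x₂ * (τ * x₂) * x₁⁻¹) * x₁⁻¹) * (x₁ * x₁) by rw [p4]; group,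
      show (τ * x₂) ^ 4 = τ * x₂ * (τ * x₂) * x₁⁻¹ * (x₁ * (τ * x₂ * (τ * x₂) * x₁⁻¹) * x₁⁻¹) * (x₁ * x₁) by rw [p4]; group,
      f.add _ (mul_mem w (f.cj w x₁)) _ m1, f.add _ w _ (f.cj w x₁), k.a1 _ w] at this
    revert this; generalize co (x₁ * x₁) = p; generalize co _ = q; revert p q; decide
  have γρ : ρ * (x₁ * x₁) * ρ⁻¹ = x₁ * x₁ := by
    rcases dc _ m1 γ1 with e | e
    · exact cen ρ _ e
    · rw [← inv_mul_cancel_right (x₁ * x₁) b, ← conj_mul, cen ρ _ e, b2]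
  have γ2 : x₂ * x₂ = x₁ * x₁ := by rw [← k.e2, conj_mul, γρ]
  have γ3 : x₃ * x₃ = x₁ * x₁ := by rw [← k.e3, conj_mul, γ2, γρ]
  obtain ⟨_, e⟩ := hy.pQ ⟨_, AQ m1⟩
  have γ4 := (q8 k.pr rfl γ2 γ3 (congrArg Subtype.val e)).1
  have K : ∀ y ∈ Om Q ab, co y = 0 ∨ co y = (1, 0, 0) → y ∈ zpowers (c * c * (c * c)) ⊔ zpowers b := fun y hy e => by
    have g2 := fun y (hy : y ∈ Om Q ab) k => gen' (n := 2) (pc.to_le l1) k ((pow_two y).trans hy.2) (by rwa [pow_two, ← p4])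
    rcases dc y (l5 y hy) e with e | e
    · exact mem_sup_left (g2 y hy e)
    · simpa using mul_mem (mem_sup_left (g2 _ (mul_mem hy (inv_mem bO)) e)) (mem_sup_right (mem_zpowers b))
  have s0 : ∀ y ∈ M ⊔ zpowers (c * c), y * y ∈ zpowers (c * c * (c * c)) ⊔ zpowers b := fun y hy => by
    obtain ⟨m, hm, _, ⟨i, rfl⟩, rfl⟩ := (H9.mem_sup_of_le_normalizer nD).1 hy
    rw [← pow_two (m * _), (ab _ (h.le hm) _ (l3 ⟨i, rfl⟩)).mul_pow, pow_two, h.sq m hm, one_mul, pow_two]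
    exact mem_sup_left ⟨i, Commute.mul_zpow rfl i⟩
  have γN := K _ ⟨AQ m1, γ4⟩ γ1
  have s1 : ∀ w T, Ac (M ⊔ zpowers (c * c)) co w T → (∀ p, T p + p = 0 ∨ T p + p = (1, 0, 0)) → w * w ∈ zpowers (c * c * (c * c)) ⊔ zpowers b →
      ∀ y ∈ M ⊔ zpowers (c * c), y * w * (y * w) ∈ zpowers (c * c * (c * c)) ⊔ zpowers b := fun w T hw hT w2 y hy => by
    have := mul_mem (mul_mem (s0 y hy) (K _ (cm w y (AQ hy)) (by rw [f.cm hw hy]; exact hT _))) w2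
    rwa [mul_assoc y y, ab y (AQ hy) _ (cm w y (AQ hy)).1, show y * (w * y * w⁻¹ * y⁻¹ * y) * (w * w) = y * w * (y * w) by group] at this
  have a3 := f.mul k.a1 k.a2
  refine r5 hy.sr (sup_le (le_sup_of_le_right l2) (zpowers_le.2 hb)) ?_ nN nN s0 (s1 _ _ k.a1 (by decide) γN) (s1 _ _ k.a2 (by decide) (γ2 ▸ γN))
    (s1 _ _ a3 (by decide) ?_) (fun e => f.nQ k.a1 (v := (0, 1, 0)) (by decide) (AQ e)) (fun e => f.nQ k.a2 (v := (0, 1, 0)) (by decide) (AQ e))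
    fun e => f.nQ a3 (v := (0, 0, 1)) (by decide) (AQ e)
  · rw [cA, H5.card_sup_zpowers (H9.mem_normalizer_of_conj_mem fun x hx => (cen b x (l2 hx)).symm ▸ hx) (fun e => absurd
      (b1.symm.trans ((f.ker b hb).2 (l2 e))) (by decide)) (by rw [pow_two, bO.2]; exact one_mem _),
      card_zp (pc.to_le l1) fun e => c4 (by rw [p4, e, one_mul])]
  · rw [eq_inv_of_mul_eq_one_left k.pr, ← mul_inv_rev, γ3]; exact inv_mem γN

end Cfsg.Agent.H4.R3
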