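import Cfsg.Agent.H4.R3c

/-! Constrained groups of sectional rank four with quotient of order 168: extensions. -/

set_option autoImplicit false
set_option linter.unusedSectionVars false

namespace Cfsg.Agent.H4.R3

open Subgroup Cfsg.Agent.FT Cfsg.Agent.L0 Cfsg.Agent.H8 Cfsg.Agent.H4.R4

universe u

variable {G : Type u} [Group G] [Finite G] {A B D H K L M N Q R W Z : Subgroup G} {a b c g n p q r s t u x y z ρ σ τ γ x₁ x₂ x₃ : G}
  {co cn : G → V} {T : V → V}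

theorem Gd.lift [N.Normal] {M : Subgroup (G ⧸ N)} (h : Gd (Q.map (QuotientGroup.mk' N)) M (QuotientGroup.mk' N σ)) (hy : Hy Q σ) (hN : N ≤ Q) :
    N ≤ M.comap (QuotientGroup.mk' N) ∧ M.comap (QuotientGroup.mk' N) ≤ Q ∧ #|M.comap (QuotientGroup.mk' N)| = 8 * #|N| ∧
      (∀ a ∈ M.comap (QuotientGroup.mk' N), a * a ∈ N) ∧ ∀ q ∈ Q, ∃ a ∈ M.comap (QuotientGroup.mk' N), ∃ c ∈ Q ⊓ 𝐂[σ], q = a * c := by
  have := Fact.mk (by norm_num : Nat.Prime 7)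
  have := hy.nQ
  refine ⟨(QuotientGroup.ker_mk' N).ge.trans (ker_le_comap _ _), (comap_mono h.le).trans (comap_map_eq_self ((QuotientGroup.ker_mk' N).le.trans hN)).le,
    by rw [card_comap_of_surjective _ (QuotientGroup.mk'_surjective N), h.card, QuotientGroup.ker_mk', mul_comm],
    fun a ha => (QuotientGroup.eq_one_iff _).1 (h.sq _ ha), fun q hq => ?_⟩
  obtain ⟨m, hm, _, hc, e⟩ := h.dec _ (mem_map_of_mem _ hq)
  obtain ⟨c, hc', rfl⟩ := (mapC (by norm_num) hy.s7 hy.pQ nN _).le hc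
  exact ⟨q * c⁻¹, by rw [mem_comap, map_mul, map_inv, e, mul_inv_cancel_right]; exact hm, c, hc', by simp⟩

theorem cjC (hg : g ∈ 𝐍(A)) (hx : x ∈ 𝐂(A)) : g * x * g⁻¹ ∈ 𝐂(A) := fun s hs => by
  calc s * (g * x * g⁻¹) = g * (g⁻¹ * s * g * x) * g⁻¹ := by group
    _ = _ := by rw [hx _ (H9.conj_mem_of_mem_normalizer' hg hs)]; group

theorem ext1 [N.Normal] {M : Subgroup (G ⧸ N)} (h : Gd (Q.map (QuotientGroup.mk' N)) M (QuotientGroup.mk' N σ)) (hy : Hy Q σ) (hN : N ≤ Q)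
    (c2 : #|N| = 2) (hz : ∀ g, g ∈ 𝐂(N)) : ∃ M, Gd Q M σ := by
  obtain ⟨l1, l2, c16, sq, dec⟩ := h.lift hy hN
  set π := QuotientGroup.mk' N
  have nσ : σ ∈ 𝐍(M.comap π) := le_normalizer_comap π h.nσ
  have mc : ∀ a ∈ M.comap π, a ∈ 𝐂[σ] → a ∈ N := fun a ha k => (QuotientGroup.eq_one_iff a).1 (h.inf.le ⟨ha, mem_centralizer_singleton_iff.2
    (congrArg π (mem_centralizer_singleton_iff.1 k))⟩)
  have ab : M.comap π ≤ 𝐂(M.comap π) := fun y hy' x hx => by_contra fun hn => by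
    obtain ⟨⟨z, hz'⟩, z1⟩ := ne_bot_iff_exists_ne_one.1 (show N ≠ ⊥ by rintro rfl; simp at c2)
    replace z1 : z ≠ 1 := fun e => z1 (Subtype.ext e)
    have k := fun {y} => H9.eq_one_or_eq_of_card_le_two c2.le hz' z1 (y := y)
    have c : H9.C2 (M.comap π) z := ⟨l1 hz', z1, (k (mul_mem hz' hz')).resolve_right fun e => z1 (mul_eq_left.1 e), fun q _ => (hz q z hz').symm,
      fun x hx y hy => (k (H9.comm_mem_of_sq_mem sq hx hy)).imp (fun e => by rwa [mul_inv_eq_one, mul_inv_eq_iff_eq_mul] at e) fun e => by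
        rw [← hz _ z hz', ← e]; group⟩
    have c4 := quart c hx hy' hn
    have nc : ∀ x, N ≤ 𝐂[x] := fun x => le_centralizer_singleton_iff.2 (hz x)
    obtain ⟨w, hw, w1⟩ := SetLike.not_le_iff_exists.1 fun e : M.comap π ⊓ 𝐂[x] ⊓ 𝐂[y] ≤ N => by have := card_le_of_le e; omega
    have xx : ∀ x : G, zpowers x ≤ 𝐂[x] := fun x => zpowers_le.2 (mem_centralizer_singleton_iff.2 rfl)
    have b1 := sup_le l1 (zpowers_le.2 hw.1.1)
    have b2 := sup_le b1 (zpowers_le.2 hx)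
    have e1 := H5.card_sup_zpowers (nrm l1 sq hw.1.1) w1 (pow_two w ▸ sq w hw.1.1)
    have e2 := H5.card_sup_zpowers (nrm b1 (fun a ha => mem_sup_left (sq a ha)) hx) (fun e => hn (mem_centralizer_singleton_iff.1
      (sup_le (nc y) (zpowers_le.2 hw.2) e))) (pow_two x ▸ mem_sup_left (sq x hx))
    have e3 := H5.card_sup_zpowers (nrm b2 (fun a ha => mem_sup_left (mem_sup_left (sq a ha))) hy') (fun e => hn (mem_centralizer_singleton_iff.1
      (sup_le (sup_le (nc x) (zpowers_le.2 hw.1.2)) (xx x) e)).symm) (pow_two y ▸ mem_sup_left (mem_sup_left (sq y hy')))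
    have w2 : w ∈ 𝐂(M.comap π) := le_centralizer_singleton_iff.1 ((eq_of_le_of_card_ge (sup_le b2 (zpowers_le.2 hy')) (by omega)).ge.trans
      (sup_le (sup_le (sup_le (nc w) (xx w)) (zpowers_le.2 (mem_centralizer_singleton_comm.1 hw.1.2))) (zpowers_le.2 (mem_centralizer_singleton_comm.1 hw.2))))
    obtain ⟨v, hv, e⟩ := (irr (K := (M.comap π ⊓ 𝐂(M.comap π)).map π) (hy.quo hN).s7 h.card h.inf (map_le_iff_le_comap.2 inf_le_left)
      (le_normalizer_map π ⟨σ, H9.mem_normalizer_of_conj_mem fun a ha => mem_inf.2 ⟨H9.conj_mem_of_mem_normalizer nσ (mem_inf.1 ha).1,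
        cjC nσ (mem_inf.1 ha).2⟩, rfl⟩)
      fun e => w1 ((QuotientGroup.eq_one_iff w).1 (e.le ⟨w, ⟨hw.1.1, w2⟩, rfl⟩))).ge hx
    exact hn (mem_centralizer_singleton_iff.1 ((mul_mem_cancel_left (inv_mem (mem_centralizer_singleton_iff.2 (hv.2 y hy').symm))).1
      (nc y (QuotientGroup.eq.1 e))))
  refine (gd_of hy.pQ hy.s7 l2 ab nσ (fun q hq => H9.mem_normalizer_of_conj_mem fun a ha => ?_) (fun a ha => le_centralizer_singleton_iff.2 (hz σ) (sq a ha))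
    (by omega) (fun e => ?_) dec).imp fun _ k => k.2
  · rwa [mem_comap, map_mul, map_mul, h.cen ha _ (mem_map_of_mem π hq), map_inv, mul_inv_cancel_right]
  · have := card_le_of_le fun a ha => mc a ha (le_centralizer_singleton_iff.2 e ha)
    omega

set_option synthInstance.maxSize 4096 in
theorem tr0 : ∀ v w : V, v ≠ 0 → w ≠ 0 → v ≠ w →
    ∃ u, (∀ p q, lin v w u p = lin v w u q → p = q) ∧ lin v w u (1, 0, 0) = v ∧ lin v w u (0, 1, 0) = w := by decide +kernel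

theorem Fm.tr (f : Fm Q A B co) {v w : V} (h1 : v ≠ 0) (h2 : w ≠ 0) (h3 : v ≠ w) : ∃ g T, Ac A co g T ∧ T (1, 0, 0) = v ∧ T (0, 1, 0) = w := by
  obtain ⟨u, k, e⟩ := tr0 v w h1 h2 h3
  exact (f.onto v w u k).imp fun g k => ⟨_, k, e⟩

theorem Fm.tr1 (f : Fm Q A B co) (hb : b ∈ A) (h : co a ≠ 0) (e : co b = (1, 0, 0)) : ∃ g, co (g * b * g⁻¹) = co a := by
  obtain ⟨w, h2, h3⟩ : ∃ w, w ≠ 0 ∧ co a ≠ w := by revert h; generalize co a = v; revert v; decide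
  obtain ⟨g, T, k, e1, -⟩ := f.tr h h2 h3
  exact ⟨g, by rw [k b hb, e, e1]⟩

/-- the normal subgroup `N` -/
structure Nn (Q N : Subgroup G) (σ : G) : Prop extends Hy Q σ where
  nN : N.Normal
  le : N ≤ Q
  cen : N ≤ 𝐂(Q)
  sq : ∀ n ∈ N, n * n = 1
  card : #|N| = 8
  inf : N ⊓ 𝐂[σ] = ⊥
  nc : ∀ z ∈ Q, z ≠ 1 → z * z = 1 → ∃ g, g * z * g⁻¹ ≠ z

theorem Nn.fix (h : Nn Q N σ) (h3 : ρ ^ 3 = 1) (hρ : ρ ∉ Q) (hx : x ∈ N) (hy : y ∈ N) (e1 : ρ * x * ρ⁻¹ = x) (e2 : ρ * y * ρ⁻¹ = y)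
    (x1 : x ≠ 1) : y = 1 ∨ y = x := by
  have := h.nN
  have k := R4.cmod h3 (R4.nN (N := N))
  have k1 := card_dvd_of_le (inf_le_left : N ⊓ 𝐂[ρ] ≤ N)
  have k2 : #|(N ⊓ 𝐂[ρ] : Subgroup G)| ≠ 8 := fun e => by
    have := ((h.smp _ inferInstance (le_centralizer_iff.1 h.cen)).resolve_left fun e' => hρ (e'.le (le_centralizer_singleton_iff.1
      ((eq_of_le_of_card_ge inf_le_left (by rw [e, h.card])).ge.trans inf_le_right)))).ge (mem_top σ)
    exact x1 (h.inf.le ⟨hx, le_centralizer_singleton_iff.2 this hx⟩)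
  rw [h.card] at k k1
  refine H9.eq_one_or_eq_of_card_le_two (H := N ⊓ 𝐂[ρ]) ?_ ⟨hx, mem_centralizer_singleton_iff.2 (mul_inv_eq_iff_eq_mul.1 e1).symm⟩ x1
    ⟨hy, mem_centralizer_singleton_iff.2 (mul_inv_eq_iff_eq_mul.1 e2).symm⟩
  have k3 := Nat.le_of_dvd (by norm_num) k1
  generalize #|(N ⊓ 𝐂[ρ] : Subgroup G)| = m at *
  interval_cases m <;> simp_all [Nat.ModEq]

theorem Nn.ab (h : Nn Q N σ) (f : Fm Q A Z co) (k : Can A co ρ x₁ x₂ x₃ g τ) (hA : A ≤ Q) (hZ : Z ≤ 𝐂(A)) (sZ : ∀ z ∈ Z, z * z = 1)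
    (sA : ∀ a ∈ A, a * a ∈ N) (hA' : Z ≤ A) (hc : 16 < #|A|) : (∀ a ∈ A, a * a = 1 → a ∈ Z) ∧ ∀ x ∈ A, ∀ y ∈ A, Commute x y := by
  have sqe : ∀ x ∈ A, ∀ y ∈ A, co x = co y → x * x = y * y := fun x hx y hy e => by
    have m := f.eqB hx hy e
    rw [← inv_mul_cancel_right x y]
    generalize x * y⁻¹ = w at m
    rw [mul_assoc, ← mul_assoc y, hZ m y hy, ← mul_assoc, ← mul_assoc, sZ w m, one_mul]
  obtain ⟨b, hb, eb⟩ := f.surj (1, 0, 0)
  have b1 : b * b ≠ 1 := fun e => hc.not_ge (by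
    simpa using h.sr ⊥ A bot_le fun a ha => by_cases (fun k => sZ a ((f.ker a ha).1 k)) fun k => (f.tr1 hb k eb).elim fun g k => by
      rw [← sqe _ (f.cj hb g) _ ha k, conj_mul, e, mul_one, mul_inv_cancel]; exact one_mem _)
  have cme : ∀ x ∈ A, ∀ x' ∈ A, ∀ y ∈ A, ∀ y' ∈ A, co x = co x' → co y = co y' → x * y * x⁻¹ * y⁻¹ = x' * y' * x'⁻¹ * y'⁻¹ :=
    fun x hx x' hx' y hy y' hy' e e' => by
      have m := f.eqB hx hx' e
      have m' := f.eqB hy hy' e'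
      rw [← inv_mul_cancel_right x x', ← inv_mul_cancel_right y y']
      generalize x * x'⁻¹ = w at m
      generalize y * y'⁻¹ = v at m'
      have c1 : ∀ a ∈ A, Commute a w := hZ m
      have c2 : ∀ a ∈ A, Commute a v := hZ m'
      calc _ = w * (x' * v) * y' * (x'⁻¹ * w⁻¹) * (y'⁻¹ * v⁻¹) := by group
        _ = w * (v * (x' * y' * w⁻¹) * x'⁻¹ * v⁻¹) * y'⁻¹ := by
          rw [c2 x' hx', (c1 _ (inv_mem hx')).inv_right.eq, (c2 _ (inv_mem hy')).inv_right.eq]; group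
        _ = _ := by
          rw [(c1 _ (mul_mem hx' hy')).inv_right.eq, ← mul_assoc v, ← (c2 _ (inv_mem (hA' m))).eq, mul_assoc _ v, mul_assoc _ _ x'⁻¹, mul_assoc v,
            ← (c2 _ (mul_mem (mul_mem hx' hy') (inv_mem hx'))).eq]; group
  refine ⟨fun a ha e => by_contra fun k => (f.tr1 hb (fun e => k ((f.ker a ha).1 e)) eb).elim fun g k => b1 (by
    rw [← conj_eq_one_iff (a := g), ← conj_mul, sqe _ (f.cj hb g) _ ha k, e]), ?_⟩
  obtain ⟨y, hy, ey⟩ := f.surj (0, 1, 0)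
  obtain ⟨w, hw, ew⟩ := f.surj (0, 0, 1)
  have cj : ∀ g x y : G, g * (x * y * x⁻¹ * y⁻¹) * g⁻¹ = g * x * g⁻¹ * (g * y * g⁻¹) * (g * x * g⁻¹)⁻¹ * (g * y * g⁻¹)⁻¹ := fun g x y => by group
  have mκ := H9.comm_mem_of_sq_mem sA hy hw
  have κ : y * w * y⁻¹ * w⁻¹ = 1 := (h.fix k.r3 (f.nQ k.aρ (v := (0, 1, 0)) (by decide)) (sA b hb) mκ
    (by rw [← conj_mul, sqe _ (f.cj hb ρ) _ hb (by rw [k.aρ b hb, eb]; rfl)]) (by
      rw [cj, cme _ (f.cj hy ρ) _ hw _ (f.cj hw ρ) _ (mul_mem hy hw) (by rw [k.aρ y hy, ey, ew]; rfl) (by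
        rw [k.aρ w hw, f.add _ hy _ hw, ey, ew]; rfl), ← inv_eq_of_mul_eq_one_right (h.sq _ mκ)]; group) b1).resolve_right fun e => by
    obtain ⟨a, ha⟩ := f.onto (1, 1, 0) (0, 1, 0) (0, 0, 1) (by decide)
    have e1 : a * b * a⁻¹ * (a * b * a⁻¹) = b * b := by
      rw [conj_mul, ← e, cj, cme _ (f.cj hy a) _ hy _ (f.cj hw a) _ hw (by rw [ha y hy, ey]; decide) (by rw [ha w hw, ew]; decide)]
    obtain ⟨c, hc⟩ := h.nc _ (hA (mul_mem hb hb)) b1 (h.sq _ (sA b hb))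
    refine hc ?_
    rw [← conj_mul]
    by_cases e2 : co (c * b * c⁻¹) = (1, 0, 0)
    · exact sqe _ (f.cj hb c) _ hb (e2.trans eb.symm)
    have e3 : co (c * b * c⁻¹) ≠ 0 := fun e => b1 (by rw [← conj_eq_one_iff (a := c), ← conj_mul, sZ _ ((f.ker _ (f.cj hb c)).1 e)])
    obtain ⟨d, T, hd, d1, d2⟩ := f.tr (v := (1, 0, 0)) (w := co (c * b * c⁻¹) + (1, 0, 0)) (by decide)
      (by revert e2; generalize co _ = p; revert p; decide) (by revert e3; generalize co _ = p; revert p; decide)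
    have m := mul_mem hb hy
    rw [← sqe _ (f.cj m d) _ (f.cj hb c) (by
      rw [← conj_mul, f.add _ (f.cj hb d) _ (f.cj hy d), hd b hb, hd y hy, eb, ey, d1, d2]; generalize co _ = p; revert p; decide),
      conj_mul, sqe _ m _ (f.cj hb a) (by rw [f.add _ hb _ hy, ha b hb, eb, ey]; decide), e1, ← conj_mul,
      sqe _ (f.cj hb d) _ hb (by rw [hd b hb, eb, d1])]
  intro x hx x' hx'
  by_cases e1 : co x = 0
  · exact (hZ ((f.ker x hx).1 e1) x' hx').symm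
  by_cases e2 : co x' = 0
  · exact hZ ((f.ker x' hx').1 e2) x hx
  rw [Commute, SemiconjBy, ← mul_inv_eq_iff_eq_mul, ← mul_inv_eq_one]
  by_cases e3 : co x' = co x
  · rw [cme _ hx _ hx _ hx' _ hx rfl e3]; group
  obtain ⟨d, T, hd, d1, d2⟩ := f.tr e2 e1 e3
  have := f.mul hd k.ag
  rw [cme _ hx _ (f.cj hy (d * g)) _ hx' _ (f.cj hw (d * g)) (by rw [this y hy, ey, ← d2]; rfl) (by rw [this w hw, ew, ← d1]; rfl), ← cj, κ]
  group

end Cfsg.Agent.H4.R3
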