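import Cfsg.Agent.H4.R3d

/-! Constrained groups of sectional rank four with quotient of order 168: the homocyclic case. -/

set_option autoImplicit false
set_option linter.unusedSectionVars false
set_option synthInstance.maxSize 4096

namespace Cfsg.Agent.H4.R3

open Subgroup Cfsg.Agent.FT Cfsg.Agent.L0 Cfsg.Agent.H8 Cfsg.Agent.H4.R4

universe u

variable {G : Type u} [Group G] [Finite G] {A B D H K L M N Q R W Z : Subgroup G} {a b c g n p q r s t u w x y z ρ σ τ γ x₁ x₂ x₃ : G}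
  {co cn : G → V} {T : V → V}

/-- the homocyclic configuration -/
structure C1 (Q R N : Subgroup G) (σ : G) (co cn : G → V) (ρ x₁ x₂ x₃ g τ b : G) : Prop extends Nn Q N σ, Can R co ρ x₁ x₂ x₃ g τ where
  f : Fm Q R N co
  f' : Fm Q N ⊥ cn
  RQ : R ≤ Q
  NR : N ≤ R
  sqN : ∀ r ∈ R, r * r ∈ N
  sqc : ∀ r ∈ R, cn (r * r) = co r
  tr : ∀ {g T}, Ac R co g T → Ac N cn g T
  ab : ∀ x ∈ R, ∀ y ∈ R, Commute x y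
  cmQ : ∀ g, ∀ q ∈ Q, g * q * g⁻¹ * q⁻¹ ∈ R
  dec : ∀ q ∈ Q, ∃ r ∈ R, ∃ c ∈ Q ⊓ 𝐂[σ], q = r * c
  abQ : ∀ x ∈ Q, ∀ y ∈ Q, x * y * x⁻¹ * y⁻¹ ∈ N
  four : ∀ q ∈ Q, q ^ 4 ∈ N
  bR : b ∈ R
  bc : co b = (1, 0, 0)
  bρ : ρ * b * ρ⁻¹ = b

theorem Nn.c1 (h : Nn Q N σ) [R.Normal] (NR : N ≤ R) (RQ : R ≤ Q) (cR : #|R| = 8 * #|N|) (sq : ∀ r ∈ R, r * r ∈ N)
    (dec : ∀ q ∈ Q, ∃ r ∈ R, ∃ c ∈ Q ⊓ 𝐂[σ], q = r * c) (abQ : ∀ x ∈ Q, ∀ y ∈ Q, x * y * x⁻¹ * y⁻¹ ∈ N) (four : ∀ q ∈ Q, q ^ 4 ∈ N)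
    (ha : a ∈ R) (h2 : σ * a * σ⁻¹ * a⁻¹ ∉ N) : ∃ co cn ρ x₁ x₂ x₃ g τ b, C1 Q R N σ co cn ρ x₁ x₂ x₃ g τ b := by
  have := h.nN
  have := h.nQ
  obtain ⟨co, f⟩ := h.fm NR cR sq (fun q hq a ha => abQ q hq a (RQ ha)) ha h2
  obtain ⟨ρ, x₁, x₂, x₃, g, τ, k⟩ := f.can h.toHy
  obtain ⟨k1, k2⟩ := h.ab f k RQ (h.cen.trans (centralizer_anti RQ)) h.sq sq NR (by rw [cR, h.card]; norm_num)
  have k3 : ∀ x ∈ R, ∀ y ∈ R, x * x = y * y ↔ co x = co y := fun x hx y hy => by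
    have m := mul_mem hx (inv_mem hy)
    have e : x * y⁻¹ * (x * y⁻¹) = x * x * (y * y)⁻¹ := by rw [← pow_two, (k2 x hx _ (inv_mem hy)).mul_pow, pow_two, pow_two, mul_inv_rev]
    refine ⟨fun e' => ?_, fun e' => by rw [← mul_inv_eq_one, ← e, h.sq _ (f.eqB hx hy e')]⟩
    have := (f.ker _ m).2 (k1 _ m (by rw [e, e', mul_inv_cancel]))
    rw [f.add _ hx _ (inv_mem hy), f.cinv hy] at this
    revert this; generalize co x = p; generalize co y = q; revert p q; decide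
  choose s hs es using f.surj
  have k4 : ∀ n, n ∈ N → ∃ r ∈ R, r * r = n := fun n hn => by
    obtain ⟨v, e⟩ := ((Nat.bijective_iff_injective_and_card (fun v => (⟨_, sq _ (hs v)⟩ : N))).2 ⟨fun v w e => by
      rw [← es v, ← es w, ← k3 _ (hs v) _ (hs w)]; exact congrArg Subtype.val e, by rw [h.card]; simp⟩).2 ⟨n, hn⟩
    exact ⟨_, hs v, congrArg Subtype.val e⟩
  choose! rt hr er using k4
  have k5 : ∀ r ∈ R, co (rt (r * r)) = co r := fun r hr' => (k3 _ (hr _ (sq r hr')) _ hr').1 (er _ (sq r hr'))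
  have k6 : ∀ g T, Ac R co g T ↔ Ac N (fun n => co (rt n)) g T := fun g T => ⟨fun k n hn => by
    rw [← k _ (hr n hn), ← k5 _ (f.cj (hr n hn) g), conj_mul, er n hn], fun k r hr' => by
    rw [← k5 _ (f.cj hr' g), conj_mul, ← k5 r hr']; exact k _ (sq r hr')⟩
  obtain ⟨b, hb, b1, b2, -⟩ := k.fix f k2 (hs _) (es _)
  refine ⟨co, fun n => co (rt n), ρ, x₁, x₂, x₃, g, τ, b, h, k, f, ⟨‹_›, fun x hx y hy => ?_, fun x hx => ?_,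
    fun v => ⟨_, sq _ (hs v), by rw [k5 _ (hs v), es]⟩, fun g => (k6 g id).symm.trans (f.inQ g), fun g => by simpa only [← k6] using f.ex g,
    fun v w u e => by simpa only [← k6] using f.onto v w u e⟩, RQ, NR, sq, k5, (k6 _ _).1, k2,
    h.cm_all (fun q hq d hd => NR (abQ q hq d hd)) fun d hd => ?_, dec, abQ, four, hb, b1, b2⟩
  · rw [← f.add _ (hr x hx) _ (hr y hy), ← k5 _ (mul_mem (hr x hx) (hr y hy)), ← pow_two, (k2 _ (hr x hx) _ (hr y hy)).mul_pow, pow_two, pow_two,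
      er x hx, er y hy]
  · rw [← f.one, ← k3 _ (hr x hx) _ (one_mem _), er x hx, mul_one, mem_bot]
  · obtain ⟨r, hr, c, hc, rfl⟩ := dec d hd
    rw [show σ * (r * c) * σ⁻¹ * (r * c)⁻¹ = σ * r * (c * σ⁻¹) * c⁻¹ * r⁻¹ by group,
      (show Commute c σ from mem_centralizer_singleton_iff.1 hc.2).inv_right.eq, ← mul_assoc, mul_inv_cancel_right]
    exact mul_mem (cjN hr σ) (inv_mem hr)

namespace C1

variable (h : C1 Q R N σ co cn ρ x₁ x₂ x₃ g τ b)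
include h

theorem ext (hx : x ∈ N) (hy : y ∈ N) (e : cn x = cn y) : x = y := mul_inv_eq_one.1 (h.f'.eqB hx hy e)

theorem n0 (hx : x ∈ N) (e : cn x = 0 ∨ cn x = (1, 0, 0)) : x ∈ zpowers (b * b) := by
  rcases e with e | e
  · rw [(h.f'.ker x hx).1 e]; exact one_mem _
  · rw [h.ext hx (h.sqN b h.bR) (by rw [e, h.sqc b h.bR, h.bc])]; exact mem_zpowers _

theorem iv (hx : x ∈ N) : x⁻¹ = x := inv_eq_of_mul_eq_one_right (h.sq x hx)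

theorem cjq (hq : q ∈ Q) (hr : r ∈ R) (a : G) : a * (q * r * q⁻¹ * r⁻¹) * a⁻¹ = q * (a * r * a⁻¹) * q⁻¹ * (a * r * a⁻¹)⁻¹ := by
  calc _ = a * q * a⁻¹ * q⁻¹ * (q * (a * r * a⁻¹) * q⁻¹) * (a * q * a⁻¹ * q⁻¹)⁻¹ * (a * r * a⁻¹)⁻¹ := by group
    _ = _ := by rw [h.ab _ (h.cmQ a q hq) _ (h.f.cj (h.f.cj hr a) q), mul_inv_cancel_right]

theorem cenR (hq : q ∈ Q) (e : q * b * q⁻¹ = b) : q ∈ 𝐂(R) := fun r hr => by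
  by_cases k : co r = 0
  · exact (h.cen ((h.f.ker r hr).1 k) q hq).symm
  obtain ⟨a, k⟩ := h.f.tr1 h.bR k h.bc
  have := h.cjq hq h.bR a
  rw [e, mul_inv_cancel, mul_one, mul_inv_cancel, eq_comm, mul_inv_eq_one, mul_inv_eq_iff_eq_mul] at this
  rw [← inv_mul_cancel_right r (a * b * a⁻¹), mul_assoc, ← this, ← mul_assoc, ← h.cen (h.f.eqB hr (h.f.cj h.bR a) k.symm) q hq, mul_assoc]

theorem x1R : x₁ * x₁ ∈ 𝐂(R) := by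
  have m : ∀ {x T r}, Ac R co x T → r ∈ R → T (co r) + co r = 0 → x * r * x⁻¹ * r⁻¹ ∈ N := fun k hr e =>
    (h.f.ker _ (mul_mem (h.f.cj hr _) (inv_mem hr))).1 (by rw [h.f.cm k hr, e])
  have m1 := m h.a1 h.bR (by rw [h.bc]; rfl)
  have m2 := m h.aτ h.bR (by rw [h.bc]; rfl)
  have m3 := h.f.mQ (h.f.mul (h.f.inv h.a1 (T' := t1) (by decide)) (h.f.mul (h.f.mul h.aτ h.a1) (h.f.inv h.aτ (T' := tt) (by decide)))) (by decide)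
  have m4 := h.abQ _ m3 _ (h.RQ h.bR)
  have e4 := h.tr h.aρ _ m4
  rw [h.cjq m3 h.bR, h.bρ] at e4
  have e5 := h.tr h.aτ _ m1
  have c := h.cen m2 _ m3
  have cj := fun {x} (hx : x ∈ N) => h.f'.cj hx x₁
  rw [show τ * (x₁ * b * x₁⁻¹ * b⁻¹) * τ⁻¹ = x₁ * (x₁⁻¹ * (τ * x₁ * τ⁻¹) * (τ * b * τ⁻¹ * b⁻¹)) * b * (x₁⁻¹ * (τ * x₁ * τ⁻¹))⁻¹ * x₁⁻¹ * b⁻¹ *
    (τ * b * τ⁻¹ * b⁻¹)⁻¹ by group, c] at e5
  generalize x₁⁻¹ * (τ * x₁ * τ⁻¹) = q at e4 e5 m4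
  generalize τ * b * τ⁻¹ * b⁻¹ = n at e5 m2
  rw [show x₁ * (n * q) * b * q⁻¹ * x₁⁻¹ * b⁻¹ * n⁻¹ = x₁ * n * x₁⁻¹ * (x₁ * (q * b * q⁻¹ * b⁻¹) * x₁⁻¹) * (x₁ * b * x₁⁻¹ * b⁻¹) * n⁻¹ by group,
    h.f'.add _ (mul_mem (mul_mem (cj m2) (cj m4)) m1) _ (inv_mem m2), h.f'.add _ (mul_mem (cj m2) (cj m4)) _ m1, h.f'.add _ (cj m2) _ (cj m4),
    h.tr h.a1 _ m2, h.tr h.a1 _ m4, h.f'.cinv m2] at e5
  have e6 := h.ext (cj m1) m1 (by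
    rw [h.tr h.a1 _ m1]; revert e4 e5; generalize cn n = p; generalize cn (q * _ * _ * _) = p'; generalize cn _ = p''; revert p p' p''; decide)
  refine h.cenR (h.f.mQ (h.f.mul h.a1 h.a1) (by decide)) ?_
  calc _ = x₁ * (x₁ * b * x₁⁻¹ * b⁻¹) * x₁⁻¹ * (x₁ * b * x₁⁻¹ * b⁻¹) * b := by group
    _ = _ := by rw [e6, h.sq _ m1, one_mul]

theorem inv1 (hr : r ∈ R) : x₁ * (x₁ * r * x₁⁻¹ * r⁻¹) * x₁⁻¹ * (x₁ * r * x₁⁻¹ * r⁻¹) = 1 := by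
  calc _ = x₁ * x₁ * r * (x₁ * x₁)⁻¹ * ((x₁ * r * x₁⁻¹)⁻¹ * (x₁ * r * x₁⁻¹ * r⁻¹)) := by group
    _ = 1 := by rw [← h.x1R r hr]; group

theorem dcb (hr : r ∈ R) (e : co r = (1, 0, 0)) : ∃ n ∈ N, r = n * b := ⟨_, h.f.eqB hr h.bR (e.trans h.bc.symm), by simp⟩

theorem xb : x₁ * b * x₁⁻¹ = b ∧ x₂ * b * x₂⁻¹ = b ∧ x₃ * b * x₃⁻¹ = b := by
  obtain ⟨r, hr, er⟩ := h.f.surj (0, 1, 0)
  have k := h.inv1 hr
  obtain ⟨n, hn, e⟩ := h.dcb (mul_mem (h.f.cj hr x₁) (inv_mem hr)) (by rw [h.f.cm h.a1 hr, er]; rfl)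
  have m1 : x₁ * b * x₁⁻¹ * b⁻¹ ∈ N := (h.f.ker _ (mul_mem (h.f.cj h.bR _) (inv_mem h.bR))).1 (by rw [h.f.cm h.a1 h.bR, h.bc]; rfl)
  have mn := h.f'.cj hn x₁
  rw [e, show x₁ * (n * b) * x₁⁻¹ * (n * b) = x₁ * n * x₁⁻¹ * (x₁ * b * x₁⁻¹ * b⁻¹) * (b * n) * b by group, h.ab _ h.bR _ (h.NR hn),
    ← mul_assoc, mul_assoc _ b b] at k
  have k2 := congrArg cn k
  rw [h.f'.add _ (mul_mem (mul_mem mn m1) hn) _ (h.sqN b h.bR), h.f'.add _ (mul_mem mn m1) _ hn, h.f'.add _ mn _ m1, h.tr h.a1 n hn,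
    h.sqc b h.bR, h.bc, h.f'.one] at k2
  have k3 : ∀ p q : V, t1 p + q + p + (1, 0, 0) = 0 → rr q = q ∧ t1 q = q := by decide
  exact (h.toCan.cen h.bρ (h.ext (h.f'.cj m1 ρ) m1 (by rw [h.tr h.aρ _ m1, (k3 _ _ k2).1])) (inv_mul_cancel_right _ _).symm (h.sq _ m1)
    (h.ext (h.f'.cj m1 _) m1 (by rw [h.tr h.a1 _ m1, (k3 _ _ k2).2]))).2

theorem beta : (∀ r ∈ R, co r = (0, 0, 1) → x₁ * r * x₁⁻¹ ≠ r) ∧
    ∃ r ∈ R, co r = (0, 1, 1) ∧ ∃ n ∈ N, (cn n).2 = (1, 0) ∧ x₁ * r * x₁⁻¹ = n * b * r := by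
  obtain ⟨a, ha, ea⟩ := h.f.surj (0, 0, 1)
  have hb := h.f.cj ha ρ
  have hc := h.f.cj hb ρ
  have eb := h.aρ a ha
  have ec := h.aρ _ hb
  have k := R3.r3 h.r3 a
  generalize e2 : ρ * a * ρ⁻¹ = a' at hb hc eb ec k
  generalize e3 : ρ * a' * ρ⁻¹ = a'' at hc ec k
  have h1 := mul_mem (inv_mem hb) hc
  have h2 := mul_mem (inv_mem hc) ha
  have h3 := mul_mem (inv_mem ha) hb
  have c1 : co (a'⁻¹ * a'') = (0, 0, 1) := by rw [h.f.add _ (inv_mem hb) _ hc, h.f.cinv hb, ec, eb, ea]; rfl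
  have c2 : co (a''⁻¹ * a) = (0, 1, 1) := by rw [h.f.add _ (inv_mem hc) _ ha, h.f.cinv hc, ec, eb, ea]; rfl
  have c3 : co (a⁻¹ * a') = (0, 1, 0) := by rw [h.f.add _ (inv_mem ha) _ hb, h.f.cinv ha, eb, ea]; rfl
  have p1 : ρ * (a⁻¹ * a') * ρ⁻¹ = a'⁻¹ * a'' := by rw [← e3, ← e2]; group
  have p2 : ρ * (a''⁻¹ * a) * ρ⁻¹ = a⁻¹ * a' := by rw [← e2, ← k]; group
  have p3 : a'⁻¹ * a'' * (a''⁻¹ * a) * (a⁻¹ * a') = 1 := by group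
  generalize a'⁻¹ * a'' = r₁ at *
  generalize a''⁻¹ * a = r₂ at *
  generalize a⁻¹ * a' = r₃ at *
  have m1 : x₁ * r₁ * x₁⁻¹ * r₁⁻¹ ∈ N := (h.f.ker _ (mul_mem (h.f.cj h1 _) (inv_mem h1))).1 (by rw [h.f.cm h.a1 h1, c1]; rfl)
  obtain ⟨n₂, m2, f2⟩ := h.dcb (mul_mem (h.f.cj h2 x₁) (inv_mem h2)) (by rw [h.f.cm h.a1 h2, c2]; rfl)
  obtain ⟨n₃, m3, f3⟩ := h.dcb (mul_mem (h.f.cj h3 x₁) (inv_mem h3)) (by rw [h.f.cm h.a1 h3, c3]; rfl)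
  have bb := h.sqN b h.bR
  have i : ∀ n ∈ N, x₁ * (n * b) * x₁⁻¹ * (n * b) = 1 → t1 (cn n) + cn n + (1, 0, 0) = 0 := fun n hn e => by
    rw [← conj_mul, h.xb.1, mul_assoc, ← mul_assoc b, h.ab _ h.bR _ (h.NR hn), mul_assoc n, ← mul_assoc] at e
    have := congrArg cn e
    rwa [h.f'.add _ (mul_mem (h.f'.cj hn _) hn) _ bb, h.f'.add _ (h.f'.cj hn _) _ hn, h.tr h.a1 n hn, h.sqc b h.bR, h.bc, h.f'.one] at this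
  have i2 := i _ m2 (f2 ▸ h.inv1 h2)
  have i3 := i _ m3 (f3 ▸ h.inv1 h3)
  rw [mul_inv_eq_iff_eq_mul] at f2 f3
  obtain ⟨n₁, f1⟩ : ∃ n, x₁ * r₁ * x₁⁻¹ * r₁⁻¹ = n := ⟨_, rfl⟩
  rw [f1] at m1
  rw [mul_inv_eq_iff_eq_mul] at f1
  have cb : ∀ x ∈ R, Commute b x := h.ab b h.bR
  have col : cn (n₁ * n₂ * n₃ * (b * b)) = 0 := by
    have : x₁ * r₁ * x₁⁻¹ * (x₁ * r₂ * x₁⁻¹) * (x₁ * r₃ * x₁⁻¹) = 1 := by rw [conj_mul, conj_mul, p3]; group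
    rw [← h.f'.one, ← this, f1, f2, f3, ← mul_one (_ * (b * b)), ← p3]
    simp only [mul_assoc, (h.ab _ h1 _ (h.NR m2)).left_comm, (h.ab _ h1 _ (h.NR m3)).left_comm, (h.ab _ h2 _ (h.NR m3)).left_comm,
      (cb _ (h.NR m3)).left_comm, (cb _ h1).symm.left_comm, (cb _ h2).symm.left_comm]
  rw [h.f'.add _ (mul_mem (mul_mem m1 m2) m3) _ bb, h.f'.add _ (mul_mem m1 m2) _ m3, h.f'.add _ m1 _ m2, h.sqc b h.bR, h.bc] at col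
  have g2 : x₂ * r₁ * x₂⁻¹ = ρ * n₃ * ρ⁻¹ * b * r₁ := by
    calc _ = ρ * (x₁ * r₃ * x₁⁻¹) * ρ⁻¹ := by rw [← h.e2, ← p1]; group
      _ = _ := by rw [f3, ← conj_mul, ← conj_mul, h.bρ, p1]
  have g3 : x₃ * r₁ * x₃⁻¹ = ρ * (ρ * n₂ * ρ⁻¹) * ρ⁻¹ * b * r₁ := by
    calc _ = ρ * (ρ * (x₁ * r₂ * x₁⁻¹) * ρ⁻¹) * ρ⁻¹ := by rw [← h.e3, ← h.e2, ← p1, ← p2]; group
      _ = _ := by rw [f2, ← conj_mul (a := n₂ * b), ← conj_mul (a := n₂), h.bρ, p2, ← conj_mul (a := _ * b), ← conj_mul (c := b), h.bρ, p1]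
  have m4 := h.f'.cj (h.f'.cj (h.f'.cj (h.f'.cj m2 ρ) ρ) x₂) x₁
  have m5 := h.f'.cj (h.f'.cj m3 ρ) x₁
  have row : cn (x₁ * (x₂ * (ρ * (ρ * n₂ * ρ⁻¹) * ρ⁻¹) * x₂⁻¹) * x₁⁻¹ * (x₁ * (ρ * n₃ * ρ⁻¹) * x₁⁻¹) * n₁ * (b * b)) = 0 := by
    have : x₁ * (x₂ * (x₃ * r₁ * x₃⁻¹) * x₂⁻¹) * x₁⁻¹ = r₁ := by
      calc _ = x₁ * x₂ * x₃ * r₁ * (x₁ * x₂ * x₃)⁻¹ := by group
        _ = _ := by rw [h.pr]; group
    rw [g3, ← conj_mul (c := r₁), ← conj_mul (c := b), h.xb.2.1, g2, ← conj_mul (c := _ * r₁), ← conj_mul (c := b), ← conj_mul (c := r₁),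
      ← conj_mul (c := b), h.xb.1, f1] at this
    rw [← h.f'.one, ← mul_inv_cancel r₁, ← congrArg (· * r₁⁻¹) this]
    generalize x₁ * (ρ * n₃ * ρ⁻¹) * x₁⁻¹ = y at m5
    simp only [mul_assoc, (cb _ (h.NR m5)).left_comm, (cb _ (h.NR m1)).left_comm, mul_inv_cancel, mul_one]
  rw [h.f'.add _ (mul_mem (mul_mem m4 m5) m1) _ bb, h.f'.add _ (mul_mem m4 m5) _ m1, h.f'.add _ m4 _ m5, h.sqc b h.bR, h.bc,
    h.tr h.a1 _ (h.f'.cj (h.f'.cj (h.f'.cj m2 ρ) ρ) x₂), h.tr h.a2 _ (h.f'.cj (h.f'.cj m2 ρ) ρ), h.tr h.aρ _ (h.f'.cj m2 ρ), h.tr h.aρ _ m2,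
    h.tr h.a1 _ (h.f'.cj m3 ρ), h.tr h.aρ _ m3] at row
  have K : ∀ p p2 p3 : V, t1 p2 + p2 + (1, 0, 0) = 0 → t1 p3 + p3 + (1, 0, 0) = 0 → p + p2 + p3 + (1, 0, 0) = 0 →
    t1 (t2 (rr (rr p2))) + t1 (rr p3) + p + (1, 0, 0) = 0 → (∀ q, t1 q + p ≠ q) ∧ p2.2 = (1, 0) := by decide +kernel
  obtain ⟨K1, K2⟩ := K _ _ _ i2 i3 col row
  refine ⟨fun r hr er e => ?_, r₂, h2, c2, n₂, m2, K2, f2⟩
  have m := h.f.eqB hr h1 (er.trans c1.symm)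
  refine K1 (cn (r * r₁⁻¹)) ?_
  rw [← h.tr h.a1 _ m, ← h.f'.add _ (h.f'.cj m _) _ m1, eq_mul_inv_of_mul_eq f1.symm, ← mul_assoc, conj_mul, inv_mul_cancel_right, e]

end C1

end Cfsg.Agent.H4.R3
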