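import Cfsg.Agent.H4.R3e

/-! Constrained groups of sectional rank four with quotient of order 168: two non-central chief factors are impossible. -/

set_option autoImplicit false
set_option linter.unusedSectionVars false
set_option synthInstance.maxSize 4096

namespace Cfsg.Agent.H4.R3

open Subgroup Cfsg.Agent.FT Cfsg.Agent.L0 Cfsg.Agent.H8 Cfsg.Agent.H4.R4

universe u

variable {G : Type u} [Group G] [Finite G] {A B D H K L M N Q R W Z : Subgroup G} {a b c g n p q r s t u w x y z ρ σ τ γ x₁ x₂ x₃ : G}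
  {co cn : G → V} {T : V → V}

theorem Nn.abC (h : Nn Q N σ) (abQ : ∀ x ∈ Q, ∀ y ∈ Q, x * y * x⁻¹ * y⁻¹ ∈ N) (hx : x ∈ Q ⊓ 𝐂[σ]) (hy : y ∈ Q ⊓ 𝐂[σ]) : x * y = y * x := by
  have := h.inf.le (mem_inf.2 ⟨abQ x hx.1 y hy.1, (mul_mem (mul_mem (mul_mem hx hy) (inv_mem hx)) (inv_mem hy)).2⟩)
  rwa [mem_bot, mul_inv_eq_one, mul_inv_eq_iff_eq_mul] at this

namespace C1

variable (h : C1 Q R N σ co cn ρ x₁ x₂ x₃ g τ b)
include h

theorem f1 (hz : z ∈ Q ⊓ 𝐂[σ]) (zR : z ∈ 𝐂(R)) (z1 : z ≠ 1) (z2 : z * z = 1) :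
    (∀ a, a * z * a⁻¹ * z⁻¹ ∈ N) ∧ ∀ x ∉ Q, x * x ∈ Q → ∀ n ∈ N, x * (n * z) ≠ n * z * x := by
  have := h.nQ
  have k : z ∈ 𝐂(Q) := fun q hq => by
    obtain ⟨r, hr, c, hc, rfl⟩ := h.dec q hq
    rw [mul_assoc, h.abC h.abQ hc hz, ← mul_assoc, zR r hr, mul_assoc]
  have k1 : ∀ a, a * z * a⁻¹ * z⁻¹ ∈ N := fun a => by
    have m := h.cmQ a z hz.1
    rw [← h.f.ker _ m, ← h.sqc _ m, ← pow_two, (show Commute _ z from k _ (cjN hz.1 a)).inv_right.mul_pow, pow_two, pow_two, conj_mul, z2,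
      ← mul_inv_rev, z2, mul_one, mul_inv_cancel, inv_one, mul_one, h.f'.one]
  obtain ⟨a, ha⟩ := h.nc z hz.1 z1 z2
  exact ⟨k1, fun x hx x2 n hn => h.toHy.f1 h.card h.inf h.cen k hz.2 k1 ha hx x2 hn⟩

theorem exx : ∃ r ∈ R, r * x₁ * (r * x₁) ∈ zpowers (b * b) := by
  have := h.f.nA
  obtain ⟨hβ, r₂, h2, c2, n₂, m2, d2, f2⟩ := h.beta
  have w := (h.toHy.can h.f h.toCan h.cmQ).2
  have as := h.f.mul h.aτ h.a2
  have sb : τ * x₂ * b * (τ * x₂)⁻¹ ≠ b := fun e => hβ _ (h.f.cj h.bR g⁻¹) (by rw [h.f.inv h.ag (T' := sw) (by decide) b h.bR, h.bc]; rfl) (by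
    rw [show τ * x₂ * b * (τ * x₂)⁻¹ = τ * (x₂ * b * x₂⁻¹) * τ⁻¹ by group, h.xb.2.1, ← h.eτ] at e
    nth_rw 2 [← e]; group)
  generalize τ * x₂ = s at w as sb
  obtain ⟨ω, e0⟩ : ∃ ω, s * s * x₁⁻¹ = ω := ⟨_, rfl⟩
  rw [e0] at w
  rw [mul_inv_eq_iff_eq_mul] at e0
  have a0 := h.f.mul as as
  have cr : ∀ r ∈ R, s * s * r * (s * s)⁻¹ = x₁ * r * x₁⁻¹ := fun r hr => by
    rw [e0, show ω * x₁ * r * (ω * x₁)⁻¹ = ω * (x₁ * r * x₁⁻¹) * ω⁻¹ by group, h.ab _ w _ (h.f.cj hr _), mul_inv_cancel_right]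
  have uQ := h.f.mQ (h.f.mul a0 a0) (by decide)
  have uC : s * s * (s * s) ∈ 𝐂(R) := by
    have l : R ≤ 𝐂(R) := fun x hx y hy => h.ab y hy x hx
    rw [e0, show ω * x₁ * (ω * x₁) = ω * (x₁ * ω * x₁⁻¹) * (x₁ * x₁) by group]
    exact mul_mem (l (mul_mem w (h.f.cj w _))) h.x1R
  have us : s * (s * s * (s * s)) * s⁻¹ = s * s * (s * s) := by group
  have u0 : Commute (s * s) (s * s * (s * s)) := (Commute.refl _).mul_right (Commute.refl _)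
  have nQ := h.f.nQ a0 (v := (0, 1, 0)) (by decide)
  have K : ∀ p : V, tt (t2 p) + p = 0 → p = 0 ∨ p = (1, 0, 0) := by decide
  have uR : s * s * (s * s) ∈ R := by
    obtain ⟨r, hr, c, hc, e⟩ := h.dec _ uQ
    have cR : c ∈ 𝐂(R) := (mul_mem_cancel_left (show r ∈ 𝐂(R) from fun y hy => h.ab y hy r hr)).1 (e ▸ uC)
    have c2 : c * c = 1 := by_contra fun k => (h.f1 (mul_mem hc hc) (mul_mem cR cR) k (h.inf.le (mem_inf.2 ⟨by
      simpa only [pow_succ, pow_zero, one_mul, mul_assoc] using h.four c hc.1, (mul_mem (mul_mem hc hc) (mul_mem hc hc)).2⟩))).2 _ nQ uQ _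
        (h.sqN r hr) (by
          rw [show r * r * (c * c) = r * c * (r * c) by rw [mul_assoc r c, ← mul_assoc c, ← cR r hr]; group, ← e]; exact u0.mul_right u0)
    by_contra k
    obtain ⟨k1, k2⟩ := h.f1 hc cR (by rintro rfl; exact k (e ▸ mul_mem hr (one_mem _))) c2
    have k3 : s * r * s⁻¹ * r⁻¹ ∈ N := by
      rw [e, ← conj_mul] at us
      rw [eq_mul_inv_of_mul_eq us]
      have := h.nN.conj_mem _ (inv_mem (k1 s)) r
      convert this using 1; group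
    rw [← h.f.ker _ (mul_mem (h.f.cj hr s) (inv_mem hr)), h.f.cm as hr] at k3
    rcases K _ k3 with k3 | k3
    · exact k2 _ nQ uQ _ (inv_mem ((h.f.ker r hr).1 k3) |> inv_mem_iff.1) (e ▸ u0)
    · obtain ⟨n, hn, rfl⟩ := h.dcb hr k3
      refine k2 _ nQ uQ n hn ?_
      rw [show n * c = b⁻¹ * (n * b * c) by rw [← h.ab _ h.bR _ (h.NR hn)]; group, ← e]
      exact Commute.mul_right (Commute.inv_right (mul_inv_eq_iff_eq_mul.1 ((cr b h.bR).trans h.xb.1))) u0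
  have k3 := h.f.cm as uR
  rw [us, mul_inv_cancel, h.f.one, eq_comm] at k3
  have sN := h.tr as
  rcases K _ k3 with k3 | k3
  · have m := (h.f.ker _ uR).1 k3
    have := h.f'.cm sN m
    rw [us, mul_inv_cancel, h.f'.one, eq_comm] at this
    exact ⟨ω, w, e0 ▸ h.n0 m (K _ this)⟩
  obtain ⟨n, hn, e⟩ := h.dcb uR k3
  have k4 : t1 (cn n) = cn n := by
    have := cr _ uR
    rw [u0.eq, mul_inv_cancel_right, e, ← conj_mul, h.xb.1, mul_left_inj] at this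
    rw [← h.tr h.a1 n hn, ← this]
  have k5 : tt (t2 (cn n)) ≠ cn n := fun k => sb (by
    rw [e, ← conj_mul, h.ext (h.f'.cj hn s) hn ((sN n hn).trans k), mul_right_inj] at us; exact us)
  refine ⟨r₂ * ω, mul_mem h2 w, ?_⟩
  have bb := h.sqN b h.bR
  have r2 := h.sqN _ h2
  rw [mul_assoc r₂, ← e0, show r₂ * (s * s) * (r₂ * (s * s)) = r₂ * (s * s * r₂ * (s * s)⁻¹) * (s * s * (s * s)) by
    simp only [mul_assoc, inv_mul_cancel_left, mul_inv_rev], cr _ h2, f2, e,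
    show r₂ * (n₂ * b * r₂) * (n * b) = r₂ * r₂ * n₂ * n * (b * b) by
      simp only [mul_assoc, (h.ab _ h.bR _ h2).left_comm, (h.ab _ (h.NR m2) _ h2).left_comm, (h.ab _ h.bR _ (h.NR hn)).left_comm]]
  refine h.n0 (mul_mem (mul_mem (mul_mem r2 m2) hn) bb) ?_
  rw [h.f'.add _ (mul_mem (mul_mem r2 m2) hn) _ bb, h.f'.add _ (mul_mem r2 m2) _ hn, h.f'.add _ r2 _ m2, h.sqc _ h2, h.sqc _ h.bR, c2, h.bc]
  revert d2 k4 k5; generalize cn n = p; generalize cn n₂ = q; revert p q; decide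

theorem false : False := by
  have := h.nN
  obtain ⟨r, hr, hx⟩ := h.exx
  have bb := h.sqN b h.bR
  have mB : ∀ y, y ∈ N ⊔ zpowers b ↔ y ∈ R ∧ (co y = 0 ∨ co y = (1, 0, 0)) := fun y => ⟨fun k => by
    rcases two R4.nN bb k with k | ⟨n, hn, rfl⟩
    · exact ⟨h.NR k, Or.inl ((h.f.ker y (h.NR k)).2 k)⟩
    · exact ⟨mul_mem (h.NR hn) h.bR, Or.inr (by rw [h.f.add _ (h.NR hn) _ h.bR, (h.f.ker n (h.NR hn)).2 hn, h.bc, zero_add])⟩, fun k => by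
    rcases k.2 with e | e
    · exact mem_sup_left ((h.f.ker y k.1).1 e)
    · obtain ⟨n, hn, rfl⟩ := h.dcb k.1 e
      exact mul_mem (mem_sup_left hn) (mem_sup_right (mem_zpowers b))⟩
  have s0 : ∀ y ∈ N ⊔ zpowers b, y * y ∈ zpowers (b * b) := fun y hy =>
    h.n0 (h.sqN y ((mB y).1 hy).1) (by rw [h.sqc y ((mB y).1 hy).1]; exact ((mB y).1 hy).2)
  have s1 : ∀ w T, Ac R co w T → (∀ p, T p + p = 0 ∨ T p + p = (1, 0, 0)) → w * b * w⁻¹ = b → w * w ∈ zpowers (b * b) →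
      ∀ y ∈ N ⊔ zpowers b, y * w * (y * w) ∈ zpowers (b * b) := fun w T hw hT wb w2 y hy => by
    have k : ∀ n ∈ N, w * n * w⁻¹ * n⁻¹ ∈ zpowers (b * b) := fun n hn =>
      h.n0 (mul_mem (cjN hn w) (inv_mem hn)) (by rw [h.f'.cm (h.tr hw) hn]; exact hT _)
    have k2 : w * y * w⁻¹ * y⁻¹ ∈ zpowers (b * b) := by
      rcases two R4.nN bb hy with k1 | ⟨n, hn, rfl⟩
      · exact k y k1
      · rw [← conj_mul, wb]; convert k n hn using 1; group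
    have yR := ((mB y).1 hy).1
    have := mul_mem (mul_mem (s0 y hy) k2) w2
    rwa [mul_assoc y y, h.ab y yR _ (mul_mem (h.f.cj yR w) (inv_mem yR)),
      show y * (w * y * w⁻¹ * y⁻¹ * y) * (w * w) = y * w * (y * w) by group] at this
  have nB : ∀ w T, Ac R co w T → (∀ p, p = 0 ∨ p = (1, 0, 0) → T p = 0 ∨ T p = (1, 0, 0)) → w ∈ 𝐍((N ⊔ zpowers b : Subgroup G)) :=
    fun w T hw hT => H9.mem_normalizer_of_conj_mem fun y hy => (mB _).2 ⟨h.f.cj ((mB y).1 hy).1 w, by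
      rw [hw y ((mB y).1 hy).1]; exact hT _ ((mB y).1 hy).2⟩
  have ac : ∀ {r x T}, r ∈ R → Ac R co x T → Ac R co (r * x) T := fun hr k => (h.f.mul ((h.f.inQ _).2 (h.RQ hr)) k).cast fun _ => rfl
  have fb : ∀ {r x}, r ∈ R → x * b * x⁻¹ = b → r * x * b * (r * x)⁻¹ = b := fun {r x} hr k => by
    rw [show r * x * b * (r * x)⁻¹ = r * (x * b * x⁻¹) * r⁻¹ by group, k, h.ab _ hr _ h.bR, mul_inv_cancel_right]
  have cρ : ∀ {y}, y ∈ zpowers (b * b) → ρ * y * ρ⁻¹ ∈ zpowers (b * b) := fun ⟨i, e⟩ => by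
    rw [← e, ← conj_zpow, ← conj_mul, h.bρ]; exact ⟨i, rfl⟩
  have hr' := h.f.cj hr ρ
  have hr'' := h.f.cj hr' ρ
  have hx' := cρ hx
  rw [← conj_mul, ← conj_mul, h.e2] at hx'
  have hx'' := cρ hx'
  rw [← conj_mul, ← conj_mul (c := x₂), h.e3] at hx''
  have er' := h.aρ r hr
  have er'' := h.aρ _ hr'
  generalize ρ * (ρ * r * ρ⁻¹) * ρ⁻¹ = r'' at hx'' hr'' er''
  generalize ρ * r * ρ⁻¹ = r' at hx' hr' er' er''
  have a1 := ac hr h.a1
  have a2 := ac hr' h.a2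
  have a3 := ac hr'' h.a3
  have a12 := h.f.mul h.a1 h.a2
  have my : r * x₁ * (r' * x₂) * (r'' * x₃) ∈ N ⊔ zpowers b := by
    have m1 := h.f.cj hr' x₁
    have m2 := h.f.cj hr'' (x₁ * x₂)
    rw [show r * x₁ * (r' * x₂) * (r'' * x₃) = r * (x₁ * r' * x₁⁻¹) * (x₁ * x₂ * r'' * (x₁ * x₂)⁻¹) * (x₁ * x₂ * x₃) by group, h.pr, mul_one]
    refine (mB _).2 ⟨mul_mem (mul_mem hr m1) m2, ?_⟩
    rw [h.f.add _ (mul_mem hr m1) _ m2, h.f.add _ hr _ m1, a12 _ hr'', h.a1 _ hr', er'', er']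
    generalize co r = p; revert p; decide
  have BQ : N ⊔ zpowers b ≤ Q := sup_le h.le (zpowers_le.2 (h.RQ h.bR))
  have b1 : b ∉ N := fun e => absurd (h.bc.symm.trans ((h.f.ker b h.bR).2 e)) (by decide)
  refine r5 h.sr (le_sup_of_le_left (zpowers_le.2 bb)) ?_ (nB _ _ a1 (by decide)) (nB _ _ a2 (by decide)) s0
    (s1 _ _ a1 (by decide) (fb hr h.xb.1) hx) (s1 _ _ a2 (by decide) (fb hr' h.xb.2.1) hx') (fun y hy => ?_)
    (fun e => h.f.nQ a1 (v := (0, 1, 0)) (by decide) (BQ e)) (fun e => h.f.nQ a2 (v := (0, 1, 0)) (by decide) (BQ e))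
    fun e => h.f.nQ (h.f.mul a1 a2) (v := (0, 0, 1)) (by decide) (BQ e)
  · rw [H5.card_sup_zpowers R4.nN b1 (pow_two b ▸ bb), h.card, Nat.card_zpowers, orderOf_eq_two_of (h.sq _ bb) fun e => absurd
      (h.bc.symm.trans ((h.sqc b h.bR).symm.trans (e ▸ h.f'.one))) (by decide)]
  · have := s1 _ _ (h.f.inv a3 (T' := t3) (by decide)) (by decide) (by
      nth_rw 1 [← fb hr'' h.xb.2.2]; group) (by rw [← mul_inv_rev]; exact inv_mem hx'') _ (mul_mem hy my)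
    convert this using 1; group

end C1

end Cfsg.Agent.H4.R3
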