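import Cfsg.Agent.H4.R3f

/-! Constrained groups of sectional rank four with quotient of order 168: the main theorem. -/

set_option autoImplicit false
set_option linter.unusedSectionVars false
set_option synthInstance.maxSize 4096

namespace Cfsg.Agent.H4.R3

open Subgroup Cfsg.Agent.FT Cfsg.Agent.L0 Cfsg.Agent.H8 Cfsg.Agent.H4.R4

universe u

variable {G : Type u} [Group G] [Finite G] {A B D H K L M N Q R W Z : Subgroup G} {a b c g n p q r s t u w x y z ρ σ τ γ x₁ x₂ x₃ : G}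
  {co cn : G → V} {T : V → V}

theorem cen3 (e2 : ρ * x₁ * ρ⁻¹ = x₂) (e3 : ρ * x₂ * ρ⁻¹ = x₃) (pr : x₁ * x₂ * x₃ = 1) (hb : ρ * b * ρ⁻¹ = b) (hn : ∀ g, g * n * g⁻¹ = n)
    (h : x₁ * b * x₁⁻¹ = n * b) (n2 : n * n = 1) : n = 1 := by
  have k : ∀ {x}, x * b * x⁻¹ = n * b → ρ * x * ρ⁻¹ * b * (ρ * x * ρ⁻¹)⁻¹ = n * b := fun {x} e => by
    calc _ = ρ * (x * b * x⁻¹) * ρ⁻¹ := by nth_rw 1 [← hb]; group
      _ = _ := by rw [e, ← conj_mul, hn, hb]
  have h2 := e2 ▸ k h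
  have h3 := e3 ▸ k h2
  have : b = x₁ * (x₂ * (x₃ * b * x₃⁻¹) * x₂⁻¹) * x₁⁻¹ := by
    calc b = x₁ * x₂ * x₃ * b * (x₁ * x₂ * x₃)⁻¹ := by rw [pr]; group
      _ = _ := by group
  rwa [h3, ← conj_mul (a := n), hn, h2, ← mul_assoc n, n2, one_mul, h, eq_comm, mul_eq_right] at this

theorem dec24 : ∀ w u : V, (∀ p q, lin (1, 0, 0) w u p = lin (1, 0, 0) w u q → p = q) →
    ∃ T ∈ [id, rr, ri, tt, fun p => tt (rr p), fun p => tt (ri p)], ∃ T' ∈ [id, t1, t2, t3], ∀ p, T' (T (lin (1, 0, 0) w u p)) = p := by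
  decide +kernel

theorem Nn.case2 (h : Nn Q N σ) [N.Normal] {M : Subgroup (G ⧸ N)} (gd : Gd (Q.map (QuotientGroup.mk' N)) M (QuotientGroup.mk' N σ)) :
    M.Normal := by_contra fun hM => by
  have := Fact.mk (by norm_num : Nat.Prime 7)
  have := h.nQ
  obtain ⟨l1, l2, -, sq, dec⟩ := gd.lift h.toHy h.le
  have hq := h.toHy.quo h.le
  have hs := QuotientGroup.mk'_surjective N
  have e1 : ∀ {x}, QuotientGroup.mk' N x = 1 ↔ x ∈ N := QuotientGroup.eq_one_iff _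
  have hk := QuotientGroup.ker_mk' N
  generalize QuotientGroup.mk' N = π at *
  have := hq.nQ
  have ab := fun x hx y hy => gd.ab (x := x) (q := y) hq hx hy
  have abQ : ∀ x ∈ Q, ∀ y ∈ Q, x * y * x⁻¹ * y⁻¹ ∈ N := fun x hx y hy => e1.1 (by
    simp [(ab _ (mem_map_of_mem π hx) _ (mem_map_of_mem π hy)).eq])
  have MW : M ≤ Om _ ab := fun m hm => ⟨gd.le hm, gd.sq m hm⟩
  have c16 : #|Om _ ab| = 16 := by
    have k1 := hq.sr ⊥ (Om _ ab) bot_le fun x hx => hx.2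
    have k2 := card_lt_of_lt (lt_of_le_of_ne MW fun e => hM (e ▸ inferInstance))
    have k3 := card_dvd_of_le MW
    rw [card_bot, gd.card] at *
    omega
  obtain ⟨_, zW, z1, zc⟩ := (hq.l16 (W := Om _ ab) gd.card gd.inf gd.nσ (fun w hw => hw.2) MW c16).resolve_left hM
  obtain ⟨z, hz, rfl⟩ := (mapC (by norm_num) h.s7 h.pQ R4.nN π).le ⟨zW.1, mem_centralizer_singleton_iff.2 (mul_inv_eq_iff_eq_mul.1 (zc _)).symm⟩
  have i0 : ∀ x ∈ N, x ∈ 𝐂[σ] → x = 1 := fun x k k' => h.inf.le (mem_inf.2 ⟨k, k'⟩)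
  have z2 : z * z = 1 := i0 _ (e1.1 ((map_mul π z z).trans zW.2)) (mul_mem hz hz).2
  have oz := orderOf_eq_two_of zW.2 z1
  have mz : ∀ y ∈ zpowers (π z), y = 1 ∨ y = π z := fun y => H9.eq_one_or_eq_of_card_le_two (by rw [Nat.card_zpowers, oz]) (mem_zpowers _) z1
  have : (zpowers (π z)).Normal := ⟨fun y hy g => by rcases mz y hy with rfl | rfl <;> simp [zc]⟩
  have mZ : ∀ y ∈ (zpowers (π z)).comap π, y ∈ N ∨ ∃ n ∈ N, y = n * z := fun y hy => (mz _ hy).imp e1.1 fun e =>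
    ⟨y * z⁻¹, e1.1 (by simp [e]), by simp⟩
  have iM : ∀ y ∈ M, y ∈ 𝐂[π σ] → y = 1 := fun y k k' => gd.inf.le (mem_inf.2 ⟨k, k'⟩)
  have zσ : zpowers (π z) ≤ 𝐂[π σ] := zpowers_le.2 (mem_centralizer_singleton_iff.2 (mul_inv_eq_iff_eq_mul.1 (zc _)).symm)
  have nz : π z ∈ 𝐍(M) := centralizer_le_normalizer _ fun y _ => mul_inv_eq_iff_eq_mul.1 (zc y)
  have eW : M ⊔ zpowers (π z) = Om _ ab := eq_of_le_of_card_ge (sup_le MW (zpowers_le.2 zW)) (by
    rw [H5.card_sup_zpowers nz (fun k => z1 (iM _ k (zσ (mem_zpowers _)))) (by rw [pow_two, zW.2]; exact one_mem _), c16, gd.card])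
  have AQ : (Om _ ab).comap π ≤ Q := fun a ha => (comap_map_eq_self (hk.le.trans h.le)).le ha.1
  have sA : ∀ a ∈ (Om _ ab).comap π, a * a ∈ N := fun a ha => e1.1 ((map_mul π a a).trans ha.2)
  have NZ : N ≤ (zpowers (π z)).comap π := hk.ge.trans (ker_le_comap _ _)
  have ZA : (zpowers (π z)).comap π ≤ (Om _ ab).comap π := comap_mono (zpowers_le.2 zW)
  have cA : #|(Om _ ab).comap π| = 128 := by rw [card_comap_of_surjective _ hs, hk, c16, h.card]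
  obtain ⟨⟨a, ha⟩, a1⟩ := ne_bot_iff_exists_ne_one.1 (show M ≠ ⊥ by rintro rfl; simpa using gd.card)
  obtain ⟨a, rfl⟩ := hs a
  obtain ⟨co, f⟩ := h.fm ZA (by rw [cA, card_comap_of_surjective _ hs, hk, Nat.card_zpowers, oz, h.card]) (fun a ha => NZ (sA a ha))
    (fun q hq a ha => NZ (abQ q hq a (AQ ha))) (show a ∈ _ from MW ha) fun k => by
      have := iM _ (mul_mem (H9.conj_mem_of_mem_normalizer gd.nσ ha) (inv_mem ha)) (by simpa using zσ k)
      rw [mul_inv_eq_one, mul_inv_eq_iff_eq_mul] at this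
      exact a1 (Subtype.ext (iM _ ha (mem_centralizer_singleton_iff.2 this.symm)))
  obtain ⟨ρ, x₁, x₂, x₃, g, τ, k⟩ := f.can h.toHy
  obtain ⟨b, hb, eb⟩ := f.surj (1, 0, 0)
  have mH : ∀ g, g ∈ 𝐂[π b].comap π ↔ π g * π b * (π g)⁻¹ = π b := fun g => by
    rw [mem_comap, mem_centralizer_singleton_iff, mul_inv_eq_iff_eq_mul]
  have di : ∀ g, co (g * b * g⁻¹) = (1, 0, 0) → π g * π b * (π g)⁻¹ = π b ∨ π g * π b * (π g)⁻¹ = π z * π b := fun g e =>
    (mz _ (f.eqB (f.cj hb g) hb (e.trans eb.symm))).imp (fun e => by simpa [mul_inv_eq_one] using e) fun e => by rw [← e]; simp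
  have hρ : π ρ * π b * (π ρ)⁻¹ = π b := (di ρ (by rw [k.aρ b hb, eb]; rfl)).resolve_right fun e => z1 (by
    have := r3 (show π ρ ^ 3 = 1 by rw [← map_pow, k.r3, map_one]) (π b)
    rwa [e, ← conj_mul (a := π z), zc, e, ← mul_assoc (π z), zW.2, one_mul, e, mul_eq_right] at this)
  have hx : π x₁ * π b * (π x₁)⁻¹ = π b := (di x₁ (by rw [k.a1 b hb, eb]; rfl)).resolve_right fun e => z1 (cen3 (x₂ := π x₂) (x₃ := π x₃)
    (by rw [← k.e2]; simp) (by rw [← k.e3]; simp) (by rw [← map_mul, ← map_mul, k.pr, map_one]) hρ zc e zW.2)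
  obtain ⟨d, d1, d2⟩ : ∃ d, co (d * b * d⁻¹) = (1, 0, 0) ∧ π d * π b * (π d)⁻¹ ≠ π b := by
    by_contra! e
    obtain ⟨d, d1⟩ := f.onto (0, 0, 1) (0, 1, 0) (1, 0, 0) (by decide)
    refine hM (l16 (W := Om _ ab) hq.s7 gd.card gd.inf gd.nσ (fun w hw => hw.2) MW c16 hb (g := π d) (fun e => ?_) ?_)
    · have := (f.ker _ (mul_mem (f.cj hb d) (inv_mem hb))).2 (NZ (e1.1 (by simp [e])))
      rw [f.cm d1 hb, eb] at this
      exact absurd this (by decide)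
    choose s hs' using hs
    have cs : ∀ x ∈ (Om _ ab).comap π, co (s (π x)) = co x := fun x hx => by
      have m : s (π x) * x⁻¹ ∈ N := e1.1 (by simp [hs'])
      rw [← inv_mul_cancel_right (s (π x)) x, f.add _ (ZA (NZ m)) _ hx, (f.ker _ (ZA (NZ m))).2 (NZ m), zero_add]
    have cl : ∀ y ∈ H6.cl (π b), ∃ g, y = π (g * b * g⁻¹) := fun y hy => (isConj_iff.1 hy).elim fun c e => ⟨s c, by simp [hs', e]⟩
    refine (Set.ncard_le_ncard_of_injOn (t := {v : V | v ≠ 0}) (fun y => co (s y)) (fun y hy e => ?_) fun y hy y' hy' e' => ?_).trans (by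
      rw [Set.ncard_eq_toFinset_card']; decide)
    · obtain ⟨g, rfl⟩ := cl y hy
      rw [cs _ (f.cj hb g), f.ker _ (f.cj hb g)] at e
      have := cjN e g⁻¹
      rw [show g⁻¹ * (g * b * g⁻¹) * g⁻¹⁻¹ = b by group, ← f.ker b hb, eb] at this
      exact absurd this (by decide)
    · obtain ⟨g, rfl⟩ := cl y hy
      obtain ⟨g', rfl⟩ := cl y' hy'
      simp only [cs _ (f.cj hb _)] at e'
      obtain ⟨v, w, u, -, k'⟩ := f.ex g'⁻¹
      have := e (g'⁻¹ * g) (by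
        rw [show g'⁻¹ * g * b * (g'⁻¹ * g)⁻¹ = g'⁻¹ * (g * b * g⁻¹) * g'⁻¹⁻¹ by group, k' _ (f.cj hb g), e', ← k' _ (f.cj hb g'), ← eb]
        congr 1; group)
      simp only [map_mul, map_inv] at this ⊢
      nth_rw 2 [← this]; group
  have cN : ∀ n ∈ N, ∀ q ∈ Q, Commute q n := fun n hn => h.cen hn
  have sqN : ∀ x ∈ Q, ∀ y ∈ Q, π x = π y → x * x = y * y := fun x hx y hy e => by
    have m : x * y⁻¹ ∈ N := e1.1 (by simp [e])
    rw [← inv_mul_cancel_right x y]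
    generalize x * y⁻¹ = w at m
    rw [mul_assoc, ← mul_assoc y, cN w m y hy, ← mul_assoc, ← mul_assoc, h.sq w m, one_mul]
  have zA := ZA (show z ∈ _ from mem_zpowers (π z))
  have bz : Commute b z := by
    have m := mul_mem zA hb
    have e2 := sqN _ (AQ (f.cj hb d)) _ (AQ m) (by simpa using (di d d1).resolve_left d2)
    have fx := fun {x y} => h.fix (x := x) (y := y) k.r3 (f.nQ k.aρ (v := (0, 1, 0)) (by decide))
    have e3 : ρ * (b * b) * ρ⁻¹ = b * b := by rw [← conj_mul, sqN _ (AQ (f.cj hb ρ)) _ (AQ hb) (by simpa using hρ)]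
    have e4 : ρ * (z * b * (z * b)) * ρ⁻¹ = z * b * (z * b) := by
      rw [← conj_mul, sqN _ (AQ (f.cj m ρ)) _ (AQ m) (by rw [← conj_mul]; simp only [map_mul, map_inv, zc, hρ])]
    have e5 : z * b * (z * b) = b * b := by
      rw [conj_mul] at e2
      by_cases e : b * b = 1
      · rw [← e2, e, mul_one, mul_inv_cancel]
      · exact (fx (sA b hb) (sA _ m) e3 e4 e).resolve_left fun e' => e (conj_eq_one_iff.1 (e2.trans e'))
    calc b * z = z * (z * b * (z * b)) * b⁻¹ := by rw [← mul_assoc z, ← mul_assoc z, z2]; group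
      _ = _ := by rw [e5]; group
  have zN : ∀ g, g * z * g⁻¹ * z⁻¹ ∈ N := fun g => e1.1 (by simp [zc])
  have zz : ∀ y ∈ (zpowers (π z)).comap π, Commute y z := fun y hy => by
    rcases mZ y hy with k | ⟨n, hn, rfl⟩
    exacts [(cN y k z hz.1).symm, Commute.mul_left (cN n hn z hz.1).symm (Commute.refl z)]
  have zC : z ∈ 𝐂((Om _ ab).comap π) := fun r hr => by
    by_cases e : co r = 0
    · exact zz r ((f.ker r hr).1 e)
    obtain ⟨g, e⟩ := f.tr1 hb e eb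
    rw [← inv_mul_cancel_right r (g * b * g⁻¹)]
    refine Commute.mul_left (zz _ (f.eqB hr (f.cj hb g) e.symm)) ?_
    rw [show z = (g * z * g⁻¹ * z⁻¹)⁻¹ * (g * z * g⁻¹) by group]
    exact Commute.mul_right (cN _ (inv_mem (zN g)) _ (AQ (f.cj hb g))) (bz.map (MulAut.conj g))
  have sZ : ∀ y ∈ (zpowers (π z)).comap π, y * y = 1 := fun y hy => by
    rcases mZ y hy with k | ⟨n, hn, rfl⟩
    · exact h.sq y k
    · rw [mul_assoc, ← mul_assoc z, cN n hn z hz.1, mul_assoc, z2, mul_one, h.sq n hn]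
  obtain ⟨-, abA⟩ := h.ab f k AQ (fun y hy => by
    rcases mZ y hy with k | ⟨n, hn, rfl⟩
    exacts [centralizer_anti AQ (h.cen k), mul_mem (centralizer_anti AQ (h.cen hn)) zC]) sZ sA ZA (by omega)
  have zQ : z ∈ 𝐂(Q) := fun q hq => by
    obtain ⟨r, hr, c, hc, rfl⟩ := dec q hq
    rw [mul_assoc, h.abC abQ hc hz, ← mul_assoc, zC r (MW hr), mul_assoc]
  have τQ := f.mQ (f.mul k.aτ k.aτ) (by decide)
  obtain ⟨c, hc⟩ := h.nc z hz.1 (by rintro rfl; exact z1 (map_one π)) z2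
  have F := fun n => h.toHy.f1 (n := n) h.card h.inf h.cen zQ hz.2 zN hc (f.nQ k.aτ (v := (0, 1, 0)) (by decide)) τQ
  have τA : τ * τ ∈ (Om _ ab).comap π := ⟨mem_map_of_mem π τQ, by_contra fun e => by
    obtain ⟨_, hc, -, e'⟩ := gd.sqC (mem_map_of_mem π τQ)
    have m : π (τ * τ) * π (τ * τ) ∈ Om _ ab := ⟨mul_mem (mem_map_of_mem π τQ) (mem_map_of_mem π τQ), by
      simpa only [pow_succ, pow_zero, one_mul, mul_assoc] using gd.four hq (mem_map_of_mem π τQ)⟩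
    have m' := e' ▸ (mul_mem hc hc).2
    rcases two nz (by rw [zW.2]; exact one_mem _) (eW.ge m) with k | ⟨w, hw, k⟩
    · exact e (iM _ k m')
    · rw [iM w hw ((mul_mem_cancel_right (zσ (mem_zpowers _))).1 (k ▸ m')), one_mul] at k
      exact F (τ * τ * (τ * τ) * z⁻¹) (e1.1 (by rw [map_mul, map_mul, k]; simp)) (by group)⟩
  have hτ : π τ * π b * (π τ)⁻¹ = π b := (di τ (by rw [k.aτ b hb, eb]; rfl)).resolve_right fun e => by
    have m : τ * b * τ⁻¹ * b⁻¹ * z⁻¹ ∈ N := e1.1 (by simp [e])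
    refine F _ m ?_
    rw [inv_mul_cancel_right, ← mul_inv_eq_iff_eq_mul]
    refine Eq.trans ?_ (inv_eq_of_mul_eq_one_right (sZ (τ * b * τ⁻¹ * b⁻¹) (by simpa using mul_mem (NZ m) (show z ∈ _ from mem_zpowers (π z)))))
    calc _ = τ * τ * b * (τ * τ)⁻¹ * (τ * b⁻¹ * τ⁻¹) := by group
      _ = _ := by rw [abA _ τA _ hb]; group
  obtain ⟨v, w, u, i, ad⟩ := f.ex d
  obtain rfl : v = (1, 0, 0) := by rw [← d1, ad b hb, eb]; simp [lin]
  obtain ⟨T, hT, T', hT', e⟩ := dec24 w u fun p q e => i e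
  have QH : Q ≤ 𝐂[π b].comap π := fun q hq => mem_centralizer_singleton_iff.2 (ab _ (mem_map_of_mem π hq) _ hb.1)
  have o1 : Ac _ co 1 id := (f.inQ 1).2 (one_mem _)
  have ρ' := f.inv k.aρ (T' := ri) (by decide)
  rw [← mH] at hρ hx hτ
  have hx2 := k.e2 ▸ mul_mem (mul_mem hρ hx) (inv_mem hρ)
  obtain ⟨y, hy, ay⟩ : ∃ y ∈ 𝐂[π b].comap π, Ac _ co y T := by
    simp only [List.mem_cons, List.not_mem_nil, or_false] at hT
    rcases hT with rfl | rfl | rfl | rfl | rfl | rfl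
    exacts [⟨1, one_mem _, o1⟩, ⟨ρ, hρ, k.aρ⟩, ⟨_, inv_mem hρ, ρ'⟩, ⟨τ, hτ, k.aτ⟩, ⟨_, mul_mem hτ hρ, f.mul k.aτ k.aρ⟩,
      ⟨_, mul_mem hτ (inv_mem hρ), f.mul k.aτ ρ'⟩]
  obtain ⟨y', hy', ay'⟩ : ∃ y ∈ 𝐂[π b].comap π, Ac _ co y T' := by
    simp only [List.mem_cons, List.not_mem_nil, or_false] at hT'
    rcases hT' with rfl | rfl | rfl | rfl
    exacts [⟨1, one_mem _, o1⟩, ⟨_, hx, k.a1⟩, ⟨_, hx2, k.a2⟩, ⟨_, k.e3 ▸ mul_mem (mul_mem hρ hx2) (inv_mem hρ), k.a3⟩]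
  exact d2 ((mH d).1 ((mul_mem_cancel_left hy).1 ((mul_mem_cancel_left hy').1 (QH (f.mQ (f.mul ay' (f.mul ay ad)) e)))))

end Cfsg.Agent.H4.R3
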