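import Cfsg.Agent.H4.R3g
import Cfsg.Agent.H1.SLn

/-! Constrained groups of sectional rank four with quotient of order 168: conclusion. -/

set_option autoImplicit false
set_option linter.unusedSectionVars false

namespace Cfsg.Agent.H4.R3

open Subgroup Cfsg.Agent.FT Cfsg.Agent.L0 Cfsg.Agent.H8 Cfsg.Agent.H4.R4
open scoped commutatorElement

universe u

theorem main (n : ℕ) : ∀ {G : Type u} [Group G] [Finite G] {Q : Subgroup G} {σ : G}, #|Q| = n → Hy Q σ → σ ∉ 𝐂(Q) → ∃ M, Gd Q M σ := by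
  induction n using Nat.strong_induction_on with
  | _ n ih =>
  intro G _ _ Q σ hn h hσ
  have := Fact.mk (by norm_num : Nat.Prime 7)
  have := Fact.mk Nat.prime_two
  have := h.nQ
  have c := cop (by norm_num) h.s7 h.pQ R4.nN
  have key : ∀ (N : Subgroup G) [N.Normal], N ≤ Q → N ≠ ⊥ →
      ⁅Q, zpowers σ⁆ ≤ N ∨ ∃ M, Gd (Q.map (QuotientGroup.mk' N)) M (QuotientGroup.mk' N σ) := fun N _ hN n0 =>
    or_iff_not_imp_left.2 fun e => ih _ (by
      rw [← hn, card_quo hN]; exact lt_mul_left Nat.card_pos ((one_lt_card_iff_ne_bot N).2 n0)) rfl (h.quo hN) fun e' => e (by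
      refine le_trans ((Subgroup.map_eq_bot_iff _).1 ?_) (QuotientGroup.ker_mk' N).le
      rw [map_commutator, MonoidHom.map_zpowers, commutator_eq_bot_iff_le_centralizer, centralizer_zpowers]
      exact le_centralizer_singleton_iff.2 e')
  by_cases hz : ∃ z ∈ Q, z ≠ 1 ∧ z * z = 1 ∧ ∀ g, g * z * g⁻¹ = z
  · obtain ⟨z, hz, z1, z2, zc⟩ := hz
    have k : ∀ g, g ∈ 𝐂(zpowers z) := fun g => by
      rw [centralizer_zpowers]; exact mem_centralizer_singleton_iff.2 (mul_inv_eq_iff_eq_mul.1 (zc g))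
    have : (zpowers z).Normal := ⟨fun y hy g => by rw [← k g y hy]; simpa using hy⟩
    obtain ⟨M, hM⟩ := (key _ (zpowers_le.2 hz) (zpowers_ne_bot.2 z1)).resolve_left fun e => hσ (le_centralizer_singleton_iff.1
      (centralizer_zpowers σ ▸ c.le_centralizer_of_commutator_le (le_centralizer_iff.1 fun g _ => k g) e))
    exact ext1 hM h (zpowers_le.2 hz) (by rw [Nat.card_zpowers, orderOf_eq_two_of z2 z1]) k
  push Not at hz
  have ab : ∀ x ∈ Q ⊓ 𝐂(Q), ∀ y ∈ Q ⊓ 𝐂(Q), Commute x y := fun x hx y hy => hy.2 x hx.1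
  obtain ⟨z, hz', z1, z2⟩ := H9.exists_involution_of_ne_bot (h.pQ.to_le (inf_le_left : Q ⊓ 𝐂(Q) ≤ Q))
    (inf_centralizer_ne_bot_of_isPGroup h.pQ h.pQ le_normalizer (by rintro rfl; exact hσ fun x hx => by rw [mem_bot.1 hx]; simp))
  have WQ : Om _ ab ≤ Q := fun w hw => hw.1.1
  have c16 : #|Om _ ab| ≤ 16 := by simpa using h.sr ⊥ (Om _ ab) bot_le fun x hx => hx.2
  obtain ⟨N, l, g⟩ := gd_of (h.pQ.to_le WQ) h.s7 le_rfl (fun x hx y hy => hx.1.2 y hy.1.1) R4.nN le_normalizer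
    (fun a ha => ha.2 ▸ one_mem _) c16 (fun e => (hz z hz'.1 z1 z2).elim fun a ha => ha (mul_inv_eq_one.1 (h.cm_all (L := ⊥) (D := Om _ ab)
      (fun q hq d hd => by rw [hd.1.2 q hq]; simp) (fun d hd => by rw [← e d hd]; simp) a z ⟨hz', z2⟩)))
    fun q hq => ⟨q, hq, 1, one_mem _, (mul_one q).symm⟩
  have : N.Normal := by
    have k := g.cardQ
    by_cases e : #|Om _ ab| = 16
    · exact (h.l16 (W := Om _ ab) g.card g.inf g.nσ (fun w hw => hw.2) l e).resolve_right fun ⟨w, hw, w1, k⟩ => (hz w hw.1.1 w1 hw.2).elim fun a ha => ha (k a)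
    · rw [eq_of_le_of_card_ge l (by rw [g.card]; omega)]; infer_instance
  have hN : Nn Q N σ := ⟨h, this, l.trans WQ, fun x hx => (l hx).1.2, g.sq, g.card, g.inf, hz⟩
  rcases key N hN.le (by rintro rfl; simpa using g.card) with e | ⟨M, gd⟩
  · exact ⟨N, hN.le, g.sq, g.card, hN.cen, g.nσ, g.inf, fun q hq => by
      obtain ⟨m, hm, d, hd, rfl⟩ := c.exists_eq_commutator_mul hq
      exact ⟨m, e hm, d, centralizer_zpowers σ ▸ hd, rfl⟩⟩
  have := hN.case2 gd
  obtain ⟨l1, l2, c8, sq, dec⟩ := gd.lift h hN.le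
  obtain ⟨⟨a, ha⟩, a1⟩ := ne_bot_iff_exists_ne_one.1 (show M ≠ ⊥ by rintro rfl; simpa using gd.card)
  obtain ⟨a, rfl⟩ := QuotientGroup.mk'_surjective N a
  have e1 : ∀ {x}, QuotientGroup.mk' N x = 1 ↔ x ∈ N := QuotientGroup.eq_one_iff _
  obtain ⟨_, _, _, _, _, _, _, _, _, k⟩ := hN.c1 l1 l2 c8 sq dec (fun x hx y hy => e1.1 (by
    rw [map_mul, map_mul, map_mul, gd.ab (h.quo hN.le) (mem_map_of_mem _ hx) (mem_map_of_mem _ hy)]; simp))
    (fun q hq => e1.1 ((map_pow _ _ _).trans (gd.four (h.quo hN.le) (mem_map_of_mem _ hq)))) (show a ∈ _ from ha) fun k =>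
      a1 (Subtype.ext (gd.inf.le ⟨ha, mem_centralizer_singleton_iff.2 (by
        have := e1.2 k
        rwa [map_mul, map_mul, map_mul, map_inv, map_inv, mul_inv_eq_one, mul_inv_eq_iff_eq_mul, eq_comm] at this)⟩))
  exact k.false.elim

theorem final {G : Type u} [Group G] [Finite G] {Q : Subgroup G} {σ : G} (h : Hy Q σ) (hC : 𝐂(Q) ≤ Q) :
    ((∀ x ∈ Q, x * x = 1) ∧ (#|Q| = 8 ∨ #|Q| = 16)) ∨ Nonempty (Q ≃* Multiplicative (ZMod 4) × (Fin 3 → Multiplicative (ZMod 2))) := by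
  obtain ⟨M, g⟩ := main _ rfl h fun e => h.sQ (hC e)
  obtain ⟨c, ec⟩ := g.cyc h
  have k := g.cardQ
  rw [← ec, Nat.card_zpowers] at k
  by_cases e : c ^ 2 = 1
  · refine Or.inl ⟨fun x hx => ?_, ?_⟩
    · obtain ⟨d, hd, -, e'⟩ := g.sqC hx
      obtain ⟨i, rfl⟩ := ec.ge hd
      rw [e', ← Commute.mul_zpow rfl, ← pow_two, e, one_zpow]
    · have := Nat.le_of_dvd two_pos (orderOf_dvd_of_pow_eq_one e)
      have := orderOf_pos c
      omega
  obtain ⟨e1⟩ := eqv (W := M) (fun x => Subtype.ext (g.sq x x.2)) g.card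
  obtain ⟨e2⟩ := eqv (W := Fin 3 → Multiplicative (ZMod 2)) (by decide) (by simp)
  have := Fact.mk Nat.prime_two
  have o : orderOf c = 4 := orderOf_eq_prime_pow (p := 2) (n := 1) e (g.four h (ec.le (mem_zpowers c)).1)
  let e3 : Multiplicative (ZMod 4) ≃* zpowers c := mulEquivOfCyclicCardEq (by rw [Nat.card_zpowers, o]; simp)
  let φ := ((inclusion (ec.le.trans inf_le_left)).comp e3.toMonoidHom).noncommCoprod ((inclusion g.le).comp (e2.trans e1.symm).toMonoidHom)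
    fun a b => Subtype.ext (g.ab h (Subtype.prop _) (Subtype.prop _))
  refine Or.inr ⟨(MulEquiv.ofBijective φ ((Nat.bijective_iff_surjective_and_card _).2 ⟨fun x => ?_, by rw [k, o]; simp⟩)).symm⟩
  obtain ⟨m, hm, d, hd, e⟩ := g.dec x x.2
  exact ⟨(e3.symm ⟨d, ec.ge hd⟩, e2.symm (e1 ⟨m, hm⟩)), Subtype.ext (by simpa [φ, e] using g.cen hm d hd.1)⟩

theorem card_psl {F : Type*} [Field F] [Fintype F] (hF : Fintype.card F = 2) : Nat.card (Matrix.ProjectiveSpecialLinearGroup (Fin 3) F) = 168 := by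
  classical
  have u : ∀ u : Fˣ, u = 1 := fun u => Fintype.card_le_one_iff.1 (by rw [Fintype.card_units, hF]) u 1
  have h1 : center (Matrix.SpecialLinearGroup (Fin 3) F) = ⊥ := eq_bot_iff.2 fun A hA => by
    obtain ⟨r, hr, hr'⟩ := Matrix.SpecialLinearGroup.mem_center_iff.mp hA
    obtain rfl : r = 1 := congrArg Units.val (u (Units.ofPowEqOne r _ hr (by simp)))
    exact Subtype.ext (by simpa using hr'.symm)
  have h2 : Function.Bijective (Matrix.SpecialLinearGroup.toGL : Matrix.SpecialLinearGroup (Fin 3) F →* _) :=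
    ⟨Matrix.SpecialLinearGroup.toGL_injective, fun g => ⟨⟨g, congrArg Units.val (u (Matrix.GeneralLinearGroup.det g))⟩, Units.ext rfl⟩⟩
  rw [← index_eq_card, h1, index_bot, Nat.card_eq_of_bijective _ h2, Matrix.card_GL_field, Fin.prod_univ_three, hF]
  rfl

theorem hy_of {G : Type u} [Group G] [Finite G] {Q : Subgroup G} [Q.Normal] (hQ : IsPGroup 2 Q) (hS : SR G) [IsSimpleGroup (G ⧸ Q)]
    (hc : Nat.card (G ⧸ Q) = 168) : ∃ σ, Hy Q σ := by
  have := Fact.mk (by norm_num : Nat.Prime 7)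
  obtain ⟨v, hv⟩ := exists_prime_orderOf_dvd_card' (G := G ⧸ Q) 7 (by rw [hc]; norm_num)
  obtain ⟨σ, h7, rfl⟩ := lift (p := 7) (by norm_num) hQ (hv ▸ pow_orderOf_eq_one v)
  have s := QuotientGroup.mk'_surjective Q
  refine ⟨σ, ‹_›, hQ, hc, fun H hH hle => ?_, h7, fun e => ?_, hS⟩
  · rw [← comap_map_eq_self ((QuotientGroup.ker_mk' Q).le.trans hle)]
    exact (hH.map _ s).eq_bot_or_eq_top.imp (fun e => by rw [e, MonoidHom.comap_bot, QuotientGroup.ker_mk']) fun e => by rw [e, comap_top]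
  · rw [show QuotientGroup.mk' Q σ = 1 from (QuotientGroup.eq_one_iff σ).2 e] at hv
    simp at hv

end Cfsg.Agent.H4.R3
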