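import Cfsg.Agent.H4.R4a

/-! Constrained groups of sectional rank four: central Frattini subgroup. -/

set_option autoImplicit false
set_option linter.unusedSectionVars false

namespace Cfsg.Agent.H4.R4

open Subgroup Cfsg.Agent.FT Cfsg.Agent.L0 Cfsg.Agent.H8

universe u

variable {G : Type u} [Group G] [Finite G] {H K M N Q U V W : Subgroup G} {a b c g s t x y z ρ σ : G}

theorem pw {n : ℕ} (hQ : ⁅Q, zpowers σ⁆ = Q) (hn : σ ∈ 𝐍(Q)) (hm : ∀ x ∈ Q, ∀ y ∈ Q, (x * y) ^ n = x ^ n * y ^ n)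
    (hc : ∀ x ∈ Q, x ^ n ∈ 𝐂[σ]) : ∀ x ∈ Q, x ^ n = 1 := by
  let K : Subgroup G :=
    { carrier := {x | x ∈ Q ∧ x ^ n = 1}
      mul_mem' := fun h k => ⟨mul_mem h.1 k.1, by rw [hm _ h.1 _ k.1, h.2, k.2, one_mul]⟩
      one_mem' := ⟨one_mem _, one_pow _⟩
      inv_mem' := fun h => ⟨inv_mem h.1, by rw [inv_pow, h.2, inv_one]⟩ }
  refine fun x hx => ((hQ.ge.trans (commutator_le.2 fun x hx g hg => ?_) : Q ≤ K) hx).2
  have k := (mem_normalizer_iff.1 (zpowers_le.2 hn hg) _).1 (inv_mem hx)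
  rw [commutatorElement_def, mul_assoc, mul_assoc, ← mul_assoc g]
  refine ⟨mul_mem hx k, ?_⟩
  rw [hm _ hx _ k, conj_pow, mem_centralizer_iff.1 (centralizer_zpowers σ ▸ hc _ (inv_mem hx)) g hg]; group

theorem ext (hM : M ≤ Q) (hs : ∀ x ∈ Q, x * x ∈ M) (h : #|M| < #|Q|) :
    ∃ x ∈ Q, x ∉ M ∧ #|(M ⊔ zpowers x : Subgroup G)| = #|M| * 2 := by
  have := Fact.mk Nat.prime_two
  obtain ⟨x, hx, hx'⟩ := SetLike.not_le_iff_exists.1 fun k : Q ≤ M => h.not_ge (card_le_of_le k)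
  exact ⟨x, hx, hx', H5.card_sup_zpowers (nrm hM hs hx) hx' (pow_two x ▸ hs x hx)⟩

theorem odd (hU : U ≤ Q) (hc : Q ≤ 𝐂(U)) (sQ : ∀ x ∈ Q, x * x ∈ U) (sU : ∀ x ∈ U, x * x = 1) (cQ : #|Q| = 16 * #|U|) (ha : a ∈ U)
    (hb : b ∈ U) (h : ∀ x ∈ Q, x ∉ U → x * x = a ∨ x * x = b) : a = 1 ∨ b = 1 := by
  have k0 : 0 < #|U| := Nat.card_pos
  obtain ⟨x, hx, x1, c1⟩ := ext hU sQ (by omega)
  have l1 := sup_le hU (zpowers_le.2 hx)
  obtain ⟨y, hy, y1, c2⟩ := ext l1 (fun v hv => mem_sup_left (sQ v hv)) (by omega)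
  obtain ⟨w, hw, w1, -⟩ := ext (sup_le l1 (zpowers_le.2 hy)) (fun v hv => mem_sup_left (mem_sup_left (sQ v hv))) (by omega)
  have mx : x ∈ U ⊔ zpowers x := mem_sup_right (mem_zpowers x)
  have k : ∀ v ∈ Q, v ∉ U ⊔ zpowers x → x⁻¹ * v * x * v⁻¹ = a ∨ x⁻¹ * v * x * v⁻¹ = b := fun v hv v1 => by
    have ia := inv_eq_of_mul_self (sU a ha)
    have ib := inv_eq_of_mul_self (sU b hb)
    have ab := mem_centralizer_iff.1 (hc (hU ha)) b hb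
    have aab : a * (a * b) = b := by rw [← mul_assoc, sU a ha, one_mul]
    rw [show x⁻¹ * v * x * v⁻¹ = (x * x)⁻¹ * (x * v * (x * v)) * (v * v)⁻¹ by group]
    rcases h x hx x1 with e1 | e1 <;> rcases h v hv (fun k => v1 (mem_sup_left k)) with e2 | e2 <;>
      rcases h _ (mul_mem hx hv) (fun k => v1 ((mul_mem_cancel_left mx).1 (mem_sup_left k))) with e3 | e3 <;>
      rw [e1, e2, e3] <;> simp [ia, ib, ab, mul_assoc, sU a ha, sU b hb, aab]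
  have k1 := k _ (mul_mem hy hw) fun k => w1 ((mul_mem_cancel_left (mem_sup_right (mem_zpowers y))).1 (mem_sup_left k))
  have k2 := k w hw fun k => w1 (mem_sup_left k)
  have k3 := mem_centralizer_iff.1 (hc (inv_mem hy)) (x⁻¹ * w * x * w⁻¹) (by rcases k2 with e | e <;> rwa [e])
  rw [show x⁻¹ * (y * w) * x * (y * w)⁻¹ = x⁻¹ * y * x * (x⁻¹ * w * x * w⁻¹ * y⁻¹) by group, k3, ← mul_assoc] at k1
  rcases k y hy y1 with e1 | e1 <;> rcases k2 with e2 | e2 <;> rw [e1, e2] at k1 <;> rcases k1 with e | e <;>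
    simp_all [eq_comm]

theorem fm {p : ℕ} [Fact p.Prime] (h : σ ^ p = 1) {S : Set G} (hS : ∀ g ∈ zpowers σ, ∀ x ∈ S, g * x * g⁻¹ ∈ S) :
    S.ncard ≡ (S ∩ 𝐂[σ]).ncard [MOD p] := by
  convert @WA.Te.ncard_fixed_modEq G G _ _ (MulAction.compHom G (MulAut.conj : G →* MulAut G)) p _ _ (zp h) S S.toFinite hS using 2
  ext x
  exact and_congr_right fun _ => by
    rw [← centralizer_zpowers, SetLike.mem_coe, mem_centralizer_iff]
    exact forall₂_congr fun g _ => mul_inv_eq_iff_eq_mul.symm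

/-- level set of squaring -/
def lv (Q U : Subgroup G) (u : G) : Set G := {x | x ∈ Q ∧ x ∉ U ∧ x * x = u}

theorem vals [Q.Normal] [U.Normal] (hQ : IsPGroup 2 Q) (hU : U ≤ Q) (hc : Q ≤ 𝐂(U)) (sQ : ∀ x ∈ Q, x * x ∈ U)
    (sU : ∀ x ∈ U, x * x = 1) (cQ : #|Q| = 16 * #|U|) (h5 : σ ^ 5 = 1) (h3 : ρ ^ 3 = 1) (hσ : σ ∈ 𝐂(U)) (hρ : ρ ∈ 𝐂(U))
    (hf : Q ⊓ 𝐂[σ] ≤ U) (hr : ρ ∉ 𝐂(Q)) : ∃ a ∈ U, ∃ b ∈ U, ∀ x ∈ Q, x ∉ U → x * x = a ∨ x * x = b := by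
  have := Fact.mk Nat.prime_two
  have := Fact.mk Nat.prime_three
  have := Fact.mk Nat.prime_five
  obtain ⟨n, hn⟩ := (hQ.to_le hU).exists_card_eq
  have k1 : ∀ u ∈ U, ∀ g ∈ 𝐂(U), ∀ x ∈ lv Q U u, g * x * g⁻¹ ∈ lv Q U u := fun u hu g hg x hx =>
    ⟨Normal.conj_mem ‹_› x hx.1 g, fun k => hx.2.1 (by simpa [mul_assoc] using Normal.conj_mem' ‹_› _ k g), by
      rw [conj_mul, hx.2.2, ← mem_centralizer_iff.1 hg u hu, mul_inv_cancel_right]⟩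
  have k2 : ∀ u, ∀ v ∈ U, ∀ x ∈ lv Q U u, v * x ∈ lv Q U u := fun u v hv x hx =>
    ⟨mul_mem (hU hv) hx.1, fun k => hx.2.1 ((mul_mem_cancel_left hv).1 k), by
      rw [mul_assoc, ← mul_assoc x, ← mem_centralizer_iff.1 (hc hx.1) v hv, mul_assoc, hx.2.2, ← mul_assoc, sU v hv, one_mul]⟩
  have k3 : ∀ x ∈ Q, x ∉ U → ∃ m f, 0 < m ∧ (lv Q U (x * x)).ncard = #|U| * (5 * m) ∧
      (lv Q U (x * x) ∩ 𝐂[ρ]).ncard = #|U| * f ∧ 5 * m ≡ f [MOD 3] := fun x hx x1 => by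
    obtain ⟨m, hm⟩ := WA.Te.card_dvd_ncard (k2 (x * x)) fun g _ y _ => mul_eq_right.1
    obtain ⟨f, e⟩ := WA.Te.card_dvd_ncard (P := U) (S := lv Q U (x * x) ∩ 𝐂[ρ]) (fun v hv y hy => ⟨k2 _ v hv y hy.1,
      mul_mem (mem_centralizer_singleton_iff.2 (mem_centralizer_iff.1 hρ v hv)) hy.2⟩) fun g _ y _ => mul_eq_right.1
    have a5 := fm h5 fun g hg => k1 _ (sQ x hx) g (zpowers_le.2 hσ hg)
    have a3 := fm h3 fun g hg => k1 _ (sQ x hx) g (zpowers_le.2 hρ hg)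
    rw [Set.eq_empty_of_forall_notMem (s := _ ∩ _) fun y hy => hy.1.2.1 (hf ⟨hy.1.1, hy.2⟩), Set.ncard_empty, hm,
      Nat.modEq_zero_iff_dvd] at a5
    obtain ⟨m, rfl⟩ := (show Nat.Coprime 5 #|U| from hn ▸ Nat.Coprime.pow_right n (by norm_num)).dvd_of_dvd_mul_left a5
    rw [hm, e] at a3
    refine ⟨m, f, Nat.pos_of_ne_zero fun h => ?_, hm, e, a3.cancel_left_of_coprime (hn ▸ Nat.Coprime.pow_right n (by norm_num))⟩
    rw [h, mul_zero, mul_zero, Set.ncard_eq_zero] at hm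
    exact hm.le (⟨hx, x1, rfl⟩ : x ∈ lv Q U (x * x))
  by_contra! h
  obtain ⟨x, hx, x1, -⟩ := h 1 (one_mem _) 1 (one_mem _)
  obtain ⟨y, hy, y1, y2, -⟩ := h _ (sQ x hx) 1 (one_mem _)
  obtain ⟨w, hw, w1, w2, w3⟩ := h _ (sQ x hx) _ (sQ y hy)
  obtain ⟨m1, f1, p1, a1, b1, c1⟩ := k3 x hx x1
  obtain ⟨m2, f2, p2, a2, b2, c2⟩ := k3 y hy y1
  obtain ⟨m3, -, p3, a3, -, -⟩ := k3 w hw w1
  have d1 : ∀ u, Disjoint (U : Set G) (lv Q U u) := fun u => Set.disjoint_left.2 fun v hv k => k.2.1 hv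
  have d2 : ∀ {u v}, u ≠ v → Disjoint (lv Q U v) (lv Q U u) := fun e => Set.disjoint_left.2 fun v hv k => e (k.2.2.symm.trans hv.2.2)
  have e1 := Set.ncard_le_ncard (s := U ∪ lv Q U (x * x) ∪ lv Q U (y * y) ∪ lv Q U (w * w)) (t := Q)
    (Set.union_subset (Set.union_subset (Set.union_subset hU fun v hv => hv.1) fun v hv => hv.1) fun v hv => hv.1)
  have e2 := Set.ncard_le_ncard (s := U ∪ lv Q U (x * x) ∩ 𝐂[ρ] ∪ lv Q U (y * y) ∩ 𝐂[ρ]) (t := (Q ⊓ 𝐂[ρ] : Subgroup G))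
    (Set.union_subset (Set.union_subset (fun v hv => ⟨hU hv, mem_centralizer_singleton_iff.2 (mem_centralizer_iff.1 hρ v hv)⟩)
      fun v hv => ⟨hv.1.1, hv.2⟩) fun v hv => ⟨hv.1.1, hv.2⟩)
  rw [Set.ncard_union_eq (((d1 _).union_left (d2 w2)).union_left (d2 w3)), Set.ncard_union_eq ((d1 _).union_left (d2 y2)),
    Set.ncard_union_eq (d1 _), a1, a2, a3] at e1
  rw [Set.ncard_union_eq (((d1 _).union_left ((d2 y2).mono_left Set.inter_subset_left)).mono_right Set.inter_subset_left),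
    Set.ncard_union_eq ((d1 _).mono_right Set.inter_subset_left), b1, b2] at e2
  simp only [← Nat.card_coe_set_eq, SetLike.coe_sort_coe] at e1 e2
  have k0 : 0 < #|U| := Nat.card_pos
  have e3 : 1 + 5 * m1 + 5 * m2 + 5 * m3 ≤ 16 := Nat.le_of_mul_le_mul_left (by linarith) k0
  obtain rfl : m1 = 1 := by omega
  obtain rfl : m2 = 1 := by omega
  have e4 : 4 ≤ f1 + f2 := by unfold Nat.ModEq at c1 c2; omega
  obtain ⟨j, e, hj⟩ := lp (by norm_num) hQ (inf_le_left : Q ⊓ 𝐂[ρ] ≤ Q) h3 (le_normalizer_inf (zpowers_le.2 nN) (zpowers_le.2 nC)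
    (mem_zpowers ρ)) nN le_rfl
  have e5 : 5 * #|U| ≤ #|(Q ⊓ 𝐂[ρ] : Subgroup G)| := by nlinarith
  have : j < 2 := (Nat.pow_lt_pow_iff_right one_lt_two).1 (by nlinarith)
  interval_cases j
  · exact hr (le_centralizer_singleton_iff.1 ((eq_of_le_of_card_ge (inf_le_left : Q ⊓ 𝐂[ρ] ≤ Q) (by omega)).ge.trans inf_le_right))
  · exact absurd hj (by decide)

end Cfsg.Agent.H4.R4
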