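import Cfsg.Agent.H4.R4b

/-! Constrained groups of sectional rank four with an alternating section. -/

set_option autoImplicit false
set_option linter.unusedSectionVars false

namespace Cfsg.Agent.H4.R4

open Subgroup Cfsg.Agent.FT Cfsg.Agent.L0 Cfsg.Agent.H8

universe u

variable {G : Type u} [Group G] [Finite G] {H K M N Q U V W : Subgroup G} {a b c g s t x y z ρ σ : G}

theorem ri (h : H9.C2 Q z) (hM : M ≤ Q) (hy : y ∈ Q) (hx : x ∈ M) (hn : x * y ≠ y * x) : #|(M ⊓ 𝐂[y] : Subgroup G)| * 2 = #|M| := by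
  rw [← H5.card_inf_mul_relIndex 𝐂[y] M, inf_comm, H9.relIndex_eq_two_of hx (by rwa [mem_centralizer_singleton_iff]) fun s hs k => ?_]
  rw [mem_centralizer_singleton_iff] at k ⊢
  symm
  rw [h.comm_mul_iff hy (hM hs) (hM hx)]
  exact ⟨fun h' => absurd h'.symm k, fun h' => absurd h'.symm hn⟩

theorem quart (h : H9.C2 Q z) (hx : x ∈ Q) (hy : y ∈ Q) (hn : x * y ≠ y * x) : #|(Q ⊓ 𝐂[x] ⊓ 𝐂[y] : Subgroup G)| * 4 = #|Q| := by
  have k1 := ri h le_rfl hx hy hn.symm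
  have k2 := ri h (inf_le_left : Q ⊓ 𝐂[x] ≤ Q) hy ⟨hx, mem_centralizer_singleton_iff.2 rfl⟩ hn
  omega

theorem dq (h : H5.Five Q z σ) (hx : x ∈ H5.invols Q z) : ∃ A B : Subgroup Q, Nonempty (A ≃* QuaternionGroup 2) ∧
    Nonempty (B ≃* DihedralGroup 4) ∧ (∀ a ∈ A, ∀ b ∈ B, a * b = b * a) ∧ A ⊔ B = ⊤ ∧ A ⊓ B = center Q := by
  have e := h.es
  have hn := H5.cform_eq_one.1 (h.cform_conj_eq_one hx.1 hx.2.2.1 hx.2.2.2 hx.2.1 1 (by norm_num))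
  have hy := h.conj_mem 1 hx.1
  have y2 : σ ^ 1 * x * (σ ^ 1)⁻¹ * (σ ^ 1 * x * (σ ^ 1)⁻¹) = 1 := by rw [conj_mul, hx.2.1]; group
  generalize σ ^ 1 * x * (σ ^ 1)⁻¹ = y at hn hy y2
  have k0 : x * y * (x * y) = z := by rw [e.mul_sq_of_ne hx.1 hy hn, hx.2.1, y2, one_mul, one_mul]
  have k1 : orderOf (x * y) = 4 := orderOf_eq_prime_pow (p := 2) (n := 1) (by rw [pow_one, pow_two, k0]; exact e.ne)
    (by rw [pow_succ, pow_mul, pow_one, pow_two, pow_two, k0, e.sq])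
  have o1 := orderOf_eq_two_of hx.2.1 hx.2.2.1
  have o2 := orderOf_eq_two_of y2 (by rintro rfl; simp at hn)
  have hB := k1 ▸ nonempty_closure_involutions_equiv_dihedral o1 o2
  have cB := k1 ▸ card_closure_involutions o1 o2
  have mx : x ∈ closure {x, y} := subset_closure (by simp)
  have my : y ∈ closure {x, y} := subset_closure (by simp)
  have mz : z ∈ closure {x, y} := k0 ▸ mul_mem (mul_mem mx my) (mul_mem mx my)
  have BQ : closure {x, y} ≤ Q := (closure_le _).2 (Set.pair_subset hx.1 hy)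
  have AB : Q ⊓ 𝐂[x] ⊓ 𝐂[y] ≤ 𝐂(closure {x, y}) := le_centralizer_iff.1 ((closure_le _).2 (Set.pair_subset
    (le_centralizer_singleton_iff.1 (inf_le_left.trans inf_le_right)) (le_centralizer_singleton_iff.1 inf_le_right)))
  have c1 := quart e.toC2 hx.1 hy hn
  have c2 := quart (e.of_le BQ mz) mx my hn
  rw [show closure {x, y} ⊓ 𝐂[x] ⊓ 𝐂[y] = Q ⊓ 𝐂[x] ⊓ 𝐂[y] ⊓ closure {x, y} by
    rw [inf_comm _ (Subgroup.closure _), inf_assoc Q, ← inf_assoc _ Q, inf_eq_left.2 BQ, inf_assoc]] at c2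
  have AQ : Q ⊓ 𝐂[x] ⊓ 𝐂[y] ≤ Q := inf_le_left.trans inf_le_left
  have hu : ∀ a ∈ Q ⊓ 𝐂[x] ⊓ 𝐂[y], orderOf a = 2 → a = z := fun a ha o => by_contra fun k => by
    have k2 := mem_centralizer_singleton_iff.1 ha.2
    rcases h.eq_of_commute hx ⟨ha.1.1, mul_self_of_orderOf_two o, ne_one_of_orderOf_two o, k⟩
      (mem_centralizer_singleton_iff.1 ha.1.2).symm with rfl | rfl
    · exact hn k2
    · exact hn (mul_right_cancel (b := z) (by rw [mul_assoc, e.cz y hy, ← mul_assoc, k2, mul_assoc]))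
  have zA : z ∈ Q ⊓ 𝐂[x] ⊓ 𝐂[y] :=
    ⟨⟨e.mem, mem_centralizer_singleton_iff.2 (e.cz x hx.1).symm⟩, mem_centralizer_singleton_iff.2 (e.cz y hy).symm⟩
  generalize Q ⊓ 𝐂[x] ⊓ 𝐂[y] = A at *
  generalize closure {x, y} = B at *
  have c3 := card_sup_mul_card_inf_of_le_normalizer (AB.trans (centralizer_le_normalizer _))
  have c4 := h.card
  have c5 : #|A| = 8 := by omega
  have c6 : #|(A ⊓ B : Subgroup G)| = 2 := by omega
  have hs : A ⊔ B = Q := eq_of_le_of_card_ge (sup_le AQ BQ) (by rw [c5, c6, cB] at c3; omega)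
  have hi : zpowers z = A ⊓ B := eq_of_le_of_card_ge (zpowers_le.2 ⟨zA, mz⟩) (by rw [c6, Nat.card_zpowers, e.orderOf_eq])
  rcases H5.cyclic_or_quaternion_of_unique_involution (e.isPGroup.to_le AQ) fun a ha b hb o o' => (hu a ha o).trans (hu b hb o').symm
    with hA | ⟨n, ⟨f⟩⟩
  · have := card_le_of_le (show A ≤ zpowers z from fun a ha => by
      have k := e.center a (AQ ha) fun q hq => mem_centralizer_iff.1 (le_centralizer_iff.1 (hs.ge.trans (sup_le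
        (comm_iff_le_centralizer.1 inferInstance) (le_centralizer_iff.1 AB))) ha) q hq
      rcases k with rfl | rfl <;> simp)
    rw [hi] at this; omega
  have k := Nat.card_congr f.toEquiv
  rw [Nat.card_eq_fintype_card (α := QuaternionGroup _), QuaternionGroup.card, c5, pow_succ] at k
  obtain rfl : n = 0 := Nat.pow_eq_one.1 (by omega : 2 ^ n = 1) |>.resolve_left (by norm_num)
  refine ⟨A.subgroupOf Q, B.subgroupOf Q, ⟨(subgroupOfEquivOfLe AQ).trans f⟩, ⟨(subgroupOfEquivOfLe BQ).trans hB.some⟩,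
    fun a ha b hb => Subtype.ext (mem_centralizer_iff.1 (AB ha) b hb).symm, ?_, ?_⟩
  · rw [← subgroupOf_sup AQ BQ, hs, subgroupOf_self]
  · rw [subgroupOf, subgroupOf, ← comap_inf, ← hi, ← e.map_center, comap_map_eq_self_of_injective Q.subtype_injective]

theorem case2 [Q.Normal] (hQ : IsPGroup 2 Q) (cQ : #|Q| = 16 * #|Phi Q|) (h5 : σ ^ 5 = 1) (h3 : ρ ^ 3 = 1) (hσ : σ ∈ 𝐂(Phi Q))
    (hρ : ρ ∈ 𝐂(Phi Q) ⊔ Q) (hf : Q ⊓ 𝐂[σ] ≤ Phi Q) (hr : ρ ∉ 𝐂(Q)) (hs : σ ∉ 𝐂(Q)) :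
    ((∀ x ∈ Q, x * x = 1) ∧ #|Q| = 16) ∨ ∃ z x, H5.Five Q z σ ∧ x ∈ H5.invols Q z := by
  have := Fact.mk Nat.prime_two
  have := Fact.mk Nat.prime_five
  have : (Phi Q).Normal := normalizer_eq_top_iff.1 (top_le_iff.1 fun g _ => normalizer_le_Phi Q nN)
  have sQ : ∀ x ∈ Q, x * x ∈ Phi Q := fun x hx => pow_two x ▸ pow_mem_Phi hQ hx
  have hP : ∀ {H : Subgroup G}, (∀ a ∈ Q, a * a ∈ H) → Phi Q ≤ H := H9.map_frattini_le_of_sq_mem
  have h1 := (cop (by norm_num) h5 hQ nN).commutator_sup_centralizer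
  rw [centralizer_zpowers] at h1
  have h2 : ⁅Q, zpowers σ⁆ = Q := eq_of_sup_Phi (commutator_le_left _ _)
    (le_antisymm (sup_le (commutator_le_left _ _) (Phi_le Q)) (h1.ge.trans (sup_le_sup_left hf _)))
  have hU := Phi_le Q
  generalize Phi Q = U at *
  have hc : Q ≤ 𝐂(U) := h2.ge.trans ((commutator_mono le_rfl (zpowers_le.2 hσ)).trans (commutator_le_right _ _))
  rw [sup_eq_left.2 hc] at hρ
  have cm : ∀ {u}, u ∈ U → ∀ x ∈ Q, Commute u x := fun hu x hx => mem_centralizer_iff.1 (hc hx) _ hu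
  have h4 := pw (n := 4) h2 nN (fun x hx y hy => by
    have k := H9.comm_mem_of_sq_mem sQ (inv_mem hx) hy
    have k1 : x * y * (x * y) = x * x * (x⁻¹ * y * x⁻¹⁻¹ * y⁻¹) * (y * y) := by group
    have k2 : x⁻¹ * y * x⁻¹⁻¹ * y⁻¹ * (x⁻¹ * y * x⁻¹⁻¹ * y⁻¹) = 1 := by
      calc _ = x⁻¹ * y * x * (y⁻¹ * (x⁻¹ * y * x⁻¹⁻¹ * y⁻¹)) := by group
        _ = x⁻¹ * (y * y * x) * y⁻¹ * y⁻¹ := by rw [← cm k _ (inv_mem hy)]; group
        _ = 1 := by rw [cm (sQ y hy) x hx]; group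
    rw [show 4 = 2 * 2 from rfl, pow_mul, pow_mul, pow_mul, pow_two (x * y), k1, pow_two x, pow_two y,
      (cm (mul_mem (sQ x hx) k) _ (mul_mem hy hy)).mul_pow, (cm (sQ x hx) _ (hU k)).mul_pow, pow_two (_ * y⁻¹), k2, mul_one])
    fun x hx => by
      rw [show 4 = 2 * 2 from rfl, pow_mul, pow_two x]
      exact pow_mem (le_centralizer_singleton_iff.2 hσ (sQ x hx)) 2
  have sU : ∀ x ∈ U, x * x = 1 := fun u hu => ((hP (H :=
    { carrier := {x | x ∈ U ∧ x * x = 1}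
      mul_mem' := fun h k => ⟨mul_mem h.1 k.1, by rw [← pow_two, (cm h.1 _ (hU k.1)).mul_pow, pow_two, pow_two, h.2, k.2, one_mul]⟩
      one_mem' := ⟨one_mem _, one_mul _⟩
      inv_mem' := fun h => ⟨inv_mem h.1, by rw [← mul_inv_rev, h.2, inv_one]⟩ })
    fun a ha => ⟨sQ a ha, by rw [← h4 a ha, ← pow_two, ← pow_two, ← pow_mul]⟩) hu).2
  obtain ⟨z, hz, h6⟩ : ∃ z ∈ U, ∀ x ∈ Q, x * x = 1 ∨ x * x = z := by
    obtain ⟨a, ha, b, hb, k⟩ := vals hQ hU hc sQ sU cQ h5 h3 hσ hρ hf hr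
    rcases odd hU hc sQ sU cQ ha hb k with rfl | rfl
    · exact ⟨b, hb, fun x hx => (em (x ∈ U)).elim (fun e => Or.inl (sU x e)) (k x hx)⟩
    · exact ⟨a, ha, fun x hx => (em (x ∈ U)).elim (fun e => Or.inl (sU x e)) fun e => (k x hx e).symm⟩
  by_cases h7 : ∀ x ∈ Q, x * x = 1
  · exact Or.inl ⟨h7, by rw [cQ, eq_bot_iff.2 (hP fun a ha => h7 a ha), card_bot]⟩
  have z1 : z ≠ 1 := by rintro rfl; exact h7 fun x hx => (h6 x hx).elim id id
  have oz := orderOf_eq_two_of (sU z hz) z1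
  have h8 : U = zpowers z := le_antisymm (hP fun a ha => by rcases h6 a ha with e | e <;> simp [e]) (zpowers_le.2 hz)
  have cU : #|U| = 2 := by rw [h8, Nat.card_zpowers, oz]
  have h9 : ∀ u ∈ U, u = 1 ∨ u = z := fun u => H9.eq_one_or_eq_of_card_le_two cU.le hz z1
  have na : ¬Q ≤ 𝐂(Q) := fun k => h7 fun x hx => (pow_two x).symm.trans (pw h2 nN (fun x hx y hy =>
    Commute.mul_pow (mem_centralizer_iff.1 (k hy) x hx) 2) (fun x hx => (pow_two x).symm ▸ le_centralizer_singleton_iff.2 hσ (sQ x hx)) x hx)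
  obtain ⟨x, hx, x1, x2⟩ : ∃ x ∈ Q, x ∉ U ∧ x * x = 1 := by
    by_contra! k
    exact (odd hU hc sQ sU cQ hz hz fun x hx x1 => Or.inl ((h6 x hx).resolve_left (k x hx x1))).elim z1 z1
  refine Or.inr ⟨z, x, ⟨⟨⟨hU hz, z1, sU z hz, fun q hq => (cm hz q hq).symm, fun x hx y hy => ?_⟩, fun x hx k => h9 x ?_, ?_⟩,
    by omega, orderOf_eq_prime h5 (by rintro rfl; exact hs (one_mem _)), nN, hs⟩, hx, x2, by rintro rfl; exact x1 (one_mem _),
    by rintro rfl; exact x1 hz⟩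
  · refine (h9 _ (H9.comm_mem_of_sq_mem sQ hx hy)).imp (fun e => ?_) fun e => ?_
    · rwa [mul_inv_eq_one, mul_inv_eq_iff_eq_mul] at e
    · rw [← cm hz _ (mul_mem hy hx), ← e]; group
  · rcases l5 (H := Q ⊓ 𝐂(Q)) (hQ.to_le inf_le_left) (le_inf hU (le_centralizer_iff.1 hc)) (cQ ▸ card_le_of_le inf_le_left) h5 nN nN
      with e | e
    · exact (e.ge.trans (sup_le le_rfl ((inf_le_inf_right _ inf_le_left).trans hf))) ⟨hx, k⟩
    · exact (na ((eq_of_le_of_card_ge inf_le_left (by omega)).ge.trans inf_le_right)).elim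
  · by_contra! k
    exact na fun y hy => mem_centralizer_iff.2 fun x hx => k x hx y hy

theorem main (hS : SR G) [Q.Normal] (hQ : IsPGroup 2 Q) (hC : 𝐂(Q) ≤ Q) (h5 : σ ^ 5 = 1) (h3 : ρ ^ 3 = 1) (hs : σ ∉ Q) (hr : ρ ∉ Q)
    (t2 : t * t ∈ Q) (hi : t * σ * t⁻¹ * σ ∈ Q) (hρ : ∀ K : Subgroup G, K.Normal → σ ∈ K → ρ ∈ K ⊔ Q) :
    ((∀ x ∈ Q, x * x = 1) ∧ #|Q| = 16) ∨ ∃ z x, H5.Five Q z σ ∧ x ∈ H5.invols Q z := by
  have := Fact.mk Nat.prime_two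
  have := Fact.mk Nat.prime_five
  have hP : ∀ (H : Subgroup G) [H.Normal], (Phi H).Normal := fun H _ =>
    normalizer_eq_top_iff.1 (top_le_iff.1 fun g _ => normalizer_le_Phi H nN)
  have k : ∀ (H : Subgroup G) [H.Normal], IsPGroup 2 H → σ ∉ 𝐂(H) → (∀ x ∈ H, x * x ∈ Phi H) ∧ #|H| = 16 * #|Phi H| ∧ H ⊓ 𝐂[σ] ≤ Phi H :=
    fun H _ hH h => by
      have s : ∀ x ∈ H, x * x ∈ Phi H := fun x hx => pow_two x ▸ pow_mem_Phi hH hx
      exact ⟨s, (l5 hH (Phi_le H) (hS _ _ (Phi_le H) s) h5 (normalizer_le_Phi H nN) nN).resolve_left fun e => h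
        (le_centralizer_singleton_iff.1 ((eq_of_sup_Phi inf_le_left ((sup_comm _ _).trans e)).ge.trans inf_le_right))⟩
  obtain ⟨s1, c1, f1⟩ := k Q hQ fun h => hs (hC h)
  have := hP Q
  by_cases hσ : σ ∈ 𝐂(Phi Q)
  · exact case2 hQ c1 h5 h3 hσ (hρ _ inferInstance hσ) f1 (fun h => hr (hC h)) fun h => hs (hC h)
  have hU := hQ.to_le (Phi_le Q)
  obtain ⟨s2, c2, f2⟩ := k _ hU hσ
  have := hP (Phi Q)
  have c3 := card_quo (Phi_le (Phi Q))
  have c4 := card_quo ((Phi_le (Phi Q)).trans (Phi_le Q))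
  have k0 : 0 < #|Phi (Phi Q)| := Nat.card_pos
  have c5 := Nat.eq_of_mul_eq_mul_left k0 (c3.symm.trans (c2.trans (mul_comm _ _)))
  have hπ := QuotientGroup.mk'_surjective (Phi (Phi Q))
  have := Normal.map ‹Q.Normal› _ hπ
  have := Normal.map ‹(Phi Q).Normal› _ hπ
  refine (case1 (hS.quo (Phi (Phi Q))) (hQ.map _) (map_mono (Phi_le Q)) ?_ (sqm s2) (Nat.eq_of_mul_eq_mul_left k0 (by rw [← c4, c1, c3]; ring))
    c5 (σ := QuotientGroup.mk' _ σ) (t := QuotientGroup.mk' _ t) (by rw [← map_pow, h5, map_one]) ?_ ⟨_, t2, map_mul _ _ _⟩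
    ⟨_, hi, by simp only [map_mul, map_inv]⟩).elim
  · rintro _ ⟨x, hx, rfl⟩
    exact ⟨_, s1 x hx, map_mul _ _ _⟩
  · rw [mapC (by norm_num) h5 hQ nN, Subgroup.map_eq_bot_iff, QuotientGroup.ker_mk']
    exact (le_inf f1 inf_le_right).trans f2

theorem lift {p : ℕ} (hp : p.Coprime 2) [Q.Normal] (hQ : IsPGroup 2 Q) {v : G ⧸ Q} (h : v ^ p = 1) :
    ∃ y : G, y ^ p = 1 ∧ QuotientGroup.mk' Q y = v := by
  obtain ⟨x, rfl⟩ := QuotientGroup.mk'_surjective Q v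
  obtain ⟨k, hk⟩ := hQ ⟨x ^ p, (QuotientGroup.eq_one_iff _).1 h⟩
  obtain ⟨m, hm⟩ := exists_pow_eq_self_of_coprime (x := QuotientGroup.mk' Q x) (n := 2 ^ k)
    ((hp.symm.pow_left k).coprime_dvd_right (orderOf_dvd_of_pow_eq_one h))
  refine ⟨(x ^ 2 ^ k) ^ m, ?_, by rw [map_pow, map_pow, hm]⟩
  rw [pow_right_comm, pow_right_comm x,
    show (x ^ p) ^ 2 ^ k = 1 from congrArg Subtype.val hk, one_pow]

theorem a5 : ∃ s t r : alternatingGroup (Fin 5), s ^ 5 = 1 ∧ r ^ 3 = 1 ∧ s ≠ 1 ∧ r ≠ 1 ∧ t * t = 1 ∧ t * s * t⁻¹ * s = 1 :=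
  ⟨⟨finRotate 5, Equiv.Perm.mem_alternatingGroup.2 (by decide)⟩,
    ⟨Equiv.swap 1 4 * Equiv.swap 2 3, Equiv.Perm.mem_alternatingGroup.2 (by decide)⟩,
    ⟨Equiv.swap 0 1 * Equiv.swap 1 2, Equiv.Perm.mem_alternatingGroup.2 (by decide)⟩, by decide⟩

theorem final (hS : SR G) [Q.Normal] (hQ : IsPGroup 2 Q) (hC : 𝐂(Q) ≤ Q) (f : alternatingGroup (Fin 5) →* G ⧸ Q)
    (hf : Function.Injective f) : ((∀ x ∈ Q, x * x = 1) ∧ #|Q| = 16) ∨ ∃ z x σ, H5.Five Q z σ ∧ x ∈ H5.invols Q z := by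
  obtain ⟨s, t, r, h1, h2, h3, h4, h5, h6⟩ := a5
  obtain ⟨σ, a1, a2⟩ := lift (by norm_num) hQ (show f s ^ 5 = 1 by rw [← map_pow, h1, map_one])
  obtain ⟨ρ, b1, b2⟩ := lift (by norm_num) hQ (show f r ^ 3 = 1 by rw [← map_pow, h2, map_one])
  obtain ⟨τ, c1⟩ := QuotientGroup.mk'_surjective Q (f t)
  have k : ∀ x, x ∈ Q ↔ QuotientGroup.mk' Q x = 1 := fun x => (QuotientGroup.eq_one_iff x).symm
  refine (main hS hQ hC a1 b1 (t := τ) (by rwa [k, a2, map_eq_one_iff f hf]) (by rwa [k, b2, map_eq_one_iff f hf])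
    (by rw [k, map_mul, c1, ← map_mul, h5, map_one]) (by
      rw [k, ← map_one f, ← h6]; simp only [map_mul, map_inv, a2, c1]) fun K hK hσ => ?_).imp id fun ⟨z, x, h⟩ => ⟨z, x, σ, h⟩
  rcases (((hK.map _ (QuotientGroup.mk'_surjective Q)).comap f).eq_bot_or_eq_top) with e | e
  · exact (h3 (e.le (mem_comap.2 ⟨σ, hσ, a2⟩))).elim
  · have : ρ ∈ (K.map (QuotientGroup.mk' Q)).comap (QuotientGroup.mk' Q) := by rw [mem_comap, b2]; exact e.ge (mem_top r)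
    rwa [comap_map_eq, QuotientGroup.ker_mk'] at this

end Cfsg.Agent.H4.R4
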