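import Cfsg.Agent.H2.L4g
import Cfsg.Agent.H8.TIset1

/-! Abelian TI `2`-subgroups: neighbours. -/

set_option autoImplicit false
set_option linter.unusedSectionVars false

namespace Cfsg.Agent.H4.TI

open Subgroup Cfsg.Agent.FT Cfsg.Agent.L0 Cfsg.Agent.H8
open Cfsg.Agent.H2.CI (cjm cjm' ea_comm ea_pgroup mem_cj' cj_mem_cj)

universe u

theorem dih {H : Type*} [Group H] [Finite H] {s x : H} (hs : s * s = 1) (hx : x * x = 1) :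
    (∃ j : ℕ, (s * x) ^ j * s * ((s * x) ^ j)⁻¹ = x) ∨ ∃ m j : ℕ, (s * x) ^ m ≠ 1 ∧ (s * x) ^ m * (s * x) ^ m = 1 ∧
      ((s * x) ^ j * s * ((s * x) ^ j)⁻¹ = x * (s * x) ^ m ∨ (s * x) ^ j * x * ((s * x) ^ j)⁻¹ = x * (s * x) ^ m) := by
  set d := s * x with hd
  have e1 : s * d * s⁻¹ = d⁻¹ := by
    rw [hd, mul_inv_rev, inv_eq_of_mul_eq_one_right hs, inv_eq_of_mul_eq_one_right hx, ← mul_assoc, hs, one_mul]
  have e2 : x = s * d := by rw [hd, ← mul_assoc, hs, one_mul]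
  have e3 : ∀ j : ℕ, s * d ^ j = (d ^ j)⁻¹ * s := fun j => by
    rw [← inv_pow, ← e1, conj_pow]; group
  have e4 : ∀ j : ℕ, s * (d ^ j)⁻¹ = d ^ j * s := fun j => by
    calc s * (d ^ j)⁻¹ = d ^ j * ((d ^ j)⁻¹ * s) * (d ^ j)⁻¹ := by group
      _ = _ := by rw [← e3]; group
  have h0 := pow_orderOf_eq_one d
  have hp := orderOf_pos d
  obtain ⟨k, hk | hk⟩ := Nat.even_or_odd' (orderOf d)
  · have hz : d ^ k * d ^ k = 1 := by rw [← pow_add, ← two_mul, ← hk, h0]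
    have hne : d ^ k ≠ 1 := pow_ne_one_of_lt_orderOf (by omega) (by omega)
    have hi : (d ^ k)⁻¹ = d ^ k := inv_eq_of_mul_eq_one_right hz
    obtain ⟨j, hj | hj⟩ := Nat.even_or_odd' k
    · refine Or.inr ⟨k, j, hne, hz, Or.inr ?_⟩
      calc d ^ j * x * (d ^ j)⁻¹ = d ^ j * (s * (d ^ j)⁻¹) * d := by rw [e2]; group
        _ = d ^ k * s * d := by rw [e4, hj]; group
        _ = (s * (d ^ k)⁻¹) * d := by rw [e4]
        _ = _ := by rw [hi, e2]; group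
    · refine Or.inr ⟨k, j, hne, hz, Or.inl ?_⟩
      calc d ^ j * s * (d ^ j)⁻¹ = d ^ j * (s * (d ^ j)⁻¹) := by group
        _ = d ^ (2 * j) * s := by rw [e4]; group
        _ = s * (d ^ (2 * j))⁻¹ := (e4 _).symm
        _ = s * d * (d ^ k)⁻¹ := by rw [hj]; group
        _ = _ := by rw [hi, ← e2]
  · refine Or.inl ⟨k, ?_⟩
    calc d ^ k * s * (d ^ k)⁻¹ = d ^ k * (s * (d ^ k)⁻¹) := by group
      _ = d ^ (2 * k) * s := by rw [e4]; group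
      _ = s * (d ^ (2 * k))⁻¹ := (e4 _).symm
      _ = s * d * (d ^ (2 * k + 1))⁻¹ := by group
      _ = _ := by rw [← hk, h0, ← e2]; group

variable {G : Type u} [Group G] [Finite G] {Γ : Set (Subgroup G)} {A B C D E F P Q R S T X Y : Subgroup G}
  {a b c d e f g k l n s t v w x y z : G}

/-- `g` and `k` act on `F` in the same way -/
def Eqv (F : Subgroup G) (g k : G) : Prop := ∀ f ∈ F, g * f * g⁻¹ = k * f * k⁻¹

theorem cent (h : g ∈ 𝐂(F)) (hf : f ∈ F) : g * f * g⁻¹ = f := by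
  rw [← mem_centralizer_iff.1 h f hf]; group

theorem cc (h : a * b = b * a) : a * b * a⁻¹ = b := by rw [h]; group

theorem cc' (h : a * b * a⁻¹ = b) : a * b = b * a := by
  calc a * b = a * b * a⁻¹ * a := by group
    _ = _ := by rw [h]

theorem ie (h : a * a = 1) : a⁻¹ = a := inv_eq_of_mul_eq_one_right h

theorem sqc (h : a * a = 1) (g : G) : g * a * g⁻¹ * (g * a * g⁻¹) = 1 := WA.GS.G0.sq_conj h g

theorem cne (h : a ≠ 1) (g : G) : g * a * g⁻¹ ≠ 1 := fun e => h (by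
  calc a = g⁻¹ * (g * a * g⁻¹) * g := by group
    _ = 1 := by rw [e]; group)

theorem ccj (h : a * b = b * a) (g : G) : g * a * g⁻¹ * (g * b * g⁻¹) = g * b * g⁻¹ * (g * a * g⁻¹) := by
  calc _ = g * (a * b) * g⁻¹ := by group
    _ = _ := by rw [h]; group

theorem ccj' (h : g * a * g⁻¹ * b = b * (g * a * g⁻¹)) : a * (g⁻¹ * b * g) = g⁻¹ * b * g * a := by
  calc _ = g⁻¹ * (g * a * g⁻¹ * b) * g := by group
    _ = _ := by rw [h]; group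

theorem rC (h : a * b = b * a) : (a * b = b * a ∧ a⁻¹ * b = b * a⁻¹ ∧ a * b⁻¹ = b⁻¹ * a ∧ a⁻¹ * b⁻¹ = b⁻¹ * a⁻¹) ∧
    (∀ x, a * (b * x) = b * (a * x)) ∧ (∀ x, a⁻¹ * (b * x) = b * (a⁻¹ * x)) ∧
    (∀ x, a * (b⁻¹ * x) = b⁻¹ * (a * x)) ∧ ∀ x, a⁻¹ * (b⁻¹ * x) = b⁻¹ * (a⁻¹ * x) := by
  have h' : Commute a b := h
  refine ⟨⟨h, h'.inv_left, h'.inv_right, h'.inv_inv⟩, fun x => ?_, fun x => ?_, fun x => ?_, fun x => ?_⟩
  · rw [← mul_assoc, h, mul_assoc]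
  · rw [← mul_assoc, h'.inv_left.eq, mul_assoc]
  · rw [← mul_assoc, h'.inv_right.eq, mul_assoc]
  · rw [← mul_assoc, h'.inv_inv.eq, mul_assoc]

theorem rI (h : a * a = 1) : a⁻¹ = a ∧ a * a = 1 ∧ ∀ x, a * (a * x) = x :=
  ⟨ie h, h, fun x => by rw [← mul_assoc, h, one_mul]⟩

theorem rJ (h : g * a * g⁻¹ = b) : (g * a = b * g ∧ g * a⁻¹ = b⁻¹ * g) ∧
    (∀ x, g * (a * x) = b * (g * x)) ∧ ∀ x, g * (a⁻¹ * x) = b⁻¹ * (g * x) := by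
  subst h
  refine ⟨⟨?_, ?_⟩, fun x => ?_, fun x => ?_⟩ <;> group

/-- normal form of a word under the given rewriting rules -/
macro "gsp" "[" ts:term,* "]" : tactic =>
  `(tactic| simp only [mul_assoc, mul_inv_rev, inv_inv, mul_one, one_mul, inv_one, mul_inv_cancel, inv_mul_cancel,
    mul_inv_cancel_left, inv_mul_cancel_left, $[$ts:term],*])

theorem dihm (hs : s ∈ 𝐍(F)) (hx : x ∈ 𝐍(F)) (hs2 : s * s ∈ 𝐂(F)) (hx2 : x * x ∈ 𝐂(F)) :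
    (∃ j : ℕ, Eqv F ((s * x) ^ j * s * ((s * x) ^ j)⁻¹) x) ∨ ∃ z ∈ 𝐍(F), ∃ j : ℕ, (∃ f ∈ F, z * f * z⁻¹ ≠ f) ∧
      Eqv F (z * z) 1 ∧ Eqv F (z * s) (s * z) ∧ Eqv F (z * x) (x * z) ∧
      (Eqv F ((s * x) ^ j * s * ((s * x) ^ j)⁻¹) (x * z) ∨ Eqv F ((s * x) ^ j * x * ((s * x) ^ j)⁻¹) (x * z)) := by
  let ρ := F.normalizerMonoidHom
  have key : ∀ g k : 𝐍(F), ρ g = ρ k → Eqv F g k := fun g k e f hf => by
    have := congrArg Subtype.val (DFunLike.congr_fun e ⟨f, hf⟩)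
    exact this
  have key' : ∀ g : 𝐍(F), (∀ f ∈ F, (g : G) * f * (g : G)⁻¹ = f) → ρ g = 1 := fun g h => by
    ext f; exact h f f.2
  set s' : 𝐍(F) := ⟨s, hs⟩
  set x' : 𝐍(F) := ⟨x, hx⟩
  have h1 : ρ s' * ρ s' = 1 := by rw [← map_mul]; exact key' _ fun f hf => cent hs2 hf
  have h2 : ρ x' * ρ x' = 1 := by rw [← map_mul]; exact key' _ fun f hf => cent hx2 hf
  rcases dih h1 h2 with ⟨j, e⟩ | ⟨m, j, h3, h4, h5⟩
  · exact Or.inl ⟨j, key ((s' * x') ^ j * s' * ((s' * x') ^ j)⁻¹) x' (by simpa using e)⟩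
  · have hi := ie h4
    have e1 : ρ s' * (ρ s' * ρ x') * (ρ s')⁻¹ = (ρ s' * ρ x')⁻¹ := by
      rw [mul_inv_rev, ie h1, ie h2, ← mul_assoc, h1, one_mul]
    have e2 : ρ s' * (ρ s' * ρ x') ^ m = (ρ s' * ρ x') ^ m * ρ s' := cc' (by rw [← conj_pow, e1, inv_pow, hi])
    have e3 : ρ x' * (ρ s' * ρ x') ^ m = (ρ s' * ρ x') ^ m * ρ x' := by
      calc _ = ρ s' * ((ρ s' * ρ x') * (ρ s' * ρ x') ^ m) := by rw [← mul_assoc, ← mul_assoc, h1, one_mul]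
        _ = ρ s' * (ρ s' * ρ x') ^ m * (ρ s' * ρ x') := by rw [← pow_succ', pow_succ, ← mul_assoc]
        _ = _ := by rw [e2, mul_assoc, ← mul_assoc (ρ s'), h1, one_mul]
    refine Or.inr ⟨_, ((s' * x') ^ m).2, j, ?_, key ((s' * x') ^ m * (s' * x') ^ m) 1 (by simpa using h4),
      key ((s' * x') ^ m * s') (s' * (s' * x') ^ m) (by simpa using e2.symm),
      key ((s' * x') ^ m * x') (x' * (s' * x') ^ m) (by simpa using e3.symm), h5.imp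
        (fun e => key ((s' * x') ^ j * s' * ((s' * x') ^ j)⁻¹) (x' * (s' * x') ^ m) (by simpa using e))
        (fun e => key ((s' * x') ^ j * x' * ((s' * x') ^ j)⁻¹) (x' * (s' * x') ^ m) (by simpa using e))⟩
    by_contra hn
    push Not at hn
    exact h3 (by simpa using key' _ hn)

theorem Eqv.conj (h : Eqv F (z * x) (x * z)) (hf : f ∈ F) :
    z * (x * f * x⁻¹) * z⁻¹ = x * (z * f * z⁻¹) * x⁻¹ := by
  calc _ = z * x * f * (z * x)⁻¹ := by group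
    _ = _ := by rw [h f hf]; group

theorem core {F1 : Subgroup G} (hF : ∀ f ∈ F, f * f = 1) (hx : x ∈ 𝐍(F)) (hz : z ∈ 𝐍(F)) (hx2 : x * x ∈ 𝐂(F))
    (hz2 : Eqv F (z * z) 1) (hc : Eqv F (z * x) (x * z)) (hy : Eqv F y (x * z))
    (hb : ∀ f ∈ F, x * f * x⁻¹ * f ∈ F1 → x * f * x⁻¹ = f) (hb' : ∃ f ∈ F, x * f * x⁻¹ ≠ f)
    (hti : ∀ δ ∈ F, δ ∉ F1 → x * δ * x⁻¹ = δ → y * δ * y⁻¹ = δ → ∀ f ∈ F, (x * f * x⁻¹ = f ↔ y * f * y⁻¹ = f))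
    (hXF : X ≤ F) (hX : ∀ a ∈ X, z * a * z⁻¹ ∈ X) (hX1 : ∀ a ∈ X, x * a * x⁻¹ = a → a = 1)
    (hd : ∀ f ∈ F, ∃ a ∈ X, x * (a * f) * x⁻¹ = a * f) (hf : f ∈ F) : z * f * z⁻¹ = f := by
  have z2 : ∀ f ∈ F, z * (z * f * z⁻¹) * z⁻¹ = f := fun f hf => by
    calc _ = z * z * f * (z * z)⁻¹ := by group
      _ = _ := by rw [hz2 f hf]; group
  have x2 : ∀ f ∈ F, x * (x * f * x⁻¹) * x⁻¹ = f := fun f hf => by
    calc _ = x * x * f * (x * x)⁻¹ := by group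
      _ = _ := cent hx2 hf
  have hy' : ∀ f ∈ F, y * f * y⁻¹ = x * (z * f * z⁻¹) * x⁻¹ := fun f hf => by rw [hy f hf]; group
  have fx : ∀ f ∈ F, x * (x * f * x⁻¹ * f) * x⁻¹ = x * f * x⁻¹ * f := fun f hf => by
    calc _ = x * (x * f * x⁻¹) * x⁻¹ * (x * f * x⁻¹) := by group
      _ = _ := by rw [x2 f hf, ea_comm hF hf (cjm hx hf)]
  obtain ⟨f1, h1, h2, h3⟩ : ∃ f ∈ F, x * f * x⁻¹ ≠ f ∧ z * (x * f * x⁻¹ * f) * z⁻¹ = x * f * x⁻¹ * f := by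
    obtain ⟨f0, h0, h1⟩ := hb'
    by_cases e : z * (x * f0 * x⁻¹ * f0) * z⁻¹ = x * f0 * x⁻¹ * f0
    · exact ⟨f0, h0, h1, e⟩
    have h2 := cjm hz h0
    have e1 : x * (f0 * (z * f0 * z⁻¹)) * x⁻¹ * (f0 * (z * f0 * z⁻¹)) =
        x * f0 * x⁻¹ * f0 * (z * (x * f0 * x⁻¹ * f0) * z⁻¹) := by
      calc _ = x * f0 * x⁻¹ * (x * (z * f0 * z⁻¹) * x⁻¹ * f0) * (z * f0 * z⁻¹) := by group
        _ = x * f0 * x⁻¹ * f0 * (x * (z * f0 * z⁻¹) * x⁻¹ * (z * f0 * z⁻¹)) := by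
          rw [ea_comm hF (cjm hx h2) h0]; group
        _ = _ := by rw [← hc.conj h0]; group
    have h3 := mul_mem (cjm hx h0) h0
    refine ⟨_, mul_mem h0 h2, fun e' => e ?_, ?_⟩
    · rw [e', hF _ (mul_mem h0 h2)] at e1
      rw [eq_inv_of_mul_eq_one_right e1.symm, ie (hF _ h3)]
    · rw [e1]
      calc _ = z * (x * f0 * x⁻¹ * f0) * z⁻¹ * (z * (z * (x * f0 * x⁻¹ * f0) * z⁻¹) * z⁻¹) := by group
        _ = _ := by rw [z2 _ h3, ea_comm hF (cjm hz h3) h3]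
  have h4 := mul_mem (cjm hx h1) h1
  have ti := hti _ h4 (fun e => h2 (hb _ h1 e)) (fx _ h1) (by rw [hy' _ h4, h3, fx _ h1])
  have k1 : ∀ f ∈ F, x * f * x⁻¹ = f → z * f * z⁻¹ = f := fun f hf e => by
    have := (ti f hf).1 e
    rw [hy' f hf] at this
    rw [← x2 _ (cjm hz hf), this, e]
  have k2 : ∀ a ∈ X, z * a * z⁻¹ = a := fun a ha => by
    have ha' := hXF ha
    have h5 := cjm hx ha'
    have h6 := cjm hz ha'
    have h7 := cjm hx h6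
    have h8 : x * (x * (z * a * z⁻¹) * x⁻¹ * a) * x⁻¹ = x * (z * a * z⁻¹) * x⁻¹ * a := by
      refine (ti _ (mul_mem h7 ha')).2 ?_
      rw [hy' _ (mul_mem h7 ha')]
      calc _ = x * (z * (x * (z * a * z⁻¹) * x⁻¹) * z⁻¹) * x⁻¹ * (x * (z * a * z⁻¹) * x⁻¹) := by group
        _ = _ := by rw [hc.conj h6, z2 _ ha', x2 _ ha', ea_comm hF ha' h7]
    have h9 : z * a * z⁻¹ * (x * a * x⁻¹) = x * (z * a * z⁻¹) * x⁻¹ * a := by
      rw [← h8]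
      calc _ = x * (x * (z * a * z⁻¹) * x⁻¹) * x⁻¹ * (x * a * x⁻¹) := by rw [x2 _ h6]
        _ = _ := by group
    have := hX1 _ (mul_mem (hX a ha) ha) (by
      calc _ = x * (z * a * z⁻¹) * x⁻¹ * a * (a⁻¹ * (x * a * x⁻¹)) := by group
        _ = z * a * z⁻¹ * (x * a * x⁻¹ * a * (x * a * x⁻¹)) := by rw [← h9, ie (hF _ ha')]; group
        _ = _ := by rw [ea_comm hF h5 ha', mul_assoc a, hF _ h5, mul_one])
    rw [eq_inv_of_mul_eq_one_left this, ie (hF _ ha')]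
  obtain ⟨a, ha, e⟩ := hd f hf
  have := k1 _ (mul_mem (hXF ha) hf) e
  calc z * f * z⁻¹ = (z * a * z⁻¹)⁻¹ * (z * (a * f) * z⁻¹) := by group
    _ = _ := by rw [this, k2 a ha]; group

theorem ax {F1 : Subgroup G} (hF : ∀ f ∈ F, f * f = 1) (hs : s ∈ 𝐍(F)) (hx : x ∈ 𝐍(F)) (hs2 : s * s ∈ 𝐂(F))
    (hx2 : x * x ∈ 𝐂(F)) (hb : ∀ f ∈ F, x * f * x⁻¹ * f ∈ F1 → x * f * x⁻¹ = f) (hb' : ∃ f ∈ F, x * f * x⁻¹ ≠ f)
    (hti : ∀ j : ℕ, ∀ y, y = s ∨ y = x → ∀ δ ∈ F, δ ∉ F1 → x * δ * x⁻¹ = δ →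
      (s * x) ^ j * y * ((s * x) ^ j)⁻¹ * δ * ((s * x) ^ j * y * ((s * x) ^ j)⁻¹)⁻¹ = δ → ∀ f ∈ F, (x * f * x⁻¹ = f ↔
        (s * x) ^ j * y * ((s * x) ^ j)⁻¹ * f * ((s * x) ^ j * y * ((s * x) ^ j)⁻¹)⁻¹ = f))
    (hXF : X ≤ F) (h1 : ∀ f ∈ F, s * f * s⁻¹ * f ∈ X) (h2 : ∀ a ∈ X, ∃ f ∈ F, s * f * s⁻¹ * f = a)
    (hX1 : ∀ a ∈ X, x * a * x⁻¹ = a → a = 1) (hd : ∀ f ∈ F, ∃ a ∈ X, x * (a * f) * x⁻¹ = a * f) :
    ∃ j : ℕ, Eqv F ((s * x) ^ j * s * ((s * x) ^ j)⁻¹) x := by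
  rcases dihm hs hx hs2 hx2 with h | ⟨z, hz, j, ⟨f, hf, hne⟩, h3, h4, h5, h6⟩
  · exact h
  have hX : ∀ a ∈ X, z * a * z⁻¹ ∈ X := fun a ha => by
    obtain ⟨f, hf, rfl⟩ := h2 a ha
    have := h1 _ (cjm hz hf)
    rw [← h4.conj hf] at this
    convert this using 1
    group
  rcases h6 with h6 | h6
  · exact (hne (core hF hx hz hx2 h3 h5 h6 hb hb' (hti j s (Or.inl rfl)) hXF hX hX1 hd hf)).elim
  · exact (hne (core hF hx hz hx2 h3 h5 h6 hb hb' (hti j x (Or.inr rfl)) hXF hX hX1 hd hf)).elim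

theorem onto (hc : #|Y| ≤ #|X|) (φ : G → G) (hm : ∀ a ∈ X, φ a ∈ Y) (hi : ∀ a ∈ X, ∀ b ∈ X, φ a = φ b → a = b)
    (hy : y ∈ Y) : ∃ a ∈ X, φ a = y := by
  let ψ : X → Y := fun a => ⟨φ a, hm a a.2⟩
  have h1 : Function.Injective ψ := fun a b e => Subtype.ext (hi _ a.2 _ b.2 (congrArg Subtype.val e))
  obtain ⟨a, e⟩ := ((Nat.bijective_iff_injective_and_card ψ).2
    ⟨h1, le_antisymm (Nat.card_le_card_of_injective ψ h1) hc⟩).2 ⟨y, hy⟩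
  exact ⟨a, a.2, congrArg Subtype.val e⟩

theorem card_le (φ : G → G) (hm : ∀ a ∈ X, φ a ∈ Y) (hi : ∀ a ∈ X, ∀ b ∈ X, φ a = φ b → a = b) : #|X| ≤ #|Y| :=
  Nat.card_le_card_of_injective (fun a : X => (⟨φ a, hm a a.2⟩ : Y))
    fun a b e => Subtype.ext (hi _ a.2 _ b.2 (congrArg Subtype.val e))

theorem fix (hP : IsPGroup 2 P) (hB : IsPGroup 2 B) (h1 : B ≠ ⊥) (hn : P ≤ 𝐍(B)) :
    ∃ v ∈ B, v ≠ 1 ∧ v * v = 1 ∧ ∀ g ∈ P, g * v = v * g := by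
  have := Fact.mk Nat.prime_two
  have h2 := H2.CI.pgroup_sup hP hB hn
  have := h2.isNilpotent
  obtain ⟨v, hv, h3, h4⟩ := H9.exists_involution_of_ne_bot (hB.to_le inf_le_left)
    (inf_centralizer_ne_bot_of_isNilpotent (N := B) (P := B ⊔ P) le_sup_left (sup_le le_normalizer hn) h1)
  exact ⟨v, hv.1, h3, h4, fun g hg => mem_centralizer_iff.1 hv.2 g (mem_sup_right hg)⟩

end Cfsg.Agent.H4.TI
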