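import Cfsg.Agent.H4.TI9

/-! Abelian TI subgroups `ℤ₄ × ℤ₄`: the subgroup of order `64`. -/

set_option autoImplicit false
set_option linter.unusedSectionVars false

namespace Cfsg.Agent.H4.TI

open Subgroup Cfsg.Agent.FT Cfsg.Agent.L0 Cfsg.Agent.H8
open Cfsg.Agent.H2.CI (cjm cjm' ea_comm ea_pgroup mem_cj' cj_mem_cj)

universe u

variable {G : Type u} [Group G] [Finite G] {Γ : Set (Subgroup G)} {A B C D E F P Q R S T X Y : Subgroup G}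
  {a b c d e f g k l n s t v w x y z : G}

open Cfsg.Agent.H2.L4 (Ty)

theorem cle (h : X ≤ Y) (hg : g ∈ 𝐂(Y)) : g ∈ 𝐂(X) := centralizer_le h hg

/-- every member is the centre of a good triangle and no two members commute -/
structure GF (Γ : Set (Subgroup G)) : Prop extends HF Γ where
  gt : ∀ B ∈ Γ, ∃ A ∈ Γ, ∃ D ∈ Γ, GT A B D
  nc : ∀ B ∈ Γ, ∀ C ∈ Γ, Cm C B → C = B

theorem TF.gf (h : TF Γ) (hO : pCore 2 G = ⊥) (hB : B ∈ Γ) : GF Γ := by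
  have := h.exists_tr hO hB
  simp only [NT, not_forall, not_not] at this
  obtain ⟨A, hA, B, hB, D, hD, p⟩ := this
  have h' : HF Γ := ⟨h, h.trsq hA hB hD p, h.e4 hA hB p.ab, h.tr4 hA hB hD p⟩
  obtain ⟨D, hD, p⟩ := h'.good hA hB hD p
  have k : ∀ C ∈ Γ, ∃ A ∈ Γ, ∃ D ∈ Γ, GT A C D := fun C hC => by
    obtain ⟨g, rfl⟩ := h.tr B hB C hC
    exact ⟨_, h.cj A hA g, _, h.cj D hD g, p.cj g⟩
  exact ⟨h', k, fun B hB C hC e => let ⟨_, hA, _, hD, p⟩ := k B hB; h'.nc0 hA hB hD p hC e⟩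

namespace GF

variable (h : GF Γ) (hA : A ∈ Γ) (hB : B ∈ Γ)
include h hA hB

theorem p1 (hC : C ∈ Γ) (t : T2 A B) (t' : T2 C B) (r : Rl A C) : om C ≤ om A ⊔ om B := fun d hd => by
  by_cases d1 : d = 1
  · rw [d1]; exact one_mem _
  obtain ⟨a, ha, a1, -, v, hv, k, hk, rfl⟩ := h.dc hA hB hC t t' r hd d1
  obtain ⟨w, hw, w1⟩ := h.omi hB
  obtain ⟨g, hg, e⟩ := h.trE hA hB t (mul_mem_sup ha hv) (fun e => a1 (h.one hA hB (h.tne hA hB t) (h.om1 hA ha)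
    (eq_inv_of_mul_eq_one_left e ▸ inv_mem (h.om1 hB hv)))) (mem_sup_right hw) w1
  have k1 : g * (a * v * k) * g⁻¹ = w * k := by
    calc _ = g * (a * v) * g⁻¹ * (g * k * g⁻¹) := by group
      _ = _ := by rw [e, cc (mem_centralizer_iff.1 hk g hg)]
  obtain ⟨b, hb, b2⟩ := h.ne B hB
  obtain ⟨c, hc, c2⟩ := h.ne A hA
  have hC' := h.cj C hC g
  have k2 := k1 ▸ h.omc hC hd g
  have k3 := h.nc B hB _ hC' (h.cm_of' hB hC' hb b2 (h.om1 hC' k2) (k1 ▸ cne d1 g) (by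
    gsp [rC (h.omm hB hw hb).symm, rC (mem_centralizer_iff.1 hk b (mem_sup_right hb))])).symm
  rw [k3, mul_mem_cancel_left hw] at k2
  rw [h.f1 hB hA t.symm k2 hc c2 (mem_centralizer_iff.1 hk c (mem_sup_left hc)), mul_one]
  exact mul_mem_sup ha hv

theorem cjb (hC : C ∈ Γ) (t : T2 A B) (t' : T2 C B) (k : om C ≤ om A ⊔ om B) : ∃ b ∈ B, H8.cj b A = C := by
  obtain ⟨c, hc, c1⟩ := h.omi hC
  obtain ⟨a, ha, v, hv, rfl⟩ := (h.eaE hA hB t.rel).2 c (k hc)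
  obtain ⟨b, hb, e⟩ := h.e1 hA hB t ha (fun e => c1 (h.one hC hB (h.tne hC hB t') (h.om1 hC hc) (by
    simpa [e] using h.om1 hB hv))) hv
  exact ⟨b, hb, h.ti _ (h.cj A hA b) C hC _ (e ▸ conj_mem_cj b (h.om1 hA ha)) (h.om1 hC hc) c1⟩

theorem supeq (hC : C ∈ Γ) (t : T2 A B) (t' : T2 C B) (k : om C ≤ om A ⊔ om B) : C ⊔ B = A ⊔ B := by
  obtain ⟨b, hb, rfl⟩ := h.cjb hA hB hC t t' k
  rw [← cj_eq_self (le_normalizer (mem_sup_right hb : b ∈ A ⊔ B)), cj_sup, cj_eq_self (le_normalizer hb)]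

theorem cardE (t : T2 A B) : #|(om A ⊔ om B : Subgroup G)| = 16 := by
  have := card_sup_mul_card_inf (N := om A) (H := om B) fun v hv => nrm_of_cm fun a ha => (h.rc hA hB t.rel ha hv).symm
  rwa [h.c4 A hA, h.c4 B hB, show om A ⊓ om B = ⊥ from eq_bot_iff.2 fun x hx =>
    h.one hA hB (h.tne hA hB t) (h.om1 hA hx.1) (h.om1 hB hx.2), card_bot, mul_one] at this

theorem PN (t : T2 A B) : B ⊔ om A ≤ 𝐍(B) := sup_le le_normalizer fun _ ha => h.rn hA hB t.rel (h.om1 hA ha) (h.om2 hA ha)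

theorem PC (t : T2 A B) (hx : x ∈ B ⊔ om A) (hv : v ∈ om B) : x * v = v * x := by
  obtain ⟨b, hb, a, ha, rfl⟩ := h.mP hA hB t hx
  gsp [rC (h.rc hA hB t.rel ha hv), rC (h.omm hB hv hb).symm]

theorem PB (t : T2 A B) (hx : x ∈ B ⊔ om A) (hc : x ∈ 𝐂(B)) : x ∈ B := by
  obtain ⟨b, hb, a, ha, rfl⟩ := h.mP hA hB t hx
  obtain ⟨y, hy, y2⟩ := h.ne B hB
  rwa [h.f1 hA hB t ha hy y2 (mem_centralizer_iff.1 ((mul_mem_cancel_left (cen (h.ab B hB b hb))).1 hc) y hy), mul_one]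

variable (hD : D ∈ Γ) (p : GT A B D)
include hD p

theorem Peq : B ⊔ om D = B ⊔ om A :=
  le_antisymm (sup_le le_sup_left p.le) (sup_le le_sup_left (h.gts hA hB hD p).le)

theorem ty : Ty (om B) (om A ⊔ om B) (om D ⊔ om B) (B ⊔ om A) := by
  obtain ⟨k1, k2⟩ := h.eaE hA hB p.ab.rel
  obtain ⟨k3, k4⟩ := h.eaE hD hB p.db.rel
  have ce : ∀ e ∈ om A ⊔ om B, ∀ u ∈ om D ⊔ om B, e * u = u * e → e ∈ om B ∨ u ∈ om B := fun e he u hu k => by
    obtain ⟨a, ha, v, hv, rfl⟩ := k2 e he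
    obtain ⟨d, hd, w, hw, rfl⟩ := k4 u hu
    by_contra hn
    push Not at hn
    refine p.nr (h.rl_om hA hD ha (fun e => hn.1 (by simpa [e] using hv)) hd (fun e => hn.2 (by simpa [e] using hw)) ?_)
    calc _ = a * v * (d * w) * (v * w)⁻¹ := by gsp [rC (h.rc hD hB p.db.rel hd hv).symm, rC (h.omm hB hw (h.om1 hB hv))]
      _ = _ := by rw [k]; gsp [rC (h.rc hA hB p.ab.rel ha hw).symm, rC (h.omm hB hw (h.om1 hB hv))]
  refine ⟨h.c4 B hB, h.cardE hA hB p.ab, h.cardE hD hB p.db, k1, k3, le_antisymm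
    (fun x hx => (ce x hx.1 x hx.2 rfl).elim id id) (le_inf le_sup_right le_sup_right), le_antisymm
    (sup_le (sup_le le_sup_right fun v hv => mem_sup_left (h.om1 hB hv)) (sup_le p.le fun v hv => mem_sup_left (h.om1 hB hv)))
    (sup_le (fun b hb => ?_) (le_sup_left.trans le_sup_left)),
    sup_le (fun _ => h.nF h.ee hB k1 le_sup_right) (le_sup_left.trans le_normalizer), h.Peq hA hB hD p ▸
    sup_le (fun _ => h.nF h.ee hB k3 le_sup_right) (le_sup_left.trans le_normalizer), ce⟩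
  by_cases b2 : b * b = 1
  · exact mem_sup_left (mem_sup_right (h.om3 hB hb b2))
  obtain ⟨a, ha, e⟩ := h.exi hA hB p.ab hb
  obtain ⟨v, hv, k⟩ := h.gd' hA hB hD p hb b2 ha e
  exact (mul_mem_cancel_right (mem_sup_left (mem_sup_right hv))).1
    ((mul_mem_cancel_right (mem_sup_left (mem_sup_left ha))).1 (mem_sup_right (mem_sup_left k)))

theorem sw (hg : g ∈ 𝐍((B ⊔ om A : Subgroup G))) : H8.cj g (om A ⊔ om B) = om A ⊔ om B ∨ H8.cj g (om A ⊔ om B) = om D ⊔ om B :=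
  have q := h.ty hA hB hD p
  q.eq_or (cj_le_of_mem_normalizer hg q.leE) (H2.L4.sq_cj q.sE g) (by rw [card_cj, q.cE])

theorem nU (hg : g ∈ 𝐍((B ⊔ om A : Subgroup G))) (k : g ∈ 𝐍((om A ⊔ om B : Subgroup G))) :
    g ∈ 𝐍((om D ⊔ om B : Subgroup G)) :=
  cj_eq_self_iff.1 ((h.sw hD hB hA (h.gts hA hB hD p) (h.Peq hA hB hD p ▸ hg)).resolve_right fun e =>
    (h.ty hA hB hD p).ne (cj_injective g ((cj_eq_self k).trans e.symm)))

theorem nbr (hC : C ∈ Γ) (t : T2 C B) (hn : om C ≤ 𝐍((B ⊔ om A : Subgroup G))) :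
    om C ≤ om A ⊔ om B ∨ om C ≤ om D ⊔ om B := by
  refine Or.imp (h.p1 hA hB hC p.ab t) (h.p1 hD hB hC p.db t) ?_
  have p' := h.gts hA hB hD p
  obtain ⟨c, hc, c1, k⟩ : ∃ c ∈ om C, c ≠ 1 ∧ c ∈ 𝐍((om A ⊔ om B : Subgroup G)) := by
    obtain ⟨c, hc, d, hd, k1, k2, k3, k4, k5⟩ := h.four C hC
    have hc' := h.om3 hC hc k1
    have hd' := h.om3 hC hd k2
    rcases h.sw hA hB hD p (hn hc') with e | e
    · exact ⟨c, hc', k3, cj_eq_self_iff.1 e⟩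
    rcases h.sw hA hB hD p (hn hd') with e' | e'
    · exact ⟨d, hd', k4, cj_eq_self_iff.1 e'⟩
    exact ⟨_, mul_mem hc' hd', mne k1 k5, cj_eq_self_iff.1 (by rw [cj_mul, e', ← e, ← cj_mul, k1, cj_one])⟩
  have k' := h.nU hA hB hD p (hn hc) k
  have c2 := h.om2 hC hc
  have k1 : ∀ v ∈ om B, c * v = v * c := fun v hv => h.rc hC hB t.rel hc hv
  obtain ⟨a, ha, a1⟩ := h.omi hA
  obtain ⟨d, hd, d1⟩ := h.omi hD
  obtain ⟨y, hy, l1⟩ := h.nE hA hB p.ab k1 ha a1 (cjm k (mem_sup_left ha))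
  obtain ⟨z, hz, l2⟩ := h.nE hD hB p.db k1 hd d1 (cjm k' (mem_sup_left hd))
  by_cases y2 : y * y = 1
  · exact Or.inl (h.rl_om hA hC ha a1 hc c1 (cc' ((l1 a ha).trans (cc (h.rc hA hB p.ab.rel ha (h.om3 hB hy y2)).symm))).symm)
  by_cases z2 : z * z = 1
  · exact Or.inr (h.rl_om hD hC hd d1 hc c1 (cc' ((l2 d hd).trans (cc (h.rc hD hB p.db.rel hd (h.om3 hB hz z2)).symm))).symm)
  have l3 := h.invt hA hB p.ab hy c2 (fun a ha => (l1 a ha).symm) k1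
  have l4 := h.uc hC hB t hy y2 hz z2 hc ((ivc c2).1 l3) ((ivc c2).1 (h.invt hD hB p.db hz c2 (fun a ha => (l2 a ha).symm) k1))
  obtain ⟨e, he, l5⟩ := h.exi hA hB p.ab hy
  obtain ⟨f, hf, l6⟩ := h.exi hD hB p.db hy
  have q := h.ty hA hB hD p
  have l7 : om A ⊔ om B ⊔ (om D ⊔ om B) ≤ 𝐂[c * e * f] := by
    have m0 : om B ≤ 𝐂[c * e * f] := fun v hv => mem_centralizer_singleton_iff.2 (by
      gsp [rC (k1 v hv).symm, rC (h.rc hA hB p.ab.rel he hv).symm, rC (h.rc hD hB p.db.rel hf hv).symm])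
    refine sup_le (sup_le (fun x hx => ?_) m0) (sup_le (fun x hx => ?_) m0) <;>
      refine mem_centralizer_singleton_iff.2 (cc' ?_).symm
    · calc _ = c * (e * (f * x * f⁻¹) * e⁻¹) * c⁻¹ := by group
        _ = c * (c * x * c⁻¹) * c⁻¹ := by
          rw [← h.tri2 hA hB hD p.toTr hy y2 hf l6 hx, l1 x hx, cc (q.comm (mem_sup_left he) (cjm (q.nE (mem_sup_left hy))
            (mem_sup_left hx)))]
        _ = x := by gsp [rI c2]
    · calc _ = c * (e * (f * x * f⁻¹) * e⁻¹) * c⁻¹ := by group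
        _ = c * (c * x * c⁻¹) * c⁻¹ := by
          rw [cc (h.omm hD hf (h.om1 hD hx)), ← h.tri2 hD hB hA p'.toTr hy y2 he l5 hx, l2 x hx,
            mul_right_cancel (h.cms hD hB p.db hx hy hz l4)]
        _ = x := by gsp [rI c2]
  have l8 := cc (mem_centralizer_singleton_iff.1 (l7 (q.sup.symm ▸ mem_sup_left hy))).symm
  refine (y2 (mul_eq_one_iff_eq_inv.2 (l8.symm.trans ?_))).elim
  calc _ = c * (e * (f * y * f⁻¹) * e⁻¹) * c⁻¹ := by group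
    _ = c * (e * y * e⁻¹)⁻¹ * c⁻¹ := by rw [(ivc (h.om2 hD hf)).2 l6]; group
    _ = _ := by rw [(ivc (h.om2 hA he)).2 l5, inv_inv, l3]

theorem nP (hg : g ∈ 𝐍(B)) (hn : om (H8.cj g A) ≤ 𝐍((B ⊔ om A : Subgroup G))) : g ∈ 𝐍((B ⊔ om A : Subgroup G)) := by
  have q := h.ty hA hB hD p
  refine H9.mem_normalizer_of_conj_mem fun x hx => (?_ : H8.cj g (B ⊔ om A) ≤ _) (conj_mem_cj g hx)
  rw [cj_sup, cj_eq_self hg, cj_om]
  exact sup_le le_sup_left ((h.nbr hA hB hD p (h.cj A hA g) (p.ab.cjN hg) hn).elim (fun k => le_sup_left.trans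
    ((sup_le k le_sup_right).trans q.leE)) fun k => le_sup_left.trans ((sup_le k le_sup_right).trans q.leU))

theorem twoN (hT : IsPGroup 2 T) (h1 : B ⊔ om A ≤ T) (h2 : T ≤ 𝐍(B)) : T ≤ 𝐍((B ⊔ om A : Subgroup G)) := by
  have := Fact.mk Nat.prime_two
  by_contra hn
  obtain ⟨g, hg, k⟩ := SetLike.exists_of_lt (lt_inf_normalizer_of_pgroup hT
    (lt_of_le_of_ne inf_le_left fun e => hn (e ▸ inf_le_right) : T ⊓ 𝐍((B ⊔ om A : Subgroup G)) < T))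
  refine k ⟨hg.1, h.nP hA hB hD p (h2 hg.1) ?_⟩
  rw [← cj_om]
  exact (cj_le_of_mem_normalizer hg.2 (le_inf (le_sup_right.trans h1) (le_sup_right.trans le_normalizer))).trans inf_le_right

theorem r0 (hc : g ∈ 𝐂(B)) (hg : g ∈ 𝐍((B ⊔ om A : Subgroup G))) : g ∈ 𝐍((om A ⊔ om B : Subgroup G)) := by
  refine cj_eq_self_iff.1 ((h.sw hA hB hD p hg).resolve_right fun e => ?_)
  have q := h.ty hA hB hD p
  have k0 : g * g ∈ 𝐍((om A ⊔ om B : Subgroup G)) := cj_eq_self_iff.1 (by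
    rw [cj_mul, e]
    exact (h.sw hD hB hA (h.gts hA hB hD p) (h.Peq hA hB hD p ▸ hg)).resolve_left fun e' => q.ne (cj_injective g (e.trans e'.symm)))
  obtain ⟨a, ha, c, hc', k1, k2, k3, k4, k5⟩ := h.four A hA
  have ha' := h.om3 hA ha k1
  obtain ⟨y, hy, l1⟩ := h.nE hA hB p.ab (fun v hv => cc' (cent (mul_mem hc hc) (h.om1 hB hv))) ha' k3
    (cjm k0 (mem_sup_left ha'))
  have key : ∀ a ∈ om A, a ≠ 1 → y * y ≠ 1 ∧ y * a * y⁻¹ * a = y * y := fun a ha a1 => by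
    have a2 := h.om2 hA ha
    have m1 : g * a * g⁻¹ * a ∈ B := h.PB hA hB p.ab (mul_mem (cjm hg (mem_sup_right ha)) (mem_sup_right ha)) (by
      have := mul_mem hc (cjC (h.PN hA hB p.ab (mem_sup_right ha)) (inv_mem hc))
      rw [ie a2] at this
      simpa only [mul_assoc] using this)
    have m2 := cent hc m1
    have m3 : g * a * g⁻¹ * a * (g * a * g⁻¹ * a) ≠ 1 := fun k => by
      have m4 : g * a * g⁻¹ ∈ om B := q.memZ ((mul_mem_cancel_right (mem_sup_left ha)).1 (mem_sup_right (h.om3 hB m1 k)))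
        (e ▸ conj_mem_cj g (mem_sup_left ha))
      have m5 := cent (inv_mem hc) (h.om1 hB m4)
      rw [show g⁻¹ * (g * a * g⁻¹) * g⁻¹⁻¹ = a by group] at m5
      exact a1 (h.one hA hB (h.tne hA hB p.ab) (h.om1 hA ha) (m5 ▸ h.om1 hB m4))
    have m4 : y * a * y⁻¹ * a = g * a * g⁻¹ * a * a * (g * a * g⁻¹ * a)⁻¹ * a := by
      rw [← l1 a ha]
      calc _ = g * (g * a * g⁻¹ * a) * g⁻¹ * (g * a * g⁻¹)⁻¹ * a := by group
        _ = _ := by rw [m2]; gsp [rI a2]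
    have m5 := h.cme hA hB p.ab ha a1 hy m1 m4
    refine ⟨m5 ▸ m3, ?_⟩
    rw [m4, m5]
    gsp [rI a2]
  have hc'' := h.om3 hA hc' k2
  exact k5 (h.inj hA hB p.ab hy (key a ha' k3).1 ha' hc'' ((key a ha' k3).2.trans (key c hc'' k4).2.symm))

theorem MP : 𝐍(B) ≤ 𝐍((B ⊔ om A : Subgroup G)) := fun m hm => by
  have q := h.ty hA hB hD p
  have k1 : QQ B ≤ 𝐍((B ⊔ om A : Subgroup G)) := le_sup_left.trans (h.twoN hA hB hD p
    (H2.CI.pgroup_sup q.pg (pgQ B) fun _ hx => nQ (h.PN hA hB p.ab hx)) le_sup_right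
    (sup_le (fun _ => Qn) (h.PN hA hB p.ab)))
  let N := (𝐍(B) ⊓ 𝐂(om B)) ⊓ ⨅ r ∈ QQ B ⊓ 𝐂(B), St (om B) r
  have mN : ∀ g, g ∈ N ↔ (g ∈ 𝐍(B) ∧ g ∈ 𝐂(om B)) ∧ ∀ r ∈ QQ B ⊓ 𝐂(B), g * r * g⁻¹ * r⁻¹ ∈ om B := fun g => by
    simp only [N, mem_inf, mem_iInf]
    exact and_congr_right fun k => forall₂_congr fun _ _ => and_iff_right (centralizer_le_normalizer _ k.2)
  have k2 : IsPGroup 2 N := fun ⟨g, hg⟩ => by
    obtain ⟨k, ho⟩ := odd2 g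
    obtain ⟨⟨l1, l2⟩, l3⟩ := (mN _).1 (pow_mem hg (2 ^ k))
    exact ⟨k, Subtype.ext (h.odd0 hB ho l1 fun r hr => oddc (h.two B hB) ho (h.om1 hB (l3 r hr))
      (cc' (cent l2 (l3 r hr))))⟩
  have k3 : B ⊔ om A ≤ N := fun x hx => (mN x).2 ⟨⟨h.PN hA hB p.ab hx, cen fun v hv => h.PC hA hB p.ab hx hv⟩,
    fun r hr => by
      obtain ⟨b, hb, a, ha, rfl⟩ := h.mP hA hB p.ab hx
      have l1 := mul_mem (cjC (h.PN hA hB p.ab (mem_sup_right ha)) hr.2) (inv_mem hr.2)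
      have l2 : a * r * a⁻¹ * r⁻¹ ∈ om A ⊔ om B := by
        simpa only [mul_assoc] using mul_mem (mem_sup_left ha) (cjm (h.r0 hA hB hD p hr.2 (k1 hr.1)) (inv_mem (mem_sup_left ha)))
      have l3 := h.om3 hB (h.PB hA hB p.ab (q.leE l2) l1) (q.sE _ l2)
      convert l3 using 1
      calc _ = b * (a * r * a⁻¹ * r⁻¹) * (r * b * r⁻¹)⁻¹ := by group
        _ = _ := by rw [cent hr.2 hb, cc (h.omm hB l3 hb).symm]⟩
  refine h.nP hA hB hD p hm (le_trans (fun x hx => ?_) (h.twoN hA hB hD p k2 k3 (inf_le_left.trans inf_le_left)))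
  obtain ⟨a, ha, rfl⟩ := mem_cj' (cj_om m A ▸ hx : x ∈ H8.cj m (om A))
  obtain ⟨⟨l1, l2⟩, l3⟩ := (mN a).1 (k3 (mem_sup_right ha))
  refine (mN _).2 ⟨⟨mul_mem (mul_mem hm l1) (inv_mem hm), cen fun v hv => cc' (fxc.2 (cent l2 ?_))⟩, fun r hr => ?_⟩
  · simpa using h.omN hB hv (inv_mem hm)
  · convert h.omN hB (l3 _ ⟨cjm (nQ (inv_mem hm)) hr.1, cjC (inv_mem hm) hr.2⟩) hm using 1
    group

theorem nbs (hC : C ∈ Γ) (t : T2 C B) : om C ≤ om A ⊔ om B ∨ om C ≤ om D ⊔ om B :=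
  h.nbr hA hB hD p hC t fun _ hc => h.MP hA hB hD p (h.rn hC hB t.rel (h.om1 hC hc) (h.om2 hC hc))

theorem cAD (hg : g ∈ 𝐂(A ⊔ B)) : g ∈ 𝐂(D ⊔ B) := by
  obtain ⟨v, hv, k1⟩ := h.chh hD hB p.db (g := g) (cle le_sup_right hg) fun d hd =>
    (mem_centralizer_iff.1 hg d ((sup_le le_sup_right fun a ha => mem_sup_left (h.om1 hA ha) : B ⊔ om A ≤ _) (p.le hd))).symm
  obtain ⟨y, hy, y2⟩ := h.ne B hB
  obtain ⟨z, hz, z2, hne⟩ := h.oth hB (y * y)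
  obtain ⟨s, l0, l1, l2, l3⟩ := h.tor hA hB h.sq p.ab hy y2 hz z2
  have l4 := h.nU hA hB hD p (h.MP hA hB hD p l2) (cj_eq_self_iff.1 (by
    rw [cj_sup, cj_om, cj_om, cj_eq_self l1, cj_eq_self l2]))
  have l5 := h.supeq hD hB (h.cj D hD s) p.db (p.db.cjN l2) (by
    rw [← cj_om]; exact cj_le_of_mem_normalizer l4 le_sup_left)
  have l6 := cjC (cj_eq_self_iff.1 (by rw [cj_sup, cj_eq_self l2, l5])) k1
  rw [show s * (g * v) * s⁻¹ = s * g * s⁻¹ * (s * v * s⁻¹) by group, cc (mem_centralizer_iff.1 hg s l0)] at l6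
  obtain ⟨d, hd, d2⟩ := h.ne D hD
  have l7 := h.f1 hB hD p.db.symm (mul_mem (inv_mem hv) (h.omN hB hv l2)) hd d2 (mem_centralizer_iff.1 (by
    simpa [mul_assoc] using mul_mem (inv_mem k1) l6) d (mem_sup_left hd))
  obtain ⟨a, ha, rfl⟩ := h.sur hA hB p.ab hy y2 hv
  by_cases a1 : a = 1
  · simpa [a1] using k1
  rw [(l3 a ha).1, inv_mul_eq_one] at l7
  exact (hne (h.cme hA hB p.ab ha a1 hz hy l7.symm)).elim

theorem cL (hg : g ∈ 𝐂(A ⊔ B)) : g = 1 := by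
  have k1 : 𝐍(B) ≤ 𝐍(𝐂(A ⊔ B)) := fun m hm => H9.mem_normalizer_of_conj_mem fun x hx => cen fun y hy => by
    have hm' := inv_mem hm
    have l1 : x ∈ 𝐂(H8.cj m⁻¹ A ⊔ B) := by
      rcases h.nbs hA hB hD p (h.cj A hA _) (p.ab.cjN hm') with e | e
      · rwa [h.supeq hA hB (h.cj A hA _) p.ab (p.ab.cjN hm') e]
      · rw [h.supeq hD hB (h.cj A hA _) p.db (p.ab.cjN hm') e]
        exact h.cAD hA hB hD p hx
    rw [← cj_eq_self hm', ← cj_sup] at l1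
    exact cc' (fxc.2 (cent l1 (by simpa using conj_mem_cj m⁻¹ hy)))
  have k2 : QQ B ⊓ 𝐂(A ⊔ B) = ⊥ := by
    by_contra hn
    obtain ⟨a, ha, a2⟩ := h.ne A hA
    exact a2 (h.sqA hA hB p.ab ha (h.mx B hB _ ((pgQ B).to_le inf_le_left) hn
      (fun m hm => H9.mem_normalizer_of_conj_mem fun x hx => ⟨cjm (nQ hm) hx.1, cjm (k1 hm) hx.2⟩)
      (nrm_of_cm fun x hx => mem_centralizer_iff.1 hx.2 a (mem_sup_left ha))))
  have k3 : g ∈ 𝐍(B) := centralizer_le_normalizer _ (cle le_sup_right hg)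
  refine mem_bot.1 (k2 ▸ mem_inf.2 ⟨h.ch B hB ⟨k3, cen fun x hx => cc' (mul_inv_eq_one.1 (mem_bot.1 (k2 ▸ mem_inf.2
    ⟨mul_mem (cjm (nQ k3) hx) (inv_mem hx), ?_⟩)))⟩, hg⟩)
  simpa only [mul_assoc] using mul_mem hg (cjm (k1 (Qn hx)) (inv_mem hg))

theorem cP (hg : g ∈ 𝐂((B ⊔ om A : Subgroup G))) : g ∈ om B := by
  obtain ⟨v, hv, k⟩ := h.chh hA hB p.ab (cle le_sup_left hg) fun a ha => cc' (cent hg (mem_sup_right ha))
  rw [eq_inv_of_mul_eq_one_left (h.cL hA hB hD p k)]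
  exact inv_mem hv

theorem cE (h1 : ∀ a ∈ om A, g * a = a * g) (h2 : ∀ v ∈ om B, g * v = v * g) : g ∈ om A ⊔ om B := by
  have q := h.ty hA hB hD p
  obtain ⟨v, hv, v1⟩ := h.omi hB
  obtain ⟨d, hd, d1⟩ := h.omi hD
  have k0 : om A ⊔ om B ≤ 𝐂[g] := sup_le (fun a ha => mem_centralizer_singleton_iff.2 (h1 a ha).symm)
    fun a ha => mem_centralizer_singleton_iff.2 (h2 a ha).symm
  obtain ⟨b, hb, k1⟩ := h.nE hD hB p.db h2 hd d1 (cjm (h.nU hA hB hD p (h.MP hA hB hD p (h.nrc hB (h.om1 hB hv) v1 (h2 v hv)))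
    (nrm_of_cm fun x hx => (mem_centralizer_singleton_iff.1 (k0 hx)).symm)) (mem_sup_left hd))
  obtain ⟨a, ha, k2⟩ := h.trd hD hB hA (h.gts hA hB hD p).toTr hb
  have k3 : om A ⊔ om B ≤ 𝐂[a⁻¹ * g] := fun x hx => mem_centralizer_singleton_iff.2 (by
    gsp [rC (mem_centralizer_singleton_iff.1 (k0 hx)), rC (q.comm hx (mem_sup_left ha))])
  refine (mul_mem_cancel_left (inv_mem (mem_sup_left ha))).1 (mem_sup_right (h.cP hA hB hD p (cen fun x hx =>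
    (mem_centralizer_singleton_iff.1 ((sup_le k3 (sup_le (fun d hd => ?_) (le_sup_right.trans k3)) : _ ≤ 𝐂[a⁻¹ * g])
      (q.sup.symm ▸ hx))).symm)))
  refine mem_centralizer_singleton_iff.2 (cc' ?_).symm
  calc _ = a⁻¹ * (g * d * g⁻¹) * a := by group
    _ = d := by rw [k1 d hd, k2 d hd]; group

theorem nEP (h1 : g ∈ 𝐍((om A ⊔ om B : Subgroup G))) (h2 : ∀ v ∈ om B, g * v = v * g) : g ∈ B ⊔ om A := by
  obtain ⟨a, ha, a1⟩ := h.omi hA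
  obtain ⟨b, hb, k⟩ := h.nE hA hB p.ab h2 ha a1 (cjm h1 (mem_sup_left ha))
  refine (mul_mem_cancel_left (inv_mem (mem_sup_left hb))).1 ((h.ty hA hB hD p).leE (h.cE hA hB hD p
    (fun a ha => cc' ?_) fun v hv => by gsp [rC (h2 v hv), rC (h.omm hB hv hb).symm]))
  calc _ = b⁻¹ * (g * a * g⁻¹) * b := by group
    _ = a := by rw [k a ha]; group

theorem gt2' (hC : C ∈ Γ) (t : T2 C B) : ∃ F ∈ Γ, GT C B F := by
  rcases h.nbs hA hB hD p hC t with e | e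
  · obtain ⟨b, hb, rfl⟩ := h.cjb hA hB hC p.ab t e
    exact ⟨_, h.cj D hD b, by simpa only [cj_eq_self (le_normalizer hb)] using p.cj b⟩
  · obtain ⟨b, hb, rfl⟩ := h.cjb hD hB hC p.db t e
    exact ⟨_, h.cj A hA b, by simpa only [cj_eq_self (le_normalizer hb)] using (h.gts hA hB hD p).cj b⟩

omit hD p in
theorem gt2 (t : T2 A B) : ∃ F ∈ Γ, GT A B F :=
  let ⟨_, hC, _, hD, p⟩ := h.gt B hB
  h.gt2' hC hB hD p hA t

end GF

end Cfsg.Agent.H4.TI
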