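import Cfsg.Agent.H4.TI10
import Cfsg.Agent.H7.TwoTools
import Cfsg.Agent.H6.Transfer

/-! Abelian TI subgroups `ℤ₄ × ℤ₄`: the Sylow subgroup of the normal closure. -/

set_option autoImplicit false
set_option linter.unusedSectionVars false

namespace Cfsg.Agent.H4.TI

open Subgroup Cfsg.Agent.FT Cfsg.Agent.L0 Cfsg.Agent.H8
open Cfsg.Agent.H2.CI (cjm cjm' ea_comm ea_pgroup mem_cj' cj_mem_cj)

universe u

variable {G : Type u} [Group G] [Finite G] {Γ : Set (Subgroup G)} {A B C D E F P Q R S T X Y : Subgroup G}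
  {a b c d e f g k l n s t v w x y z : G}

theorem four0 {V : Subgroup G} (h4 : #|V| = 4) (h2 : ∀ v ∈ V, v * v = 1) (hg : g ∈ 𝐍(V)) (hv : v ∈ V) (v1 : v ≠ 1)
    (e : g * v = v * g) (hw : w ∈ V) (w1 : w ≠ 1) (hne : v ≠ w) : g ∈ 𝐂(V) ∨ g * w * g⁻¹ = v * w := by
  have k := fun x hx => H9.mem_four_of_card_le (y := x) h4.le hv hw v1 w1 hne (mne (h2 v hv) hne) hx
  rcases k _ (cjm hg hw) with e1 | e1 | e1 | e1
  · exact (cne w1 g e1).elim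
  · exact (hne (by rw [← cc e] at e1; simpa using e1.symm)).elim
  · refine Or.inl (cen fun x hx => ?_)
    rcases k x hx with rfl | rfl | rfl | rfl
    exacts [by simp, e, cc' e1, cc' (fxm (cc e) e1)]
  · exact Or.inr e1

theorem four1 {V : Subgroup G} (h4 : #|V| = 4) (v : G) : ∃ w ∈ V, w ≠ 1 ∧ v ≠ w := by
  by_contra hn
  push Not at hn
  have := Nat.card_le_card_of_injective (fun x : V => (x : G) = 1) fun x y e => Subtype.ext (by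
    by_cases k : (x : G) = 1
    · rw [k, e.to_iff.1 k]
    · rw [← hn x x.2 k, ← hn y y.2 fun k' => k (e.to_iff.2 k')])
  rw [h4, Nat.card_eq_fintype_card, Fintype.card_prop] at this
  omega

theorem four2 {V : Subgroup G} (h4 : #|V| = 4) (h2 : ∀ v ∈ V, v * v = 1) (hT : IsPGroup 2 T) (hn : T ≤ 𝐍(V))
    (hx : x ∈ T) (hy : y ∈ T) (h : x ∉ 𝐂(V)) : y * x ∈ 𝐂(V) ∨ y ∈ 𝐂(V) := by
  obtain ⟨v, hv, v1, -, k⟩ := fix hT (ea_pgroup h2) (fun e => by rw [e, card_bot] at h4; omega) hn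
  obtain ⟨w, hw, w1, hne⟩ := four1 h4 v
  have k1 := fun g hg => four0 (g := g) h4 h2 (hn hg) hv v1 (k g hg) hw w1 hne
  refine or_iff_not_imp_right.2 fun e => (k1 _ (mul_mem hy hx)).resolve_right fun e' => v1 (mul_eq_right.1 (e'.symm.trans ?_))
  calc _ = y * (x * w * x⁻¹) * y⁻¹ := by group
    _ = y * v * y⁻¹ * (y * w * y⁻¹) := by rw [(k1 x hx).resolve_left h]; group
    _ = w := by rw [cc (k y hy), (k1 y hy).resolve_left e, ← mul_assoc, h2 v hv, one_mul]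

theorem four3 {V : Subgroup G} (h4 : #|V| = 4) (h2 : ∀ v ∈ V, v * v = 1) (hg : g ∈ 𝐍(V)) (h : g ∉ 𝐂(V)) (hv : v ∈ V)
    (e : g * v = v * g) : ∃ w ∈ V, g * w * g⁻¹ * w = v := by
  by_cases v1 : v = 1
  · exact ⟨1, one_mem _, by simp [v1]⟩
  obtain ⟨w, hw, w1, hne⟩ := four1 h4 v
  exact ⟨w, hw, by rw [(four0 h4 h2 hg hv v1 e hw w1 hne).resolve_left h, mul_assoc, h2 w hw, mul_one]⟩

theorem four4 {V : Subgroup G} (h4 : #|V| = 4) (h2 : ∀ v ∈ E, v * v = 1) (hle : V ≤ E) (hx : x ∈ E) (hx' : x ∉ V)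
    (hg : g ∈ 𝐍(V)) (hg' : g ∈ 𝐍(E)) (h : g ∉ 𝐂(V)) (g2 : g * g = 1) : ∃ e ∈ E, e ∉ V ∧ g * e = e * g := by
  have k1 := cjm hg' hx
  have k2 : g * (g * x * g⁻¹ * x) = g * x * g⁻¹ * x * g := cc' (by
    conv_rhs => rw [ea_comm h2 k1 hx]
    gsp [rI g2])
  by_cases k : g * x * g⁻¹ * x ∈ V
  · obtain ⟨w, hw, e⟩ := four3 h4 (fun v hv => h2 v (hle hv)) hg h k k2
    refine ⟨_, mul_mem hx (hle hw), fun e => hx' ((mul_mem_cancel_right hw).1 e), cc' ?_⟩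
    calc _ = g * x * g⁻¹ * x * x⁻¹ * (g * w * g⁻¹ * w) * w⁻¹ := by group
      _ = _ := by
        rw [e, ie (h2 x hx), ie (h2 w (hle hw)), ea_comm h2 (hle k) hx, mul_assoc x, h2 _ (hle k), mul_one]
  · exact ⟨_, mul_mem k1 hx, k, k2⟩

/-- the subgroup generated by the class -/
abbrev LL (Γ : Set (Subgroup G)) : Subgroup G := closure {x | ∃ A ∈ Γ, x ∈ A}

theorem leL (hA : A ∈ Γ) : A ≤ LL Γ := fun _ ha => subset_closure ⟨A, hA, ha⟩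

theorem TF.nL (h : TF Γ) : (LL Γ).Normal :=
  ⟨fun x hx g => clj (by
    rintro y ⟨A, hA, hy⟩
    exact subset_closure ⟨_, h.cj A hA g, conj_mem_cj g hy⟩) x hx⟩

namespace GF

variable (h : GF Γ)
include h

theorem idx (K : Subgroup (LL Γ)) : K.index ≠ 2 := fun hK => by
  have k1 : ∀ B (hB : B ∈ Γ), ∀ v ∈ om B, ∀ hv, (⟨v, hv⟩ : LL Γ) ∈ K := fun B hB v hv _ => by
    obtain ⟨w, hw, rfl⟩ := h.sq B hB v hv
    exact mul_self_mem_of_index_two hK ⟨w, leL hB hw⟩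
  have k2 : LL Γ ≤ K.map (LL Γ).subtype := (closure_le _).2 (by
    rintro z ⟨B, hB, hz⟩
    refine ⟨⟨z, leL hB hz⟩, ?_, rfl⟩
    by_cases z2 : z * z = 1
    · exact k1 B hB z (h.om3 hB hz z2) _
    obtain ⟨A, hA, D, -, p⟩ := h.gt B hB
    obtain ⟨y, hy, y2, hne⟩ := h.oth hB (z * z)
    obtain ⟨s, l0, -, l2, l3⟩ := h.tor hA hB h.sq p.ab hy y2 hz z2
    obtain ⟨a, ha, e⟩ := h.exi hA hB p.ab hy
    obtain ⟨v, hv, e1⟩ := h.sqe hB (cjm l2 hy) (mul_mem hy hz) (by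
      rw [h.sqm hB hy hz, h.ab B hB _ (mul_mem hy hy) _ (mul_mem hz hz), ← h.bf hA hB p.ab hz z2 hy y2 (Ne.symm hne) ha e,
        ← (l3 a ha).1, e]; group)
    have l4 := sup_le (leL hA) (leL hB) l0
    have l5 : (⟨z, leL hB hz⟩ : LL Γ) = ⟨y, leL hB hy⟩⁻¹ * ⟨s, l4⟩ * (⟨y, leL hB hy⟩ * ⟨s, l4⟩⁻¹) *
        ⟨v, leL hB (h.om1 hB hv)⟩⁻¹ := Subtype.ext (by
      change z = y⁻¹ * s * (y * s⁻¹) * v⁻¹
      calc z = y⁻¹ * (y * z * v) * v⁻¹ := by group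
        _ = _ := by rw [← e1]; group)
    rw [SetLike.mem_coe, l5]
    refine mul_mem ?_ (inv_mem (k1 B hB v hv _))
    simp only [mul_mem_iff_of_index_two hK, inv_mem_iff])
  rw [show K = ⊤ from eq_top_iff.2 fun x _ => let ⟨y, hy, e⟩ := k2 x.2; Subtype.ext e ▸ hy, index_top] at hK
  omega

variable (hA : A ∈ Γ) (hB : B ∈ Γ) (hD : D ∈ Γ) (p : GT A B D)
include hA hB hD p

theorem omP (hC : C ∈ Γ) (hx : x ∈ om C) (hn : x ∈ 𝐍(B)) : x ∈ B ⊔ om A := by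
  have q := h.ty hA hB hD p
  by_cases x1 : x = 1
  · rw [x1]; exact one_mem _
  rcases h.tri hC hB (h.om1 hC hx) x1 hn with k | t
  · exact mem_sup_left (h.nc B hB C hC k ▸ h.om1 hC hx)
  · exact (h.nbs hA hB hD p hC t).elim (fun k => q.leE (k hx)) fun k => q.leU (k hx)

theorem sc (hy : y ∈ B ⊔ om A) (hn : g * y * g⁻¹ ∈ 𝐍(B)) : g * y * g⁻¹ ∈ B ⊔ om A := by
  have q := h.ty hA hB hD p
  obtain ⟨v, hv, v1⟩ := h.omi hB
  by_cases y2 : y * y = 1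
  · by_cases y1 : y = 1
    · simp [y1]
    obtain ⟨k, rfl⟩ : ∃ k, k * v * k⁻¹ = y := by
      rcases q.inv hy y2 with e | e
      · exact (h.trE hA hB p.ab (mem_sup_right hv) v1 e y1).imp fun _ e => e.2
      · exact (h.trE hD hB p.db (mem_sup_right hv) v1 e y1).imp fun _ e => e.2
    exact h.omP hA hB hD p (h.cj _ (h.cj B hB k) g) (h.omc (h.cj B hB k) (h.omc hB hv k) g) hn
  have hC := h.cj B hB g
  have k1 := h.omc hB (q.sq hy) g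
  rcases h.tri hC hB (h.om1 hC k1) (cne y2 g) (by
    convert mul_mem hn hn using 1; group) with k | t
  · exact cjm (h.MP hA hB hD p (cj_eq_self_iff.1 (h.nc B hB _ hC k))) hy
  obtain ⟨F, hF, p'⟩ := h.gt2 hB hC t.symm
  have k2 : g * y * g⁻¹ ∈ 𝐍(H8.cj g B) := cj_normalizer g B ▸ conj_mem_cj g (h.PN hA hB p.ab hy)
  obtain ⟨c, hc, w, hw, e⟩ := h.mP hB hC t.symm (h.nEP hB hC hF p' (cj_eq_self_iff.1 (by
    rw [cj_sup, cj_om, cj_om, cj_eq_self hn, cj_eq_self k2])) fun u hu => by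
      obtain ⟨u, k, rfl⟩ := mem_cj' (cj_om g B ▸ hu : u ∈ H8.cj g (om B))
      exact ccj (h.PC hA hB p.ab hy k) g)
  rw [← e] at hn ⊢
  have k3 := (mul_mem_cancel_right (le_normalizer (h.om1 hB hw))).1 hn
  exact mul_mem (h.omP hA hB hD p hC (h.om3 hC hc (h.sqA hC hB t hc k3)) k3) (mem_sup_left (h.om1 hB hw))

theorem sc' (hy : g⁻¹ * y * g ∈ B ⊔ om A) (hn : y ∈ 𝐍(B)) : y ∈ B ⊔ om A := by
  have e : g * (g⁻¹ * y * g) * g⁻¹ = y := by group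
  exact e ▸ h.sc hA hB hD p hy (e.symm ▸ hn)

theorem PL : B ⊔ om A ≤ LL Γ := sup_le (leL hB) fun _ ha => leL hA (h.om1 hA ha)

theorem fld (hT : IsPGroup 2 T) (h1 : B ⊔ om A ≤ T) (h2 : T ≤ 𝐍(B)) (hx : x ∈ T) (hx' : x ∉ B ⊔ om A)
    (hn : x ∈ 𝐍((om A ⊔ om B : Subgroup G))) :
    ∃ f ∈ T, f * f = 1 ∧ f ∈ 𝐍((om A ⊔ om B : Subgroup G)) ∧ f ∉ 𝐂(om B) := by
  have q := h.ty hA hB hD p
  obtain ⟨b, hb, e⟩ := h.cjb hA hB (h.cj A hA x) p.ab (p.ab.cjN (h2 hx)) (by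
    rw [← cj_om]; exact cj_le_of_mem_normalizer hn le_sup_left)
  have k1 : b⁻¹ * x ∈ 𝐍(A) := cj_eq_self_iff.1 (by rw [cj_mul, ← e, cj_inv_cj])
  have k2 : b⁻¹ * x ∈ T := mul_mem (inv_mem (h1 (mem_sup_left hb))) hx
  have k3 : b⁻¹ * x ∉ B ⊔ om A := fun k => hx' ((mul_mem_cancel_left (inv_mem (mem_sup_left hb))).1 k)
  have k4 := mul_mem (inv_mem (q.nE (mem_sup_left hb))) hn
  generalize b⁻¹ * x = f at *
  have nA : f ∈ 𝐍(om A) := cj_eq_self_iff.1 (by rw [cj_om, cj_eq_self k1])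
  have nB : f ∈ 𝐍(om B) := cj_eq_self_iff.1 (by rw [cj_om, cj_eq_self (h2 k2)])
  have k5 : f ∉ 𝐂(om B) := fun k => k3 (h.nEP hA hB hD p k4 fun v hv => cc' (cent k hv))
  have k6 : f ∉ 𝐂(om A) := fun k => by
    obtain ⟨F, hF, p'⟩ := h.gt2 hB hA p.ab.symm
    obtain ⟨a, ha, v, hv, rfl⟩ := h.mP hB hA p.ab.symm (h.nEP hB hA hF p' (sup_comm (om A) _ ▸ k4) fun v hv => cc' (cent k hv))
    exact k3 (mul_mem (mem_sup_right (h.om3 hA ha (h.sqA hA hB p.ab ha ((mul_mem_cancel_right (le_normalizer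
      (h.om1 hB hv))).1 (h2 k2))))) (mem_sup_left (h.om1 hB hv)))
  have k7 := hT.to_le (zpowers_le.2 k2)
  obtain ⟨a, ha, v, hv, e1⟩ := (h.eaE hA hB p.ab.rel).2 _ (h.cE hA hB hD p (g := f * f) (fun a ha => cc' (cent
    ((four2 (h.c4 A hA) (fun _ => h.om2 hA) k7 (zpowers_le.2 nA) (mem_zpowers f) (mem_zpowers f) k6).resolve_right k6) ha))
    fun a ha => cc' (cent
    ((four2 (h.c4 B hB) (fun _ => h.om2 hB) k7 (zpowers_le.2 nB) (mem_zpowers f) (mem_zpowers f) k5).resolve_right k5) ha))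
  have k8 : f * (a * v) * f⁻¹ = a * v := by rw [e1]; group
  have k9 : f * a * f⁻¹ = a := by
    have e2 : a⁻¹ * (f * a * f⁻¹) = v * (f * v * f⁻¹)⁻¹ := by
      calc _ = a⁻¹ * (f * (a * v) * f⁻¹) * (f * v * f⁻¹)⁻¹ := by group
        _ = _ := by rw [k8]; group
    exact (inv_mul_eq_one.1 (h.one hA hB (h.tne hA hB p.ab) (h.om1 hA (mul_mem (inv_mem ha) (cjm nA ha)))
      (e2 ▸ h.om1 hB (mul_mem hv (inv_mem (cjm nB hv)))))).symm
  obtain ⟨u, hu, l1⟩ := four3 (h.c4 A hA) (fun _ => h.om2 hA) nA k6 ha (cc' k9)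
  obtain ⟨w, hw, l2⟩ := four3 (h.c4 B hB) (fun _ => h.om2 hB) nB k5 hv (cc' (fxr k8 k9))
  have l3 := mul_mem_sup hu hw
  refine ⟨_, mul_mem k2 (h1 (q.leE l3)), ?_, mul_mem k4 (le_normalizer l3), fun k => k5 ((mul_mem_cancel_right (q.centE l3)).1 k)⟩
  have l4 := h.rc hA hB p.ab.rel hu (cjm nB hw)
  calc _ = f * (u * w) * f⁻¹ * (f * f * (u * w)) := by group
    _ = f * u * f⁻¹ * (f * w * f⁻¹ * u) * w * (a * v) := by rw [← e1, q.comm (mul_mem_sup ha hv) l3]; group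
    _ = f * u * f⁻¹ * u * (f * w * f⁻¹ * w) * (a * v) := by rw [← l4]; group
    _ = 1 := by rw [l1, l2, q.sE _ (mul_mem_sup ha hv)]

theorem syl : IsSylowIn 2 (B ⊔ om A) (LL Γ) := by
  have := Fact.mk Nat.prime_two
  have q := h.ty hA hB hD p
  obtain ⟨T, hT, h1⟩ := exists_isSylowIn_ge q.pg (h.PL hA hB hD p)
  have h2 : T ≤ 𝐍(B) := fun t ht => cj_eq_self_iff.1 (h.nc B hB _ (h.cj B hB t) (h.two_cm hT.pgroup (h.cj B hB t) hB
    (cj_le_of_mem_normalizer (le_normalizer ht) (le_sup_left.trans h1)) (le_sup_left.trans h1)))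
  have h3 := h2.trans (h.MP hA hB hD p)
  have ho : Odd (T.subgroupOf (LL Γ)).index := Nat.not_even_iff_odd.1 fun e => hT.not_dvd_relIndex e.two_dvd
  suffices T ≤ B ⊔ om A by rwa [le_antisymm h1 this]
  intro x hx
  by_contra hx'
  have sw : ∀ x ∈ T, x ∉ 𝐍((om A ⊔ om B : Subgroup G)) → H8.cj x (om A ⊔ om B) = om D ⊔ om B ∧
      H8.cj x (om D ⊔ om B) = om A ⊔ om B := fun x hx k => by
    have e := (h.sw hA hB hD p (h3 hx)).resolve_left fun e => k (cj_eq_self_iff.1 e)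
    exact ⟨e, (h.sw hD hB hA (h.gts hA hB hD p) (h.Peq hA hB hD p ▸ h3 hx)).resolve_left
      fun e' => q.ne (cj_injective x (e.trans e'.symm))⟩
  by_cases hc : ∀ x ∈ T, x ∈ 𝐍((om A ⊔ om B : Subgroup G)) → x ∈ B ⊔ om A
  · have k1 : ∀ y ∈ T, y * x ∈ B ⊔ om A ∨ y ∈ B ⊔ om A := fun y hy => or_iff_not_imp_right.2 fun e =>
      hc _ (mul_mem hy hx) (cj_eq_self_iff.1 (by
        rw [cj_mul, (sw x hx fun k => hx' (hc x hx k)).1, (sw y hy fun k => e (hc y hy k)).2]))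
    obtain ⟨K, hK, -⟩ := H6.exists_index_two_of_not_conj (M := (B ⊔ om A).subgroupOf (LL Γ)) ho
      ((relIndex_subgroupOf hT.le).trans (relIndex_eq_two_iff_exists_notMem_and.2 ⟨x, hx, hx', k1⟩)) (x := ⟨x, hT.le hx⟩)
      ((H9.exists_pow_eq_one_of_mem hT.pgroup hx).imp fun _ e => Subtype.ext e)
      (fun g e => hx' (h.sc' hA hB hD p (mem_subgroupOf.1 e) (h2 hx))) fun k g hk e => mem_subgroupOf.2 (by
        obtain ⟨k, rfl⟩ := Nat.exists_eq_add_one_of_ne_zero hk.ne'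
        have := h.sc hA hB hD p (g := (g : G)⁻¹) (pow_mem ((k1 x hx).resolve_right hx') (2 ^ k))
        rw [inv_inv, ← pow_two, ← pow_mul, ← pow_succ'] at this
        exact this (h2 (mem_subgroupOf.1 e)))
    exact h.idx K hK
  push Not at hc
  obtain ⟨x, hx, hn, hx'⟩ := hc
  obtain ⟨f, hf, f2, k1, k2⟩ := h.fld hA hB hD p hT.pgroup h1 h2 hx hx' hn
  have nB : T ≤ 𝐍(om B) := fun t ht => cj_eq_self_iff.1 (by rw [cj_om, cj_eq_self (h2 ht)])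
  obtain ⟨e, he, he'⟩ := q.exists_e
  obtain ⟨u, hu, hu'⟩ := q.symm.exists_e
  obtain ⟨e, he, he', l1⟩ := four4 q.cZ q.sE q.ZE he he' (nB hf) k1 k2 f2
  obtain ⟨u, hu, hu', l2⟩ := four4 q.cZ q.sU q.ZU hu hu' (nB hf) (h.nU hA hB hD p (h3 hf) k1) k2 f2
  obtain ⟨g, m1, m2⟩ := H7.thompson_extremal h.idx ho (M := (T ⊓ 𝐂(om B)).subgroupOf (LL Γ)) (comap_mono inf_le_left)
    ((relIndex_subgroupOf hT.le).trans (relIndex_eq_two_iff_exists_notMem_and.2 ⟨f, hf, fun k => k2 k.2, fun y hy =>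
      (four2 q.cZ q.sZ hT.pgroup nB hf hy k2).imp (fun k => ⟨mul_mem hy hf, k⟩) fun k => ⟨hy, k⟩⟩))
    (t := ⟨f, hT.le hf⟩) (Subtype.ext f2) (T := (T ⊓ 𝐂[f]).subgroupOf (LL Γ))
    (pgroup_subgroupOf (hT.pgroup.to_le inf_le_left) _)
    fun x hx => Subtype.ext (mem_centralizer_singleton_iff.1 (mem_subgroupOf.1 hx).2)
  replace m1 : (g : G)⁻¹ * f * g ∈ T ⊓ 𝐂(om B) := m1
  obtain ⟨n1, n2⟩ := sw _ m1.1 fun k => k2 (q.cent (h.sc' hA hB hD p (h.nEP hA hB hD p k fun v hv => cc' (cent m1.2 hv)) (h2 hf)))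
  have key : ∀ y ∈ B ⊔ om A, y * y = 1 → f * y = y * f → (g : G)⁻¹ * y * g ∈ om B := fun y hy y2 k => by
    have r1 : (g : G)⁻¹ * y * g ∈ T := m2 ⟨y, hT.le (h1 hy)⟩ ⟨h1 hy, mem_centralizer_singleton_iff.2 k.symm⟩
    have r2 := h.sc hA hB hD p (g := (g : G)⁻¹) hy
    have r3 := cc (ccj k (g : G)⁻¹)
    have r4 := sqc y2 (g : G)⁻¹
    rw [inv_inv] at r2 r3 r4
    rcases q.inv (r2 (h2 r1)) r4 with r | r
    · exact q.memZ r (r3 ▸ n1 ▸ conj_mem_cj _ r)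
    · exact q.memZ (r3 ▸ n2 ▸ conj_mem_cj _ r) r
  have r := h.omm hB (key e (q.leE he) (q.sE e he) l1) (h.om1 hB (key u (q.leU hu) (q.sU u hu) l2))
  exact (q.ce0 e he u hu (ccj'' (g := (g : G)⁻¹) (by rwa [inv_inv]))).elim he' hu'

end GF

end Cfsg.Agent.H4.TI
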