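import Cfsg.Agent.H4.TI11
import Cfsg.Agent.H2.A8
import Cfsg.Agent.H7.FStar

/-! Abelian TI subgroups `ℤ₄ × ℤ₄`: the identification. -/

set_option autoImplicit false
set_option linter.unusedSectionVars false

namespace Cfsg.Agent.H4.TI

open Subgroup Cfsg.Agent.FT Cfsg.Agent.L0 Cfsg.Agent.H8
open Cfsg.Agent.H2.CI (cjm cjm' ea_comm ea_pgroup mem_cj' cj_mem_cj)

universe u

variable {G : Type u} [Group G] [Finite G] {Γ : Set (Subgroup G)} {A B C D E F P Q R S T X Y : Subgroup G}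
  {a b c d e f g k l n s t v w x y z : G}

theorem tysub {Z U : Subgroup G} (p : H2.L4.Ty Z E U S) (hle : S ≤ T) :
    H2.L4.Ty (Z.subgroupOf T) (E.subgroupOf T) (U.subgroupOf T) (S.subgroupOf T) :=
  ⟨(card_subgroupOf_of_le (p.leZ.trans hle)).trans p.cZ, (card_subgroupOf_of_le (p.leE.trans hle)).trans p.cE,
    (card_subgroupOf_of_le (p.leU.trans hle)).trans p.cU, fun e he => Subtype.ext (p.sE e he),
    fun e he => Subtype.ext (p.sU e he), by rw [← p.inf]; rfl,
    by rw [← p.sup, subgroupOf_sup (p.leE.trans hle) (p.leU.trans hle)],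
    fun _ hx => le_normalizer_comap T.subtype (p.nE hx), fun _ hx => le_normalizer_comap T.subtype (p.nU hx),
    fun e he u hu k => p.ce0 e he u hu (congrArg Subtype.val k)⟩

open Matrix in
theorem psl {Z U : Subgroup G} (q : H2.L4.T2 Z E U S) (gen : ∀ K : Subgroup G, (∀ x : G, x ^ 4 = 1 → x ∈ K) → K = ⊤)
    {F : Type*} [Field F] [Fintype F] (hF : Fintype.card F = 4) :
    Nonempty (G ≃* ProjectiveSpecialLinearGroup (Fin 3) F) := by
  classical
  obtain ⟨f, hf⟩ : ∃ f : G →* ProjGenLinGroup (Fin 3) F, Function.Injective f := H2.L4.embed q.p q.hS q.hO hF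
  have c3 : Nat.card Fˣ = 3 := by rw [Nat.card_units, Nat.card_eq_fintype_card, hF]
  have p3 : ∀ u : Fˣ, u ^ 3 = 1 := fun u => by rw [← c3, pow_card_eq_one']
  let D : ProjGenLinGroup (Fin 3) F →* Fˣ := QuotientGroup.lift _ GeneralLinearGroup.det fun x hx => by
    rw [GeneralLinearGroup.center_eq_range_scalar] at hx
    obtain ⟨u, rfl⟩ := hx
    rw [MonoidHom.mem_ker, GeneralLinearGroup.det_scalar, Fintype.card_fin, p3]
  have c1 : Nat.card D.ker = 20160 := by
    have := D.ker.card_mul_index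
    rw [index_ker, MonoidHom.range_eq_top.2 fun r => let ⟨A, e⟩ := GeneralLinearGroup.det_surjective (n := Fin 3) r; ⟨.mk A, e⟩,
      card_top, c3, show Nat.card (ProjGenLinGroup (Fin 3) F) = _ from H2.L4.card_pgl hF] at this
    omega
  have h1 : f.range ≤ D.ker := by
    rintro _ ⟨x, rfl⟩
    refine (gen (D.comp f).ker fun x hx => ?_).ge (mem_top x)
    have := congrArg (D.comp f) hx
    rwa [map_pow, map_one, pow_succ, p3, one_mul] at this
  obtain ⟨z, hz, z1⟩ := q.p.exists_z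
  have c := H2.CI.card_orbit ⊤ z
  have : {w | ∃ g ∈ (⊤ : Subgroup G), g * z * g⁻¹ = w} = {t : G | t * t = 1 ∧ t ≠ 1} := Set.ext fun t =>
    ⟨by rintro ⟨g, -, rfl⟩; exact ⟨sqc (q.p.sZ z hz) g, cne z1 g⟩, fun ht =>
      let ⟨g, hg⟩ := q.p.conj_z q.hS q.hE q.hU hz z1 ht.1 ht.2; ⟨g, trivial, hg⟩⟩
  rw [this, q.big.1, card_top, top_inf_eq] at c
  have c2 := card_le_of_le (q.p.cent.trans (centralizer_le (Set.singleton_subset_iff.mpr hz)))
  have : Finite D.ker := Nat.finite_of_card_ne_zero (by omega)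
  have h2 : f.range = D.ker := eq_of_le_of_card_ge h1 (by
    rw [c1, ← Nat.card_congr (MonoidHom.ofInjective hf).toEquiv, c]
    rw [q.p.card] at c2
    exact Nat.mul_le_mul_right 315 c2)
  have hi := ProjectiveSpecialLinearGroup.toPGL_injective (n := Fin 3) (R := F)
  have h3 : D.ker = (ProjectiveSpecialLinearGroup.toPGL (n := Fin 3) (R := F)).range := by
    ext x
    induction x using QuotientGroup.induction_on with | H x =>
    refine ⟨fun hx => ⟨QuotientGroup.mk (⟨x.1, congrArg Units.val hx⟩ : SpecialLinearGroup (Fin 3) F),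
      congrArg QuotientGroup.mk (Units.ext rfl)⟩, ?_⟩
    rintro ⟨y, e⟩
    induction y using QuotientGroup.induction_on with | H y =>
    rw [← e]
    exact Units.ext y.2
  exact ⟨((MonoidHom.ofInjective hf).trans (MulEquiv.subgroupCongr (h2.trans h3))).trans (MonoidHom.ofInjective hi).symm⟩

theorem TF.odd (h : TF Γ) (hB : B ∈ Γ) (K : Subgroup G) [K.Normal] (hK : ¬ 2 ∣ #|K|) : K = ⊥ := by
  have := Fact.mk Nat.prime_two
  have := le_pPrimeCore' (p := 2) (N := (⊤ : Subgroup K)) inferInstance (by rwa [card_top])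
  rw [h.core hB K] at this
  exact eq_bot_iff.2 fun x hx => mem_bot.2 (congrArg Subtype.val (mem_bot.1 (this (mem_top (⟨x, hx⟩ : K)))))

namespace GF

variable (h : GF Γ)
include h

variable (hA : A ∈ Γ) (hB : B ∈ Γ) (hD : D ∈ Γ) (p : GT A B D)
include hA hB hD p

theorem z44 : Nonempty (B ≃* Multiplicative (ZMod 4) × Multiplicative (ZMod 4)) := by
  have c := card_sup_mul_card_inf_of_le_normalizer (le_sup_right.trans (h.PN hA hB p.ab))
  rw [sup_comm, (h.ty hA hB hD p).card, h.c4 A hA, show om A ⊓ B = ⊥ from eq_bot_iff.2 fun x hx =>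
    h.one hA hB (h.tne hA hB p.ab) (h.om1 hA hx.1) hx.2, card_bot] at c
  have k : ∀ y ∈ B, ∃ f : Multiplicative (ZMod 4) →* B, y ∈ f.range.map B.subtype := fun y hy =>
    ⟨AddMonoidHom.toMultiplicativeLeft (ZMod.lift 4 ⟨zmultiplesHom (Additive B) (Additive.ofMul ⟨y, hy⟩), by
      rw [zmultiplesHom_apply, natCast_zsmul, ← ofMul_pow]
      exact congrArg Additive.ofMul (Subtype.ext ((show y ^ 4 = _ by
        simp only [pow_succ, pow_zero, one_mul, mul_assoc]).trans (h.ee B hB y hy)))⟩),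
      ⟨y, hy⟩, ⟨Multiplicative.ofAdd ((1 : ℤ) : ZMod 4), by simp [-Int.cast_one]⟩, rfl⟩
  obtain ⟨y, hy, y2⟩ := h.ne B hB
  obtain ⟨z, hz, z2, hne⟩ := h.oth hB (y * y)
  obtain ⟨f1, l1⟩ := k y hy
  obtain ⟨f2, l2⟩ := k z hz
  let φ := f1.noncommCoprod f2 fun a b => Subtype.ext (h.ab B hB _ (f1 a).2 _ (f2 b).2)
  have l3 : φ.range = f1.range ⊔ f2.range := MonoidHom.noncommCoprod_range _ _ _
  replace l1 : y ∈ φ.range.map B.subtype := map_mono (l3 ▸ le_sup_left) l1
  replace l2 : z ∈ φ.range.map B.subtype := map_mono (l3 ▸ le_sup_right) l2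
  have l4 := fun x hx => h.v4 hB (x := x) (h.sqo hB hy) (h.sqo hB hz) y2 z2 hne.symm hx
  have l5 : ∀ x ∈ B, ∀ w ∈ φ.range.map B.subtype, x * x = w * w → x ∈ φ.range.map B.subtype := fun x hx w hw e => by
    obtain ⟨v, hv, rfl⟩ := h.sqe hB hx (map_subtype_le _ hw) e
    refine mul_mem hw ?_
    rcases l4 v hv with rfl | rfl | rfl | rfl
    exacts [one_mem _, mul_mem l1 l1, mul_mem l2 l2, mul_mem (mul_mem l1 l1) (mul_mem l2 l2)]
  refine ⟨(MulEquiv.ofBijective φ ((Nat.bijective_iff_surjective_and_card _).2 ⟨fun x => ?_, ?_⟩)).symm⟩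
  · obtain ⟨_, e, e'⟩ : x.1 ∈ φ.range.map B.subtype := by
      rcases l4 _ (h.sqo hB x.2) with e | e | e | e
      exacts [l5 _ x.2 1 (one_mem _) (by rw [e, mul_one]), l5 _ x.2 y l1 e, l5 _ x.2 z l2 e,
        l5 _ x.2 _ (mul_mem l1 l2) (e.trans (h.sqm hB hy hz).symm)]
    exact Subtype.ext e' ▸ e
  · rw [Nat.card_eq_fintype_card, Fintype.card_prod, Fintype.card_multiplicative, ZMod.card]
    omega

theorem nn : ¬ 𝐍((om A ⊔ om B).subgroupOf (LL Γ)) ≤ 𝐍((om B).subgroupOf (LL Γ)) := fun hle => by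
  obtain ⟨a, ha, a2⟩ := h.ne A hA
  obtain ⟨v, hv, v1⟩ := h.omi hB
  have := mem_normalizer_iff.1 (hle (le_normalizer_comap (LL Γ).subtype (show (⟨a, leL hA ha⟩ : LL Γ) ∈ _ from
    h.nF h.ee hA (h.eaE hA hB p.ab.rel).1 le_sup_left ha))) ⟨v, leL hB (h.om1 hB hv)⟩
  exact a2 (h.sqA hA hB p.ab ha (h.nrm hB (h.om1 hB hv) v1 (h.om1 hB (this.1 hv))))

theorem t2 : H2.L4.T2 ((om B).subgroupOf (LL Γ)) ((om A ⊔ om B).subgroupOf (LL Γ)) ((om D ⊔ om B).subgroupOf (LL Γ))
    ((B ⊔ om A).subgroupOf (LL Γ)) :=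
  have := h.nL
  ⟨tysub (h.ty hA hB hD p) (h.PL hA hB hD p), isSylowIn_top (h.syl hA hB hD p).toSylow, h.core hB _, h.nn hA hB hD p,
    h.nn hD hB hA (h.gts hA hB hD p)⟩

theorem fstar (hO : pCore 2 G = ⊥) : generalizedFittingSubgroup G = LL Γ := by
  have := Fact.mk Nat.prime_two
  have := h.nL
  have q := h.t2 hA hB hD p
  have h1 : generalizedFittingSubgroup G ≤ LL Γ := H7.fstar_le_of_centralizer_le (Normal.isSubnormal this)
    (by rw [fitting_eq_pCore_of_pPrimeCore_eq_bot (p := 2) (h.odd hB _ not_dvd_card_pPrimeCore), hO]; exact bot_le)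
    fun g hg => leL hB (h.om1 hB (h.cP hA hB hD p (cle (h.PL hA hB hD p) hg)))
  obtain ⟨z, hz, z1⟩ := q.p.exists_z
  have : Nontrivial G := nontrivial_of_ne _ _ fun e => z1 (Subtype.ext e)
  obtain ⟨t, ht⟩ := exists_prime_orderOf_dvd_card' (G := generalizedFittingSubgroup G) 2
    (by_contra fun k => H7.fstar_ne_bot (h.odd hB _ k))
  rw [← orderOf_coe] at ht
  obtain ⟨g, hg⟩ := q.p.conj_z q.hS q.hE q.hU hz z1 (t := ⟨t, h1 t.2⟩) (Subtype.ext (H4.mul_self_of_orderOf_two ht))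
    fun e => H4.ne_one_of_orderOf_two ht (congrArg Subtype.val e)
  have h2 : (z : G) ∈ generalizedFittingSubgroup G := by
    have := H7.fstar_normal.conj_mem' _ t.2 g
    rwa [show (t : G) = g * z * (g : G)⁻¹ from congrArg Subtype.val hg.symm,
      show (g : G)⁻¹ * (g * z * (g : G)⁻¹) * g = z by group] at this
  have h3 : ∀ e ∈ LL Γ, e * e = 1 → e ∈ generalizedFittingSubgroup G := fun e he e2 => by
    by_cases e1 : e = 1
    · rw [e1]; exact one_mem _
    obtain ⟨g, hg⟩ := q.p.conj_z q.hS q.hE q.hU hz z1 (t := ⟨e, he⟩) (Subtype.ext e2) fun k => e1 (congrArg Subtype.val k)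
    exact (show (g : G) * z * (g : G)⁻¹ = e from congrArg Subtype.val hg) ▸ H7.fstar_normal.conj_mem _ h2 g
  have r := h.ty hA hB hD p
  have h4 : B ⊔ om A ≤ generalizedFittingSubgroup G := r.sup ▸ sup_le
    (fun e he => h3 e (h.PL hA hB hD p (r.leE he)) (r.sE e he)) fun e he => h3 e (h.PL hA hB hD p (r.leU he)) (r.sU e he)
  refine le_antisymm h1 ((closure_le _).2 ?_)
  rintro x ⟨C, hC, hx⟩
  obtain ⟨g, rfl⟩ := h.tr B hB C hC
  obtain ⟨x, k, rfl⟩ := mem_cj' hx
  exact H7.fstar_normal.conj_mem _ (h4 (mem_sup_left k)) g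

theorem iso {F : Type*} [Field F] [Fintype F] (hF : Fintype.card F = 4) :
    Nonempty (LL Γ ≃* Matrix.ProjectiveSpecialLinearGroup (Fin 3) F) :=
  psl (h.t2 hA hB hD p) (fun K hK => by
    have : LL Γ ≤ K.map (LL Γ).subtype := (closure_le _).2 (by
      rintro z ⟨C, hC, hz⟩
      exact ⟨⟨z, leL hC hz⟩, hK _ (Subtype.ext ((show z ^ 4 = _ by simp only [pow_succ, pow_zero, one_mul, mul_assoc]).trans (h.ee C hC z hz))), rfl⟩)
    exact eq_top_iff.2 fun x _ => let ⟨y, hy, e⟩ := this x.2; Subtype.ext e ▸ hy) hF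

end GF

end Cfsg.Agent.H4.TI
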