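import Cfsg.Agent.H4.TI1

/-! Abelian TI `2`-subgroups: the two types of neighbours. -/

set_option autoImplicit false
set_option linter.unusedSectionVars false

namespace Cfsg.Agent.H4.TI

open Subgroup Cfsg.Agent.FT Cfsg.Agent.L0 Cfsg.Agent.H8
open Cfsg.Agent.H2.CI (cjm cjm' ea_comm ea_pgroup mem_cj' cj_mem_cj)

universe u

variable {G : Type u} [Group G] [Finite G] {Γ : Set (Subgroup G)} {A B C D E F P Q R S T X Y : Subgroup G}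
  {a b c d e f g k l n s t v w x y z : G}

/-- a class of abelian TI `2`-subgroups, neither cyclic nor elementary -/
structure TF (Γ : Set (Subgroup G)) : Prop where
  cj : ∀ A ∈ Γ, ∀ g, cj g A ∈ Γ
  tr : ∀ A ∈ Γ, ∀ B ∈ Γ, ∃ g, H8.cj g A = B
  ab : ∀ A ∈ Γ, ∀ a ∈ A, ∀ b ∈ A, a * b = b * a
  two : ∀ A ∈ Γ, IsPGroup 2 A
  ti : ∀ A ∈ Γ, ∀ B ∈ Γ, ∀ x ∈ A, x ∈ B → x ≠ 1 → A = B
  four : ∀ A ∈ Γ, ∃ a ∈ A, ∃ b ∈ A, a * a = 1 ∧ b * b = 1 ∧ a ≠ 1 ∧ b ≠ 1 ∧ a ≠ b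
  ne : ∀ A ∈ Γ, ∃ a ∈ A, a * a ≠ 1
  ch : ∀ A ∈ Γ, 𝐍(A) ⊓ 𝐂(Op 2 𝐍(A)) ≤ Op 2 𝐍(A)
  mx : ∀ A ∈ Γ, ∀ R : Subgroup G, IsPGroup 2 R → R ≠ ⊥ → 𝐍(A) ≤ 𝐍(R) → 𝐍(R) ≤ 𝐍(A)

/-- the involutions and `1` -/
abbrev om (A : Subgroup G) : Subgroup G := H2.SC.omZ A

/-- `A` and `B` commute -/
def Cm (A B : Subgroup G) : Prop := ∀ a ∈ A, ∀ b ∈ B, a * b = b * a

/-- the involutions of `A` and `B` commute -/
def Rl (A B : Subgroup G) : Prop := ∀ a ∈ A, a * a = 1 → ∀ b ∈ B, b * b = 1 → a * b = b * a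

/-- neighbours that do not commute -/
structure T2 (A B : Subgroup G) : Prop where
  rel : Rl A B
  fa : ∀ a ∈ A, a ≠ 1 → a * a = 1 → ∀ b ∈ B, a * b = b * a → b * b = 1
  fb : ∀ b ∈ B, b ≠ 1 → b * b = 1 → ∀ a ∈ A, b * a = a * b → a * a = 1

theorem cj_om (g : G) (A : Subgroup G) : cj g (om A) = om (cj g A) := H2.SC.cj_omZ g A

theorem Cm.symm (h : Cm A B) : Cm B A := fun b hb a ha => (h a ha b hb).symm

theorem Rl.symm (h : Rl A B) : Rl B A := fun b hb h1 a ha h2 => (h a ha h2 b hb h1).symm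

theorem Cm.rel (h : Cm A B) : Rl A B := fun a ha _ b hb _ => h a ha b hb

theorem T2.symm (h : T2 A B) : T2 B A := ⟨h.rel.symm, h.fb, h.fa⟩

theorem sq_of (h : g * a * g⁻¹ * (g * a * g⁻¹) = 1) : a * a = 1 := by
  calc a * a = g⁻¹ * (g * a * g⁻¹ * (g * a * g⁻¹)) * g := by group
    _ = 1 := by rw [h]; group

theorem ccj'' (h : g * a * g⁻¹ * (g * b * g⁻¹) = g * b * g⁻¹ * (g * a * g⁻¹)) : a * b = b * a := by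
  calc a * b = g⁻¹ * (g * a * g⁻¹ * (g * b * g⁻¹)) * g := by group
    _ = _ := by rw [h]; group

theorem Cm.cj (h : Cm A B) (g : G) : Cm (cj g A) (cj g B) := fun a ha b hb => by
  obtain ⟨a, ha', rfl⟩ := mem_cj' ha
  obtain ⟨b, hb', rfl⟩ := mem_cj' hb
  exact ccj (h a ha' b hb') g

theorem Rl.cj (h : Rl A B) (g : G) : Rl (cj g A) (cj g B) := fun a ha h1 b hb h2 => by
  obtain ⟨a, ha', rfl⟩ := mem_cj' ha
  obtain ⟨b, hb', rfl⟩ := mem_cj' hb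
  exact ccj (h a ha' (sq_of h1) b hb' (sq_of h2)) g

theorem T2.cj (h : T2 A B) (g : G) : T2 (cj g A) (cj g B) := by
  have key : ∀ {A B : Subgroup G}, T2 A B → ∀ a ∈ H8.cj g A, a ≠ 1 → a * a = 1 → ∀ b ∈ H8.cj g B, a * b = b * a →
      b * b = 1 := fun h a ha h1 h2 b hb e => by
    obtain ⟨a, ha', rfl⟩ := mem_cj' ha
    obtain ⟨b, hb', rfl⟩ := mem_cj' hb
    exact sqc (h.fa a ha' (fun e => h1 (by rw [e]; group)) (sq_of h2) b hb' (ccj'' e)) g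
  exact ⟨h.rel.cj g, key h, key h.symm⟩

theorem T2.cjN (h : T2 A B) (hg : g ∈ 𝐍(B)) : T2 (H8.cj g A) B := by
  have := h.cj g
  rwa [cj_eq_self hg] at this

theorem Cm.cjN (h : Cm A B) (hg : g ∈ 𝐍(B)) : Cm (H8.cj g A) B := by
  have := h.cj g
  rwa [cj_eq_self hg] at this

theorem Rl.cjN (h : Rl A B) (hg : g ∈ 𝐍(B)) : Rl (H8.cj g A) B := by
  have := h.cj g
  rwa [cj_eq_self hg] at this

theorem nrm_of_cm (h : ∀ b ∈ B, g * b = b * g) : g ∈ 𝐍(B) :=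
  H9.mem_normalizer_of_conj_mem fun b hb => by rw [cc (h b hb)]; exact hb

theorem cen (h : ∀ b ∈ B, g * b = b * g) : g ∈ 𝐂(B) := mem_centralizer_iff.2 fun b hb => (h b hb).symm

theorem mne (h1 : a * a = 1) (h2 : a ≠ b) : a * b ≠ 1 := fun e => h2 (by rw [← ie h1, eq_inv_of_mul_eq_one_right e])

theorem msq (h1 : a * a = 1) (h2 : b * b = 1) (h : a * b = b * a) : a * b * (a * b) = 1 := by
  gsp [rI h1, rI h2, rC h]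

namespace TF

variable (h : TF Γ)
include h

theorem nrm (hB : B ∈ Γ) (hb : b ∈ B) (h1 : b ≠ 1) (hg : g * b * g⁻¹ ∈ B) : g ∈ 𝐍(B) :=
  cj_eq_self_iff.1 (h.ti _ (h.cj B hB g) B hB _ (conj_mem_cj g hb) hg (cne h1 g))

theorem nrc (hB : B ∈ Γ) (hb : b ∈ B) (h1 : b ≠ 1) (hg : g * b = b * g) : g ∈ 𝐍(B) :=
  h.nrm hB hb h1 (by rw [cc hg]; exact hb)

theorem one (hA : A ∈ Γ) (hB : B ∈ Γ) (hne : A ≠ B) (ha : x ∈ A) (hb : x ∈ B) : x = 1 :=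
  by_contra fun e => hne (h.ti A hA B hB x ha hb e)

theorem mem_om (hA : A ∈ Γ) : x ∈ om A ↔ x ∈ A ∧ x * x = 1 := by
  rw [H2.SC.mem_omZ]
  exact ⟨fun e => ⟨e.1, e.2.1⟩, fun e => ⟨e.1, e.2, fun s hs => h.ab A hA s hs x e.1⟩⟩

theorem card (hA : A ∈ Γ) (hB : B ∈ Γ) : #|A| = #|B| := by
  obtain ⟨g, rfl⟩ := h.tr A hA B hB
  rw [card_cj]

theorem card_om (hA : A ∈ Γ) (hB : B ∈ Γ) : #|om A| = #|om B| := by
  obtain ⟨g, rfl⟩ := h.tr A hA B hB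
  rw [← cj_om, card_cj]

theorem inv (hA : A ∈ Γ) : ∃ a ∈ A, a ≠ 1 ∧ a * a = 1 :=
  let ⟨a, ha, _, _, h1, _, h2, _⟩ := h.four A hA
  ⟨a, ha, h2, h1⟩

theorem ne_bot (hA : A ∈ Γ) : A ≠ ⊥ := fun e => by
  obtain ⟨a, ha, h1, -⟩ := h.inv hA
  exact h1 (mem_bot.1 (e ▸ ha))

theorem ord4 (hA : A ∈ Γ) (hR : R ≤ A) (ha : a ∈ R) (h1 : a * a ≠ 1) : ∃ b ∈ R, b * b ≠ 1 ∧ b * b * (b * b) = 1 := by
  obtain ⟨k, hk⟩ := H9.exists_pow_eq_one_of_mem (h.two A hA) (hR (mul_mem ha ha))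
  obtain ⟨j, h2, h3⟩ := H9.exists_pow_ne_one_pow_eq_one h1 ⟨k, hk⟩
  have e : a ^ 2 ^ j * a ^ 2 ^ j = (a * a) ^ 2 ^ j := (Commute.mul_pow (Commute.refl a) _).symm
  exact ⟨a ^ 2 ^ j, pow_mem ha _, by rwa [e], by rw [e, ← pow_two, h3]⟩

theorem fixv (hA : A ∈ Γ) (hB : B ∈ Γ) (ha : a ∈ A) (hn : a ∈ 𝐍(B)) : ∃ v ∈ B, v ≠ 1 ∧ v * v = 1 ∧ a * v = v * a :=
  let ⟨v, h1, h2, h3, h4⟩ := fix ((h.two A hA).to_le (zpowers_le.2 ha)) (h.two B hB) (h.ne_bot hB) (zpowers_le.2 hn)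
  ⟨v, h1, h2, h3, h4 a (mem_zpowers a)⟩

section

variable (hA : A ∈ Γ) (hB : B ∈ Γ) (hne : A ≠ B)
include hA hB hne

theorem comm0 (ha : a ∈ A) (ha' : a ∈ 𝐍(B)) (hb : b ∈ B) (hb' : b ∈ 𝐍(A)) : a * b = b * a := by
  have := h.one hA hB hne (x := a * b * a⁻¹ * b⁻¹) (by
    have := mul_mem ha (cjm hb' (inv_mem ha))
    simpa only [mul_assoc] using this) (mul_mem (cjm ha' hb) (inv_mem hb))
  exact cc' (mul_inv_eq_one.1 this)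

theorem nn (hs : s ∈ A) (hs' : s ∈ 𝐍(B)) (h1 : s ≠ 1) (h2 : s * s = 1) (hb : b ∈ B) : b * (s * b * s⁻¹) ∈ 𝐍(A) := by
  refine h.nrc hA hs h1 (cc' ?_).symm
  calc _ = s * b * s⁻¹ * (s * s * b * (s * s)⁻¹) := by group
    _ = _ := by rw [h2, h.ab B hB b hb _ (cjm hs' hb)]; group

variable {a' : G} (ha : a ∈ A) (hn : a ∈ 𝐍(B)) (ha' : a' ∈ A) (hn' : a' ∈ 𝐍(B)) (h1 : a * a = 1) (h1' : a' * a' = 1)
  (h2 : a ≠ 1) (h2' : a' ≠ 1) (h3 : a ≠ a')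
include ha hn ha' hn' h1 h1' h2 h2' h3

theorem cl1 (hb : b ∈ B) : b * b ∈ 𝐍(A) := by
  have k1 := h.nn hA hB hne ha hn h2 h1 hb
  have k2 := h.nn hA hB hne ha' hn' h2' h1' hb
  have k3 := h.nn hA hB hne (mul_mem ha ha') (mul_mem hn hn') (mne h1 h3) (msq h1 h1' (h.ab A hA _ ha _ ha')) hb
  have k4 := h.comm0 hA hB hne ha hn (mul_mem hb (cjm hn' hb)) k2
  have k5 := h.ab B hB b hb _ (cjm hn hb)
  convert mul_mem (mul_mem k3 (inv_mem k2)) k1 using 1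
  calc b * b = b * (a * b * a⁻¹)⁻¹ * (a * b * a⁻¹ * b) := by group
    _ = b * (a * b⁻¹ * (b * (a' * b * a'⁻¹) * a⁻¹) * (b * (a' * b * a'⁻¹))⁻¹ * a) * a⁻¹ * (b * (a * b * a⁻¹)) := by
      rw [← k5, ← (rC k4).1.2.1]; group
    _ = _ := by group

theorem cl1' (hs : s ∈ A) (hs' : s ∈ 𝐍(B)) (h4 : s * s = 1) (hb : b ∈ B) :
    s * b * s⁻¹ * b⁻¹ ∈ 𝐍(A) ∧ s * b * s⁻¹ * b⁻¹ * (s * b * s⁻¹ * b⁻¹) = 1 := by
  by_cases e : s = 1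
  · subst e; simp
  have k1 := h.cl1 hA hB hne ha hn ha' hn' h1 h1' h2 h2' h3 hb
  have k2 := h.ab B hB b hb _ (cjm hs' hb)
  have k3 := h.comm0 hA hB hne hs hs' (mul_mem hb hb) k1
  refine ⟨?_, ?_⟩
  · convert mul_mem (h.nn hA hB hne hs hs' e h4 hb) (inv_mem k1) using 1
    rw [k2]; group
  · calc _ = s * b * s⁻¹ * (b⁻¹ * (s * b * s⁻¹)) * b⁻¹ := by group
      _ = s * (b * b) * s⁻¹ * (b * b)⁻¹ := by rw [(rC k2).1.2.1]; group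
      _ = 1 := by rw [k3]; group

theorem cl2 (hc : c ∈ A) (hc' : c ∈ 𝐍(B)) (h4 : c * c ≠ 1) : B ≤ 𝐍(A) := by
  obtain ⟨c, ⟨hc, hc'⟩, h4, h5⟩ := h.ord4 hA (R := A ⊓ 𝐍(B)) inf_le_left ⟨hc, hc'⟩ h4
  have k0 : ∀ b ∈ B, c * b * c⁻¹ * b⁻¹ * (c * b * c⁻¹ * b⁻¹) = 1 := fun b hb => by
    have k2 := h.ab B hB b hb _ (cjm hc' hb)
    have k3 := h.comm0 hA hB hne hc hc' (mul_mem hb hb) (h.cl1 hA hB hne ha hn ha' hn' h1 h1' h2 h2' h3 hb)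
    calc _ = c * b * c⁻¹ * (b⁻¹ * (c * b * c⁻¹)) * b⁻¹ := by group
      _ = c * (b * b) * c⁻¹ * (b * b)⁻¹ := by rw [(rC k2).1.2.1]; group
      _ = 1 := by rw [k3]; group
  have k1 : ∀ b ∈ B, c * b * c⁻¹ * b⁻¹ ∈ 𝐍(A) → b ∈ 𝐍(A) := fun b hb hk => by
    have k2 := h.comm0 hA hB hne hc hc' (mul_mem (cjm hc' hb) (inv_mem hb)) hk
    refine h.nrc hA (mul_mem hc hc) h4 (cc' ?_).symm
    calc _ = c * (c * b * c⁻¹ * b⁻¹) * c⁻¹ * (c * b * c⁻¹ * b⁻¹) * b := by group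
      _ = b := by rw [cc k2, k0 b hb, one_mul]
  intro b hb
  have k2 := mul_mem (cjm hc' hb) (inv_mem hb)
  refine k1 b hb (k1 _ k2 ?_)
  convert (h.cl1' hA hB hne ha hn ha' hn' h1 h1' h2 h2' h3 (mul_mem hc hc) (mul_mem hc' hc') h5 hb).1 using 1
  rw [ie (k0 b hb)]; group

theorem mixed (hz : ∀ v ∈ B, v ∈ 𝐍(A) → v * v = 1 → v = 1 ∨ v = z) : False := by
  obtain ⟨b, hb, h4, h5, h6⟩ : ∃ b ∈ B, b * b = 1 ∧ b ≠ 1 ∧ b ≠ z := by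
    obtain ⟨b, hb, b', hb', k1, k2, k3, k4, k5⟩ := h.four B hB
    by_cases e : b = z
    · exact ⟨b', hb', k2, k4, fun e' => k5 (e.trans e'.symm)⟩
    · exact ⟨b, hb, k1, k3, e⟩
  have h7 : b ∉ 𝐍(A) := fun e => (hz b hb e h4).elim h5 h6
  have key : ∀ s ∈ A, s ∈ 𝐍(B) → s * s = 1 → s ≠ 1 → s * b * s⁻¹ * b⁻¹ = z := fun s hs hs' k1 k2 =>
    let ⟨k3, k4⟩ := h.cl1' hA hB hne ha hn ha' hn' h1 h1' h2 h2' h3 hs hs' k1 hb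
    (hz _ (mul_mem (cjm hs' hb) (inv_mem hb)) k3 k4).resolve_left fun e =>
      h7 (h.nrc hA hs k2 (cc' (mul_inv_eq_one.1 e)).symm)
  have e := (key a ha hn h1 h2).trans (key a' ha' hn' h1' h2').symm
  refine h7 (h.nrc hA (mul_mem ha ha') (mne h1 h3) (cc' ?_).symm)
  calc _ = a * (a' * b * a'⁻¹ * b⁻¹ * b) * a⁻¹ := by group
    _ = b := by rw [← e]; gsp [rI h1]

end

section

variable (hA : A ∈ Γ) (hB : B ∈ Γ) (hne : A ≠ B) (ha : a ∈ A) (hn : a ∈ 𝐍(B)) (h1 : a * a = 1) (h2 : a ≠ 1)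
  (hz : z ∈ B) (hz' : z ∈ 𝐍(A)) (h3 : z * z = 1) (h4 : z ≠ 1)
  (ua : ∀ v ∈ A, v ∈ 𝐍(B) → v * v = 1 → v = 1 ∨ v = a) (uz : ∀ v ∈ B, v ∈ 𝐍(A) → v * v = 1 → v = 1 ∨ v = z)
include hA hB hne ha hn h1 h2 hz hz' h3 h4 uz

theorem cy0 (hv : v ∈ B) (k1 : v * v = 1) (k2 : v ≠ 1) (k3 : v ≠ z) : a * v * a⁻¹ = v * z := by
  have k4 := cjm hn hv
  rcases uz _ (mul_mem hv k4) (h.nn hA hB hne ha hn h2 h1 hv) (msq k1 (sqc k1 a) (h.ab B hB _ hv _ k4)) with e | e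
  · have e' := eq_inv_of_mul_eq_one_right e
    rw [ie k1] at e'
    exact ((uz v hv (h.nrc hA ha h2 (cc' e').symm) k1).elim k2 k3).elim
  · rw [← e]; gsp [rI k1]

theorem cyv : ∃ v ∈ B, v * v = 1 ∧ v ≠ 1 ∧ v ≠ z := by
  obtain ⟨b, hb, b', hb', k1, k2, k3, k4, k5⟩ := h.four B hB
  by_cases e : b = z
  · exact ⟨b', hb', k2, k4, fun e' => k5 (e.trans e'.symm)⟩
  · exact ⟨b, hb, k1, k3, e⟩

include ua

theorem cy1 (hc : c ∈ A) (hc' : c ∈ 𝐍(B)) : c * c = 1 := by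
  by_contra k
  obtain ⟨c, ⟨hc, hc'⟩, k1, k2⟩ := h.ord4 hA (R := A ⊓ 𝐍(B)) inf_le_left ⟨hc, hc'⟩ k
  have e := (ua _ (mul_mem hc hc) (mul_mem hc' hc') k2).resolve_left k1
  obtain ⟨v, hv, k3, k4, k5⟩ := h.cyv hA hB hne ha hn h1 h2 hz hz' h3 h4 uz
  have c0 := fun v hv => h.cy0 (v := v) hA hB hne ha hn h1 h2 hz hz' h3 h4 uz hv
  have k6 := cc (h.comm0 hA hB hne hc hc' hz hz')
  have k7 : c * (c * v * c⁻¹) * c⁻¹ ≠ v := fun e' => h4 (by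
    have : a * v * a⁻¹ = v := by rw [← e]; exact Eq.trans (by group) e'
    rwa [c0 v hv k3 k4 k5, mul_eq_left] at this)
  have k8 := cjm hc' hv
  have k9 := h.ab B hB _ hv _ k8
  have hvz := h.ab B hB _ hv _ hz
  have l1 : c * v * c⁻¹ ≠ z := fun e' => k5 (by
    calc v = c⁻¹ * (c * v * c⁻¹) * c := by group
      _ = c⁻¹ * (c * z * c⁻¹) * c := by rw [e', k6]
      _ = z := by group)
  have l2 : v * (c * v * c⁻¹) ≠ z := fun e' => k7 (by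
    have : c * v * c⁻¹ = v * z := by rw [← e']; gsp [rI k3]
    calc _ = c * (v * z) * c⁻¹ := by rw [this]
      _ = c * v * c⁻¹ * (c * z * c⁻¹) := by group
      _ = v := by rw [k6, this]; gsp [rI h3])
  have l3 := c0 _ (mul_mem hv k8) (msq k3 (sqc k3 c) k9) (mne k3 fun e' => k7 (by rw [← e', ← e'])) l2
  have l4 := h.ab B hB _ hz _ k8
  have l5 := c0 _ k8 (sqc k3 c) (cne k4 c) l1
  have l6 := c0 v hv k3 k4 k5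
  generalize c * v * c⁻¹ = w at *
  apply h4
  rw [← mul_eq_left (a := v * w), ← l3]
  calc _ = a * v * a⁻¹ * (a * w * a⁻¹) := by group
    _ = _ := by rw [l5, l6]; gsp [rC l4, rI h3]

theorem cy2 : False := by
  have k0 := fun c hc hc' => h.cy1 (c := c) hB hA hne.symm hz hz' h3 h4 ha hn h1 h2 uz ua hc hc'
  have key : ∀ b ∈ B, b * b ≠ 1 → b * b * (b * b) = 1 → b * (a * b * a⁻¹) = 1 := fun b hb k1 k2 => by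
    have k3 := h.nn hA hB hne ha hn h2 h1 hb
    have k4 := mul_mem hb (cjm hn hb)
    have k5 := k0 _ k4 k3
    have k6 := h.ab B hB _ hb _ (cjm hn hb)
    have k7 : a * (b * b) * a⁻¹ = b * b := by
      refine (eq_inv_of_mul_eq_one_left ?_).trans (ie k2)
      rw [← k5]
      calc _ = a * b * a⁻¹ * (a * b * a⁻¹) * (b * b) := by group
        _ = _ := by generalize a * b * a⁻¹ = w at *; gsp [rC k6]
    have k8 := (uz _ (mul_mem hb hb) (h.nrc hA ha h2 (cc' k7).symm) k2).resolve_left k1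
    refine (uz _ k4 k3 k5).resolve_right fun e => k1 (k0 b hb (h.nrc hA ha h2 (cc' ?_).symm))
    exact mul_left_cancel (e.trans k8.symm)
  obtain ⟨b, hb, k⟩ := h.ne B hB
  obtain ⟨b, hb, k1, k2⟩ := h.ord4 hB le_rfl hb k
  obtain ⟨v, hv, k3, k4, k5⟩ := h.cyv hA hB hne ha hn h1 h2 hz hz' h3 h4 uz
  have k6 := h.ab B hB _ hv _ hb
  have e : b * v * (b * v) = b * b := by gsp [rC k6, rI k3]
  have l1 := key _ (mul_mem hb hv) (by rwa [e]) (by rwa [e])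
  have l2 := key b hb k1 k2
  have l3 := h.cy0 hA hB hne ha hn h1 h2 hz hz' h3 h4 uz hv k3 k4 k5
  have l4 := h.ab B hB _ hv _ (cjm hn hb)
  apply h4
  rw [← l1]
  calc z = b * (a * b * a⁻¹) * v * (v * z) := by rw [l2]; gsp [rI k3]
    _ = b * v * (a * b * a⁻¹) * (a * v * a⁻¹) := by rw [l3, mul_assoc b, ← l4]; group
    _ = _ := by group

end

theorem pre (hA : A ∈ Γ) (hB : B ∈ Γ) (hne : A ≠ B)
    (pa : ∃ a ∈ A, a ∈ 𝐍(B) ∧ ∃ a' ∈ A, a' ∈ 𝐍(B) ∧ a * a = 1 ∧ a' * a' = 1 ∧ a ≠ 1 ∧ a' ≠ 1 ∧ a ≠ a')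
    (pb : ∃ a ∈ B, a ∈ 𝐍(A) ∧ ∃ a' ∈ B, a' ∈ 𝐍(A) ∧ a * a = 1 ∧ a' * a' = 1 ∧ a ≠ 1 ∧ a' ≠ 1 ∧ a ≠ a')
    (ea : ∀ a ∈ A, a ∈ 𝐍(B) → a * a = 1) (eb : ∀ b ∈ B, b ∈ 𝐍(A) → b * b = 1) (hb : b ∈ B) (h2 : b * b = 1) :
    b ∈ 𝐍(A) := by
  by_contra hb'
  obtain ⟨a0, h0, h0'⟩ := h.ne A hA
  have h1 : a0 ∉ 𝐍(B) := fun e => h0' (ea _ h0 e)
  obtain ⟨a1, p1, p2, a2, p3, p4, p5, p6, p7, p8, p9⟩ := pa
  obtain ⟨b1, q1, q2, b2, q3, q4, q5, q6, q7, q8, q9⟩ := pb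
  have cB : ∀ s ∈ A, s ∈ 𝐍(B) → ∀ b ∈ B, b * s * b⁻¹ * s ∈ B ⊓ 𝐍(A) := fun s hs hs' b hb => by
    have k := inv_mem (mem_inf.2 ⟨mul_mem (cjm hs' hb) (inv_mem hb),
      (h.cl1' hA hB hne p1 p2 p3 p4 p5 p6 p7 p8 p9 hs hs' (ea s hs hs') hb).1⟩)
    convert k using 1
    gsp [rI (ea s hs hs')]
  have cA : ∀ s ∈ B, s ∈ 𝐍(A) → ∀ a ∈ A, a * s * a⁻¹ * s ∈ A ⊓ 𝐍(B) := fun s hs hs' b hb => by
    have k := inv_mem (mem_inf.2 ⟨mul_mem (cjm hs' hb) (inv_mem hb),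
      (h.cl1' hB hA hne.symm q1 q2 q3 q4 q5 q6 q7 q8 q9 hs hs' (eb s hs hs') hb).1⟩)
    convert k using 1
    gsp [rI (eb s hs hs')]
  have c0 : ∀ a ∈ A ⊓ 𝐍(B), ∀ v ∈ B ⊓ 𝐍(A), a * v = v * a := fun a ha v hv => h.comm0 hA hB hne ha.1 ha.2 hv.1 hv.2
  have iB : ∀ a ∈ A ⊓ 𝐍(B), ∀ a' ∈ A ⊓ 𝐍(B), b * a * b⁻¹ * a = b * a' * b⁻¹ * a' → a = a' := fun a ha a' ha' e => by
    by_contra hn
    have k1 := ea _ ha.1 ha.2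
    have k2 := ea _ ha'.1 ha'.2
    have k3 := h.ab A hA _ ha.1 _ ha'.1
    refine hb' (h.nrc hA (mul_mem ha'.1 ha.1) (mne k2 (Ne.symm hn)) (cc' ?_))
    calc _ = b * a' * b⁻¹ * (b * a * b⁻¹ * a) * a := by gsp [rI k1]
      _ = _ := by rw [e]; gsp [rI k2]
  have iA : ∀ a ∈ B ⊓ 𝐍(A), ∀ a' ∈ B ⊓ 𝐍(A), a0 * a * a0⁻¹ * a = a0 * a' * a0⁻¹ * a' → a = a' := fun a ha a' ha' e => by
    by_contra hn
    have k1 := eb _ ha.1 ha.2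
    have k2 := eb _ ha'.1 ha'.2
    refine h1 (h.nrc hB (mul_mem ha'.1 ha.1) (mne k2 (Ne.symm hn)) (cc' ?_))
    calc _ = a0 * a' * a0⁻¹ * (a0 * a * a0⁻¹ * a) * a := by gsp [rI k1]
      _ = _ := by rw [e]; gsp [rI k2]
  have on := fun y hy => onto (y := y) (card_le (X := A ⊓ 𝐍(B)) _ (fun a ha => cB a ha.1 ha.2 b hb) iB) _
    (fun a ha => cA a ha.1 ha.2 a0 h0) iA hy
  have mF : ∀ f, f ∈ (A ⊓ 𝐍(B)) ⊔ (B ⊓ 𝐍(A)) ↔ ∃ a ∈ A ⊓ 𝐍(B), ∃ v ∈ B ⊓ 𝐍(A), a * v = f := fun f =>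
    mem_sup_of_le_normalizer' fun a ha => nrm_of_cm (c0 a ha)
  set F := (A ⊓ 𝐍(B)) ⊔ (B ⊓ 𝐍(A))
  have hF : ∀ f ∈ F, f * f = 1 := fun f hf => by
    obtain ⟨a, ha, v, hv, rfl⟩ := (mF f).1 hf
    exact msq (ea _ ha.1 ha.2) (eb _ hv.1 hv.2) (c0 a ha v hv)
  have nA : ∀ s ∈ A, s ∈ 𝐍(F) := fun s hs => H9.mem_normalizer_of_conj_mem fun f hf => by
    obtain ⟨a, ha, v, hv, rfl⟩ := (mF f).1 hf
    refine (mF _).2 ⟨_, mul_mem ha (cA v hv.1 hv.2 s hs), v, hv, ?_⟩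
    gsp [rI (eb _ hv.1 hv.2), rC (h.ab A hA _ hs _ ha.1)]
  have nB : ∀ s ∈ B, s ∈ 𝐍(F) := fun s hs => H9.mem_normalizer_of_conj_mem fun f hf => by
    obtain ⟨a, ha, v, hv, rfl⟩ := (mF f).1 hf
    have := mul_mem (mul_mem (mem_sup_right (cB a ha.1 ha.2 s hs) : _ ∈ F) (mem_sup_left ha)) (mem_sup_right hv)
    convert this using 1
    gsp [rI (ea _ ha.1 ha.2), rC (h.ab B hB _ hv.1 _ hs).symm]
  have CA : ∀ s ∈ A, s ∉ 𝐍(B) → ∀ f ∈ F, s * f * s⁻¹ = f → f ∈ A := fun s hs hs' f hf e => by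
    obtain ⟨a, ha, v, hv, rfl⟩ := (mF f).1 hf
    obtain rfl : v = 1 := by_contra fun e' => hs' (h.nrc hB hv.1 e' (mul_left_cancel (a := a) (by
      rw [← mul_assoc, ← h.ab A hA _ hs _ ha.1, mul_assoc, ← mul_assoc a, ← cc' e])))
    simpa using ha.1
  have CB : ∀ s ∈ B, s ∉ 𝐍(A) → ∀ f ∈ F, s * f * s⁻¹ = f → f ∈ B := fun s hs hs' f hf e => by
    obtain ⟨a, ha, v, hv, rfl⟩ := (mF f).1 hf
    obtain rfl : a = 1 := by_contra fun e' => hs' (h.nrc hA ha.1 e' (mul_right_cancel (b := v) (by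
      rw [mul_assoc, cc' e, mul_assoc, mul_assoc, h.ab B hB _ hs _ hv.1])))
    simpa using hv.1
  have cF : ∀ a ∈ A, a ∈ 𝐍(B) → a ∈ 𝐂(F) := fun a ha ha' => cen fun f hf => ea_comm hF (mem_sup_left ⟨ha, ha'⟩) hf
  have nl : ∀ j : ℕ, (a0 * b) ^ j ∈ 𝐍(F) := fun j => pow_mem (mul_mem (nA _ h0) (nB _ hb)) j
  have line : ∀ l ∈ 𝐍(F), ∀ D ∈ Γ, ∀ y ∈ D, (∀ f ∈ F, y * f * y⁻¹ = f → f ∈ D) → ∀ δ ∈ F, δ ≠ 1 → δ ∈ B →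
      l * y * l⁻¹ * δ * (l * y * l⁻¹)⁻¹ = δ → H8.cj l D = B := fun l hl D hD y hy hy' δ k1 k2 k3 k4 =>
    h.ti _ (h.cj D hD l) B hB δ (mem_cj.2 (hy' _ (cjm' hl k1) (cc (ccj' (cc' k4))))) k3 k2
  obtain ⟨j, hj⟩ := ax (F1 := ⊥) (X := A ⊓ 𝐍(B)) hF (nA _ h0) (nB _ hb)
    (cF _ (mul_mem h0 h0) (h.cl1 hB hA hne.symm q1 q2 q3 q4 q5 q6 q7 q8 q9 h0)) (by rw [h2]; exact one_mem _)
    (fun f hf e => by rw [eq_inv_of_mul_eq_one_left (mem_bot.1 e), ie (hF f hf)])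
    ⟨a1, mem_sup_left ⟨p1, p2⟩, fun e => hb' (h.nrc hA p1 p7 (cc' e))⟩
    (fun j y hy δ k1 k2 k3 k4 f hf => by
      obtain ⟨D, hD, k5, k6⟩ : ∃ D ∈ Γ, y ∈ D ∧ ∀ f ∈ F, y * f * y⁻¹ = f → f ∈ D := by
        rcases hy with rfl | rfl
        · exact ⟨A, hA, h0, CA _ h0 h1⟩
        · exact ⟨B, hB, hb, CB _ hb hb'⟩
      have e := line _ (nl j) D hD y k5 k6 δ k1 (fun e => k2 (mem_bot.2 e)) (CB _ hb hb' δ k1 k3) k4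
      refine ⟨fun e' => cc (h.ab B hB _ (e ▸ conj_mem_cj _ k5) _ (CB _ hb hb' f hf e')), fun e' => cc (h.ab B hB _ hb _ ?_)⟩
      exact e ▸ mem_cj.2 (k6 _ (cjm' (nl j) hf) (cc (ccj' (cc' e')))))
    le_sup_left
    (fun f hf => by
      obtain ⟨a, ha, v, hv, rfl⟩ := (mF f).1 hf
      convert cA v hv.1 hv.2 a0 h0 using 1
      have k := ea_comm hF (cjm (nA _ h0) (mem_sup_right hv)) (mem_sup_left ha)
      calc _ = a0 * a * a0⁻¹ * (a0 * v * a0⁻¹ * a) * v := by group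
        _ = _ := by rw [k, cc (h.ab A hA _ h0 _ ha.1)]; gsp [rI (ea _ ha.1 ha.2)])
    (fun a ha => let ⟨v, hv, e⟩ := on a ha; ⟨v, mem_sup_right hv, e⟩)
    (fun a ha e => by_contra fun e' => hb' (h.nrc hA ha.1 e' (cc' e)))
    (fun f hf => by
      obtain ⟨a, ha, v, hv, rfl⟩ := (mF f).1 hf
      refine ⟨a, ha, ?_⟩
      gsp [rI (ea _ ha.1 ha.2), rC (h.ab B hB _ hb _ hv.1)])
  have k1 : b1 ∈ F := mem_sup_right ⟨q1, q2⟩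
  have e := line _ (nl j) A hA a0 h0 (CA _ h0 h1) b1 k1 q7 q1 ((hj _ k1).trans (cc (h.ab B hB _ hb _ q1)))
  have k2 : (a0 * b) ^ j * a0 * ((a0 * b) ^ j)⁻¹ ∈ B := e ▸ conj_mem_cj _ h0
  have k3 := hj a1 (mem_sup_left ⟨p1, p2⟩)
  refine h0' (sq_of (g := (a0 * b) ^ j) ?_)
  generalize (a0 * b) ^ j * a0 * ((a0 * b) ^ j)⁻¹ = y at k2 k3 ⊢
  have k4 := eb _ (mul_mem hb k2) (h.nrc hA p1 p7 (cc' (by
    calc _ = b * (y * a1 * y⁻¹) * b⁻¹ := by group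
      _ = _ := by rw [k3]; gsp [rI h2])))
  rw [← k4]
  gsp [rI h2, rC (h.ab B hB _ k2 _ hb)]

theorem dich (hA : A ∈ Γ) (hB : B ∈ Γ) (hne : A ≠ B) (ha : a ∈ A) (h1 : a ≠ 1) (hn : a ∈ 𝐍(B)) :
    Cm A B ∨ T2 A B := by
  obtain ⟨a, ⟨ha, hn⟩, h1, h2⟩ := H9.exists_involution_of_ne_bot ((h.two A hA).to_le (inf_le_left (b := 𝐍(B))))
    (ne_bot_iff_exists_ne_one.2 ⟨⟨a, ha, hn⟩, fun e => h1 (congrArg Subtype.val e)⟩)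
  obtain ⟨z, hz, h3, h4, h5⟩ := h.fixv hA hB ha hn
  have hz' := h.nrc hA ha h1 h5.symm
  by_cases ua : ∀ v ∈ A, v ∈ 𝐍(B) → v * v = 1 → v = 1 ∨ v = a
  · by_cases uz : ∀ v ∈ B, v ∈ 𝐍(A) → v * v = 1 → v = 1 ∨ v = z
    · exact (h.cy2 hA hB hne ha hn h2 h1 hz hz' h4 h3 ua uz).elim
    push Not at uz
    obtain ⟨v, k1, k2, k3, k4, k5⟩ := uz
    exact (h.mixed hB hA hne.symm k1 k2 hz hz' k3 h4 k4 h3 k5 ua).elim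
  push Not at ua
  obtain ⟨a', p1, p2, p3, p4, p5⟩ := ua
  by_cases uz : ∀ v ∈ B, v ∈ 𝐍(A) → v * v = 1 → v = 1 ∨ v = z
  · exact (h.mixed hA hB hne p1 p2 ha hn p3 h2 p4 h1 p5 uz).elim
  push Not at uz
  obtain ⟨z', q1, q2, q3, q4, q5⟩ := uz
  have k1 := fun c hc hc' k => h.cl2 (c := c) hA hB hne p1 p2 ha hn p3 h2 p4 h1 p5 hc hc' k
  have k2 := fun c hc hc' k => h.cl2 (c := c) hB hA hne.symm q1 q2 hz hz' q3 h4 q4 h3 q5 hc hc' k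
  by_cases ea : ∀ c ∈ A, c ∈ 𝐍(B) → c * c = 1
  · by_cases eb : ∀ c ∈ B, c ∈ 𝐍(A) → c * c = 1
    · have pa : ∃ a ∈ A, a ∈ 𝐍(B) ∧ ∃ a' ∈ A, a' ∈ 𝐍(B) ∧ a * a = 1 ∧ a' * a' = 1 ∧ a ≠ 1 ∧ a' ≠ 1 ∧ a ≠ a' :=
        ⟨a', p1, p2, a, ha, hn, p3, h2, p4, h1, p5⟩
      have pb : ∃ a ∈ B, a ∈ 𝐍(A) ∧ ∃ a' ∈ B, a' ∈ 𝐍(A) ∧ a * a = 1 ∧ a' * a' = 1 ∧ a ≠ 1 ∧ a' ≠ 1 ∧ a ≠ a' :=
        ⟨z', q1, q2, z, hz, hz', q3, h4, q4, h3, q5⟩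
      exact Or.inr ⟨fun a ha e b hb e' => h.comm0 hA hB hne ha (h.pre hB hA hne.symm pb pa eb ea ha e) hb
        (h.pre hA hB hne pa pb ea eb hb e'), fun a ha e _ b hb e' => eb b hb (h.nrc hA ha e e'.symm),
        fun a ha e _ b hb e' => ea b hb (h.nrc hB ha e e'.symm)⟩
    push Not at eb
    obtain ⟨c, l1, l2, l3⟩ := eb
    obtain ⟨d, l4, l5⟩ := h.ne A hA
    exact (l5 (ea d l4 (k2 c l1 l2 l3 l4))).elim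
  push Not at ea
  obtain ⟨c, l1, l2, l3⟩ := ea
  obtain ⟨d, l4, l5⟩ := h.ne B hB
  have l6 := k1 c l1 l2 l3
  exact Or.inl fun a ha b hb => h.comm0 hA hB hne ha (k2 d l4 (l6 l4) l5 ha) hb (l6 hb)

end TF

end Cfsg.Agent.H4.TI
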