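import Cfsg.Agent.H4.TI2

/-! Abelian TI `2`-subgroups: elations. -/

set_option autoImplicit false
set_option linter.unusedSectionVars false

namespace Cfsg.Agent.H4.TI

open Subgroup Cfsg.Agent.FT Cfsg.Agent.L0 Cfsg.Agent.H8
open Cfsg.Agent.H2.CI (cjm cjm' ea_comm ea_pgroup mem_cj' cj_mem_cj)

universe u

variable {G : Type u} [Group G] [Finite G] {Γ : Set (Subgroup G)} {A B C D E F P Q R S T X Y : Subgroup G}
  {a b c d e f g k l n s t v w x y z : G}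

theorem ea_sup (hX : ∀ a ∈ X, a * a = 1) (hY : ∀ a ∈ Y, a * a = 1) (hc : ∀ a ∈ X, ∀ b ∈ Y, a * b = b * a) :
    (∀ f ∈ X ⊔ Y, f * f = 1) ∧ ∀ f ∈ X ⊔ Y, ∃ a ∈ X, ∃ b ∈ Y, a * b = f := by
  have k : ∀ f ∈ X ⊔ Y, ∃ a ∈ X, ∃ b ∈ Y, a * b = f := fun f =>
    (mem_sup_of_le_normalizer' fun a ha => nrm_of_cm (hc a ha)).1
  refine ⟨fun f hf => ?_, k⟩
  obtain ⟨a, ha, b, hb, rfl⟩ := k f hf
  exact msq (hX a ha) (hY b hb) (hc a ha b hb)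

theorem exists_nc (hT : IsPGroup 2 T) (hA : A < T) : ∃ T1, T1 < T ∧ ∀ t ∈ T, cj t A ≤ T1 := by
  have := Fact.mk Nat.prime_two
  obtain ⟨T1, h1, h2⟩ := Finite.exists_le_maximal (p := fun K => K < T) hA
  have h3 := lt_inf_normalizer_of_pgroup hT h2.1
  have h4 : T ≤ 𝐍(T1) := by
    by_contra hn
    exact h3.not_ge (h2.2 (lt_of_le_of_ne inf_le_left fun e => hn (e ▸ inf_le_right)) h3.le)
  exact ⟨T1, h2.1, fun t ht => cj_le_of_mem_normalizer (h4 ht) h1⟩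

theorem card_lt (h : A < T) : #|A| < #|T| := H9.card_lt_of_lt h.le h.not_ge

/-- exponent `4` -/
def E4 (Γ : Set (Subgroup G)) : Prop := ∀ D ∈ Γ, ∀ s ∈ D, s * s * (s * s) = 1

namespace TF

variable (h : TF Γ)
include h

theorem om1 (hA : A ∈ Γ) (ha : a ∈ om A) : a ∈ A := ((h.mem_om hA).1 ha).1

theorem om2 (hA : A ∈ Γ) (ha : a ∈ om A) : a * a = 1 := ((h.mem_om hA).1 ha).2

theorem om3 (hA : A ∈ Γ) (ha : a ∈ A) (h2 : a * a = 1) : a ∈ om A := (h.mem_om hA).2 ⟨ha, h2⟩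

theorem actF (e4 : E4 Γ) (hD : D ∈ Γ) (hF : ∀ f ∈ F, f * f = 1) (hle : om D ≤ F) (hs : s ∈ D) (hf : f ∈ F) :
    s * f * s⁻¹ * f ∈ om D := by
  obtain ⟨v, hv, h1, h2⟩ := h.inv hD
  have h3 := cjm (h.nrc hD hv h1 (ea_comm hF hf (hle (h.om3 hD hv h2)))) (inv_mem hs)
  have h4 := ea_comm hF hf (hle (h.om3 hD (mul_mem hs hs) (e4 D hD s hs)))
  have h5 := h.ab D hD _ h3 _ hs
  have e : s * f * s⁻¹ * f = s * (f * s⁻¹ * f⁻¹) := by rw [ie (hF f hf)]; group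
  rw [e]
  refine h.om3 hD (mul_mem hs h3) ?_
  calc _ = s * (f * s⁻¹ * f⁻¹ * s) * (f * s⁻¹ * f⁻¹) := by group
    _ = s * s * (f * (s * s) * f⁻¹)⁻¹ := by rw [h5]; group
    _ = 1 := by rw [cc h4]; group

theorem nF (e4 : E4 Γ) (hD : D ∈ Γ) (hF : ∀ f ∈ F, f * f = 1) (hle : om D ≤ F) (hs : s ∈ D) : s ∈ 𝐍(F) :=
  H9.mem_normalizer_of_conj_mem fun f hf => by
    convert mul_mem (hle (h.actF e4 hD hF hle hs hf)) hf using 1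
    gsp [rI (hF f hf)]

variable (hA : A ∈ Γ) (hB : B ∈ Γ)
include hA hB

theorem rn (r : Rl A B) (ha : a ∈ A) (h2 : a * a = 1) : a ∈ 𝐍(B) :=
  let ⟨v, hv, k1, k2⟩ := h.inv hB
  h.nrc hB hv k1 (r a ha h2 v hv k2)

theorem tne (t : T2 A B) : A ≠ B := fun e => by
  obtain ⟨a, ha, k1, k2⟩ := h.inv hA
  obtain ⟨b, hb, k3⟩ := h.ne B hB
  exact k3 (t.fa a ha k1 k2 b hb (h.ab B hB a (e ▸ ha) b hb))

theorem ncm (t : T2 A B) : ¬ Cm A B := fun e => by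
  obtain ⟨a, ha, k1, k2⟩ := h.inv hA
  obtain ⟨b, hb, k3⟩ := h.ne B hB
  exact k3 (t.fa a ha k1 k2 b hb (e a ha b hb))

theorem sqA (t : T2 A B) (ha : a ∈ A) (hn : a ∈ 𝐍(B)) : a * a = 1 :=
  let ⟨v, hv, k1, k2, k3⟩ := h.fixv hA hB ha hn
  t.fb v hv k1 k2 a ha k3.symm

theorem tri (ha : a ∈ A) (h1 : a ≠ 1) (hn : a ∈ 𝐍(B)) : Cm A B ∨ T2 A B := by
  by_cases e : A = B
  · subst e; exact Or.inl (h.ab A hA)
  · exact h.dich hA hB e ha h1 hn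

theorem rl_of (ha : a ∈ A) (h1 : a ≠ 1) (hn : a ∈ 𝐍(B)) : Rl A B := (h.tri hA hB ha h1 hn).elim Cm.rel T2.rel

theorem rl_of' (ha : a ∈ A) (h1 : a ≠ 1) (hb : b ∈ B) (h2 : b ≠ 1) (e : a * b = b * a) : Rl A B :=
  h.rl_of hA hB ha h1 (h.nrc hB hb h2 e)

theorem tri' (r : Rl A B) : Cm A B ∨ T2 A B :=
  let ⟨_, ha, k1, k2⟩ := h.inv hA
  h.tri hA hB ha k1 (h.rn hA hB r ha k2)

theorem t2_of (r : Rl A B) (ha : a ∈ A) (hb : b ∈ B) (e : a * b ≠ b * a) : T2 A B :=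
  (h.tri' hA hB r).resolve_left fun k => e (k a ha b hb)

theorem cm_of (ha : a ∈ A) (h1 : a * a ≠ 1) (hn : a ∈ 𝐍(B)) : Cm A B :=
  (h.tri hA hB ha (fun e => h1 (by rw [e, mul_one])) hn).resolve_right fun t => h1 (h.sqA hA hB t ha hn)

theorem cm_of' (ha : a ∈ A) (h1 : a * a ≠ 1) (hb : b ∈ B) (h2 : b ≠ 1) (e : a * b = b * a) : Cm A B :=
  h.cm_of hA hB ha h1 (h.nrc hB hb h2 e)

theorem e4 (t : T2 A B) : E4 Γ := fun D hD s hs => by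
  obtain ⟨g, rfl⟩ := h.tr B hB D hD
  obtain ⟨b, hb, rfl⟩ := mem_cj' hs
  obtain ⟨a, ha, a', ha', k1, k2, k3, k4, k5⟩ := h.four A hA
  have := h.sqA hB hA t.symm (mul_mem hb hb) (h.cl1 hA hB (h.tne hA hB t) ha (h.rn hA hB t.rel ha k1) ha'
    (h.rn hA hB t.rel ha' k2) k1 k2 k3 k4 k5 hb)
  calc _ = g * (b * b * (b * b)) * g⁻¹ := by group
    _ = 1 := by rw [this]; group

theorem eaE (r : Rl A B) : (∀ f ∈ om A ⊔ om B, f * f = 1) ∧ ∀ f ∈ om A ⊔ om B, ∃ a ∈ om A, ∃ b ∈ om B, a * b = f :=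
  ea_sup (fun _ => h.om2 hA) (fun _ => h.om2 hB) fun a ha b hb =>
    r a (h.om1 hA ha) (h.om2 hA ha) b (h.om1 hB hb) (h.om2 hB hb)

theorem cmm (e4 : E4 Γ) (r : Rl A B) (ha : a ∈ om A) (hb : b ∈ B) : b * a * b⁻¹ * a ∈ om B :=
  h.actF e4 hB (h.eaE hA hB r).1 le_sup_right hb (mem_sup_left ha)

theorem rc (r : Rl A B) (ha : a ∈ om A) (hb : b ∈ om B) : a * b = b * a :=
  r a (h.om1 hA ha) (h.om2 hA ha) b (h.om1 hB hb) (h.om2 hB hb)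

theorem f1 (t : T2 A B) (ha : a ∈ om A) (hb : b ∈ B) (h1 : b * b ≠ 1) (e : b * a = a * b) : a = 1 :=
  by_contra fun k => h1 (t.fa a (h.om1 hA ha) k (h.om2 hA ha) b hb e.symm)

theorem inj (t : T2 A B) (hb : b ∈ B) (h1 : b * b ≠ 1) (ha : a ∈ om A) (hc : c ∈ om A)
    (e : b * a * b⁻¹ * a = b * c * b⁻¹ * c) : a = c := by
  have k1 := h.om2 hA ha
  have k2 := h.om2 hA hc
  have := h.f1 hA hB t (mul_mem hc ha) hb h1 (cc' (by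
    calc _ = b * c * b⁻¹ * (b * a * b⁻¹ * a) * a := by gsp [rI k1]
      _ = _ := by rw [e]; gsp [rI k2]))
  rw [eq_inv_of_mul_eq_one_right this, ie k2]

theorem sur (t : T2 A B) (hb : b ∈ B) (h1 : b * b ≠ 1) (hv : v ∈ om B) : ∃ a ∈ om A, b * a * b⁻¹ * a = v :=
  onto (h.card_om hB hA).le _ (fun _ ha => h.cmm hA hB (h.e4 hA hB t) t.rel ha hb)
    (fun _ ha _ hc => h.inj hA hB t hb h1 ha hc) hv

theorem not_two (t : T2 A B) (hT : IsPGroup 2 T) (h1 : A ≤ T) (h2 : B ≤ T) : False := by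
  obtain ⟨k1, k2⟩ := h.eaE hA hB t.rel
  have e4 := h.e4 hA hB t
  obtain ⟨a, ha, k3, k4⟩ := h.inv hA
  obtain ⟨f, hf, l1, -, l2⟩ := fix (hT.to_le (sup_le h1 h2)) (ea_pgroup k1)
    (fun e => k3 (mem_bot.1 (e ▸ mem_sup_left (h.om3 hA ha k4))))
    (sup_le (fun _ => h.nF e4 hA k1 le_sup_left) fun _ => h.nF e4 hB k1 le_sup_right)
  obtain ⟨a, ha, b, hb, rfl⟩ := k2 f hf
  obtain ⟨c, hc, m1⟩ := h.ne A hA
  obtain ⟨d, hd, m2⟩ := h.ne B hB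
  have e1 := h.f1 hB hA t.symm hb hc m1 (mul_left_cancel (a := a) (by
    rw [← mul_assoc, ← h.ab A hA _ hc _ (h.om1 hA ha), mul_assoc, l2 c (mem_sup_left hc), mul_assoc]))
  have e2 := h.f1 hA hB t ha hd m2 (by simpa [e1] using l2 d (mem_sup_right hd))
  exact l1 (by rw [e1, e2, mul_one])

theorem ca (t : T2 A B) (h1 : ∀ a ∈ om A, k * a = a * k) (h2 : ∀ v ∈ om B, k * v = v * k) (ha : a ∈ A) :
    ∃ m ∈ om A, k * a * k⁻¹ = a * m := by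
  obtain ⟨v, hv, k1, k2⟩ := h.inv hB
  obtain ⟨w, hw, k3, k4⟩ := h.inv hA
  have hv' := h.om3 hB hv k2
  have k5 := mul_mem (inv_mem ha) (cjm (h.nrc hA hw k3 (h1 w (h.om3 hA hw k4))) ha)
  refine ⟨_, h.om3 hA k5 (t.fb v hv k1 k2 _ k5 (cc' ?_).symm), by group⟩
  have k6 := h1 _ (h.cmm hB hA (h.e4 hA hB t) t.rel.symm hv' ha)
  have k7 := h2 v hv'
  calc _ = a⁻¹ * (k * (a * (k⁻¹ * v) * k * a⁻¹ * v) * (v⁻¹ * k⁻¹)) * a := by group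
    _ = a⁻¹ * (k * (a * v * a⁻¹ * v) * k⁻¹ * v⁻¹) * a := by rw [(rC k7).1.2.1, ← (rC k7).1.2.2.2]; group
    _ = v := by rw [cc k6]; group

theorem invt (t : T2 A B) (hb : b ∈ B) (h1 : d * d = 1) (h2 : ∀ a ∈ om A, b * a * b⁻¹ = d * a * d⁻¹)
    (h3 : ∀ v ∈ om B, d * v = v * d) : d * b * d⁻¹ = b⁻¹ := by
  obtain ⟨a, ha, k1⟩ := h.ne A hA
  obtain ⟨v, hv, l1, l2⟩ := h.inv hB
  have k2 : ∀ a ∈ om A, b⁻¹ * d * a = a * (b⁻¹ * d) := fun a ha => cc' (by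
    calc _ = b⁻¹ * (d * a * d⁻¹) * b := by group
      _ = a := by rw [← h2 a ha]; group)
  obtain ⟨m, hm, e⟩ := h.ca hA hB t k2 (fun v hv => by
    gsp [rC (h3 v hv), rC (h.ab B hB _ hb _ (h.om1 hB hv))]) ha
  have k3 : b⁻¹ * d * (b⁻¹ * d) = b⁻¹ * (d * b⁻¹ * d⁻¹) := by rw [ie h1]; group
  have k4 : b⁻¹ * d * (b⁻¹ * d) ∈ B := k3 ▸ mul_mem (inv_mem hb) (cjm (h.nrc hB hv l1 (h3 v (h.om3 hB hv l2))) (inv_mem hb))
  have k5 : a * (b⁻¹ * d * (b⁻¹ * d)) = b⁻¹ * d * (b⁻¹ * d) * a := by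
    have := k2 m hm
    generalize b⁻¹ * d = κ at *
    refine (cc' ?_).symm
    calc _ = κ * (κ * a * κ⁻¹) * κ⁻¹ := by group
      _ = κ * (a * m) * κ⁻¹ := by rw [e]
      _ = κ * a * κ⁻¹ * (κ * m * κ⁻¹) := by group
      _ = a := by rw [e, cc this]; gsp [rI (h.om2 hA hm)]
  have k6 := h.f1 hB hA t.symm (h.om3 hB k4 (h.sqA hB hA t.symm k4 (h.nrc hA ha (fun e => k1 (by rw [e, mul_one]))
    k5.symm))) ha k1 k5
  rw [k3, inv_mul_eq_one] at k6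
  rw [← inv_inj, inv_inv]
  exact Eq.trans (by group) k6.symm

theorem twoE (t : T2 A B) (h1 : n ∈ 𝐍(A)) (h2 : ∀ v ∈ om B, n * v = v * n) (h3 : ∀ a ∈ om A, n * n * a = a * (n * n))
    (ha : a ∈ om A) : n * a = a * n := by
  have e4 := h.e4 hA hB t
  obtain ⟨c, hc, k1, m, hm, e⟩ : ∃ c ∈ A, c * c ≠ 1 ∧ ∃ m ∈ om A, n * c * n⁻¹ = c * m := by
    obtain ⟨c, hc, k1⟩ := h.ne A hA
    have k2 := cjm h1 hc
    by_cases k : c * (n * c * n⁻¹) * (c * (n * c * n⁻¹)) = 1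
    · refine ⟨c, hc, k1, _, mul_mem (inv_mem (h.om3 hA (mul_mem hc hc) (e4 A hA c hc))) (h.om3 hA (mul_mem hc k2) k), ?_⟩
      group
    obtain ⟨m, hm, e⟩ := h.ca hA hB t h3 (fun v hv => by gsp [rC (h2 v hv)]) hc
    refine ⟨_, mul_mem hc k2, k, m, hm, ?_⟩
    calc _ = n * c * n⁻¹ * (n * n * c * (n * n)⁻¹) := by group
      _ = _ := by rw [e, ← mul_assoc, h.ab A hA _ k2 _ hc]
  obtain ⟨v, hv, rfl⟩ := h.sur hB hA t.symm hc k1 ha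
  refine cc' ?_
  calc _ = n * c * n⁻¹ * (n * v * n⁻¹) * (n * c * n⁻¹)⁻¹ * (n * v * n⁻¹) := by group
    _ = _ := by rw [e, cc (h2 v hv)]; gsp [rC (h.rc hA hB t.rel hm hv)]

end TF

theorem TF.two_cm (h : TF Γ) (hT : IsPGroup 2 T) (hA : A ∈ Γ) (hB : B ∈ Γ) (h1 : A ≤ T) (h2 : B ≤ T) : Cm A B := by
  induction hn : #|T| using Nat.strong_induction_on generalizing T A B with | _ N ih => ?_
  have ih' := fun T1 (k : T1 < T) {A B} hA hB => ih _ (hn ▸ card_lt k) (T := T1) (A := A) (B := B) (hT.to_le k.le) hA hB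
  have key : ∀ A ∈ Γ, ∀ B ∈ Γ, A ≤ T → B ≤ T → A ≠ B → ∀ t ∈ T, Cm A (H8.cj t A) := fun A hA B hB h1 h2 hne t ht => by
    obtain ⟨v, hv, k1, -⟩ := h.inv hB
    obtain ⟨T1, k2, k3⟩ := exists_nc hT (lt_of_le_of_ne h1 fun e => k1 (h.one hA hB hne (e ▸ h2 hv) hv))
    exact ih' T1 k2 hA (h.cj A hA t) (cj_one A ▸ k3 1 (one_mem _)) (k3 t ht) rfl
  by_cases hne : A = B
  · subst hne; exact h.ab A hA
  obtain ⟨a, ha, k1⟩ := h.ne A hA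
  obtain ⟨d, hd, k2, k3⟩ := h.inv hB
  have k4 := key A hA B hB h1 h2 hne d (h2 hd) a ha _ (conj_mem_cj d ha)
  have k5 := key B hB A hA h2 h1 (Ne.symm hne) a⁻¹ (inv_mem (h1 ha)) d hd _ (conj_mem_cj a⁻¹ hd)
  have k6 : d * (a * a) = a * a * d := by
    have e : a⁻¹ * (d * a * d⁻¹) * (a⁻¹ * (d * a * d⁻¹)) = 1 := by
      calc _ = a⁻¹ * d * a⁻¹⁻¹ * (d⁻¹ * (a⁻¹ * d * a⁻¹⁻¹)) * d⁻¹ := by group
        _ = 1 := by rw [(rC k5).1.2.1]; gsp [rI k3]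
    refine cc' ?_
    calc _ = d * a * d⁻¹ * (d * a * d⁻¹) := by group
      _ = a * a * (a⁻¹ * (d * a * d⁻¹) * (a⁻¹ * (d * a * d⁻¹))) := by
        generalize d * a * d⁻¹ = w at *; gsp [rC k4.symm]
      _ = _ := by rw [e, mul_one]
  exact ((h.tri hB hA hd k2 (h.nrc hA (mul_mem ha ha) k1 k6)).resolve_right fun t => h.not_two hB hA t hT h2 h1).symm

end Cfsg.Agent.H4.TI
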