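import Cfsg.Agent.H4.TI3

/-! Abelian TI `2`-subgroups: the triangle configuration. -/

set_option autoImplicit false
set_option linter.unusedSectionVars false

namespace Cfsg.Agent.H4.TI

open Subgroup Cfsg.Agent.FT Cfsg.Agent.L0 Cfsg.Agent.H8
open Cfsg.Agent.H2.CI (cjm cjm' ea_comm ea_pgroup mem_cj' cj_mem_cj)

universe u

variable {G : Type u} [Group G] [Finite G] {Γ : Set (Subgroup G)} {A B C D E F P Q R S T X Y : Subgroup G}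
  {a b c d e f g k l n s t v w x y z : G}

theorem fxm (h1 : g * a * g⁻¹ = a) (h2 : g * b * g⁻¹ = b) : g * (a * b) * g⁻¹ = a * b := by
  calc _ = g * a * g⁻¹ * (g * b * g⁻¹) := by group
    _ = _ := by rw [h1, h2]

theorem fxl (h1 : g * (a * b) * g⁻¹ = a * b) (h2 : g * b * g⁻¹ = b) : g * a * g⁻¹ = a := by
  calc _ = g * (a * b) * g⁻¹ * (g * b * g⁻¹)⁻¹ := by group
    _ = _ := by rw [h1, h2]; group

theorem fxr (h1 : g * (a * b) * g⁻¹ = a * b) (h2 : g * a * g⁻¹ = a) : g * b * g⁻¹ = b := by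
  calc _ = (g * a * g⁻¹)⁻¹ * (g * (a * b) * g⁻¹) := by group
    _ = _ := by rw [h1, h2]; group

theorem fxc : l * y * l⁻¹ * f * (l * y * l⁻¹)⁻¹ = f ↔ y * (l⁻¹ * f * l) * y⁻¹ = l⁻¹ * f * l :=
  ⟨fun h => cc (ccj' (cc' h)), fun h => by
    calc _ = l * (y * (l⁻¹ * f * l) * y⁻¹) * l⁻¹ := by group
      _ = f := by rw [h]; group⟩

/-- the triangle -/
structure Tr (A B D : Subgroup G) : Prop where
  ab : T2 A B
  db : T2 D B
  nr : ¬ Rl A D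
  cm : ∀ a ∈ om A, ∀ d ∈ om D, d * a * d⁻¹ * a ∈ om B

namespace TF

variable (h : TF Γ)
include h

theorem omc (_ : A ∈ Γ) (ha : a ∈ om A) (g : G) : g * a * g⁻¹ ∈ om (H8.cj g A) := cj_om g A ▸ conj_mem_cj g ha

theorem omN (hA : A ∈ Γ) (ha : a ∈ om A) (hg : g ∈ 𝐍(A)) : g * a * g⁻¹ ∈ om A :=
  h.om3 hA (cjm hg (h.om1 hA ha)) (sqc (h.om2 hA ha) g)

theorem omi (hA : A ∈ Γ) : ∃ a ∈ om A, a ≠ 1 :=
  let ⟨a, ha, k1, k2⟩ := h.inv hA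
  ⟨a, h.om3 hA ha k2, k1⟩

theorem omm (hA : A ∈ Γ) (ha : a ∈ om A) (hb : b ∈ A) : a * b = b * a := h.ab A hA _ (h.om1 hA ha) _ hb

theorem rl_om (hA : A ∈ Γ) (hB : B ∈ Γ) (ha : a ∈ om A) (h1 : a ≠ 1) (hb : b ∈ om B) (h2 : b ≠ 1) (e : a * b = b * a) :
    Rl A B := h.rl_of' hA hB (h.om1 hA ha) h1 (h.om1 hB hb) h2 e

theorem lemK (hA : A ∈ Γ) (hB : B ∈ Γ) (t : T2 A B) (h1 : x * x = 1) (h2 : ∀ v ∈ om B, x * v = v * x)
    (h3 : Rl A (H8.cj x A)) (h4 : ∀ a ∈ om A, ∀ b ∈ B, b * (x * a * x⁻¹ * a) = x * a * x⁻¹ * a * b) :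
    Cm A (H8.cj x A) ∨ ∃ C ∈ Γ, ∃ c ∈ C, c * c ≠ 1 ∧ (∀ a ∈ om A, c * a * c⁻¹ = x * a * x⁻¹) ∧ Cm C B ∧ T2 A C := by
  refine or_iff_not_imp_left.2 fun hn => ?_
  have e4 := h.e4 hA hB t
  have hA' := h.cj A hA x
  obtain ⟨a0, h0, h0'⟩ := h.ne A hA
  obtain ⟨b0, k0, k0'⟩ := h.ne B hB
  obtain ⟨p1, p2⟩ := h.eaE hA hA' h3
  obtain ⟨hF, p3⟩ := ea_sup p1 (fun _ => h.om2 hB) fun f hf v hv => by
    obtain ⟨a, ha, a', ha', rfl⟩ := p2 f hf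
    obtain ⟨a', k, rfl⟩ := mem_cj' (cj_om x A ▸ ha' : a' ∈ H8.cj x (om A))
    gsp [rC (h.rc hA hB t.rel ha hv), rC (h.rc hA hB t.rel k hv), rC (h2 v hv)]
  set F := om A ⊔ om (H8.cj x A) ⊔ om B
  have lA : om A ≤ F := le_sup_left.trans le_sup_left
  have lB : om B ≤ F := le_sup_right
  have hX1 : ∀ a ∈ om A, x * a * x⁻¹ = a → a = 1 := fun a ha e => by_contra fun e' =>
    hn (by rw [cj_eq_self (h.nrc hA (h.om1 hA ha) e' (cc' e))]; exact h.ab A hA)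
  have D1 : ∀ f ∈ F, ∃ a ∈ om A, ∃ g ∈ F, (∀ b ∈ B, b * g = g * b) ∧ x * g * x⁻¹ = g ∧ f = a * g := fun f hf => by
    obtain ⟨f, hf', v, hv, rfl⟩ := p3 f hf
    obtain ⟨a, ha, a', ha', rfl⟩ := p2 f hf'
    obtain ⟨c, k, rfl⟩ := mem_cj' (cj_om x A ▸ ha' : a' ∈ H8.cj x (om A))
    have k1 : x * c * x⁻¹ ∈ F := le_sup_left (a := om A ⊔ om (H8.cj x A)) (mem_sup_right ha')
    have k2 := ea_comm hF k1 (lA k)
    refine ⟨_, mul_mem ha k, _, mul_mem (mul_mem k1 (lA k)) (lB hv), fun b hb => ?_, fxm ?_ (cc (h2 v hv)), ?_⟩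
    · rw [← mul_assoc, h4 c k b hb, mul_assoc, ← h.omm hB hv hb, ← mul_assoc]
    · conv_rhs => rw [k2]
      gsp [rI h1]
    · rw [k2]; gsp [rI (h.om2 hA k)]
  have FB : ∀ f ∈ F, x * f * x⁻¹ = f ↔ b0 * f * b0⁻¹ = f := fun f hf => by
    obtain ⟨a, ha, g, hg, l1, l2, rfl⟩ := D1 f hf
    refine ⟨fun e => ?_, fun e => ?_⟩
    · rw [hX1 a ha (fxl e l2), one_mul, cc (l1 b0 k0)]
    · rw [h.f1 hA hB t ha k0 k0' (cc' (fxl e (cc (l1 b0 k0)))), one_mul, l2]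
  have FB' : ∀ f ∈ F, x * f * x⁻¹ = f → ∀ b ∈ B, b * f = f * b := fun f hf e => by
    obtain ⟨a, ha, g, hg, l1, l2, rfl⟩ := D1 f hf
    rwa [hX1 a ha (fxl e l2), one_mul]
  have nx : x ∈ 𝐍(F) := H9.mem_normalizer_of_conj_mem fun f hf => by
    obtain ⟨a, ha, g, hg, l1, l2, rfl⟩ := D1 f hf
    have := mul_mem (le_sup_left (a := om A ⊔ om (H8.cj x A)) (mem_sup_right (h.omc hA ha x)) : _ ∈ F) hg
    convert this using 1
    conv_rhs => rw [← l2]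
    group
  have n0 := h.nF e4 hA hF lA h0
  have D2 : ∀ f ∈ F, ∃ v ∈ om B, a0 * (f * v) * a0⁻¹ = f * v := fun f hf => by
    have k1 := h.actF e4 hA hF lA h0 hf
    obtain ⟨v, hv, e⟩ := h.sur hB hA t.symm h0 h0' k1
    refine ⟨v, hv, ?_⟩
    calc _ = a0 * f * a0⁻¹ * f * f⁻¹ * (a0 * v * a0⁻¹ * v) * v⁻¹ := by group
      _ = _ := by
        rw [e, ie (hF f hf), ie (h.om2 hB hv), ea_comm hF (lA k1) hf, mul_assoc f, h.om2 hA k1, mul_one]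
  have nl : ∀ j : ℕ, (a0 * x) ^ j ∈ 𝐍(F) := fun j => pow_mem (mul_mem n0 nx) j
  have cl : ∀ j : ℕ, ∀ g, a0 * g * a0⁻¹ = g → x * g * x⁻¹ = g → ((a0 * x) ^ j)⁻¹ * g * (a0 * x) ^ j = g :=
    fun j g e1 e2 => by
      have : Commute (a0 * x) g := Commute.mul_left (cc' e1) (cc' e2)
      rw [mul_assoc, ← (this.pow_left j).eq]; group
  obtain ⟨j, hj⟩ := ax (F1 := 𝐂[a0]) (X := om A) hF n0 nx
    (cen fun f hf => ea_comm hF (lA (h.om3 hA (mul_mem h0 h0) (e4 A hA a0 h0))) hf) (by rw [h1]; exact one_mem _)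
    (fun f hf e => by
      obtain ⟨a, ha, g, hg, l1, l2, rfl⟩ := D1 f hf
      by_cases e1 : a = 1
      · rw [e1, one_mul, l2]
      refine (hn (h.cm_of' hA hA' h0 h0' (conj_mem_cj x (h.om1 hA ha)) (cne e1 x) (cc' (fxl (b := a) ?_
        (cc (h.omm hA ha h0).symm))))).elim
      have e2 : x * (a * g) * x⁻¹ * (a * g) = x * a * x⁻¹ * a := by
        calc _ = x * a * x⁻¹ * (x * g * x⁻¹ * a) * g := by group
          _ = _ := by rw [l2, ea_comm hF hg (lA ha)]; gsp [rI (hF g hg)]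
      exact cc (mem_centralizer_singleton_iff.1 (e2 ▸ e)).symm)
    (let ⟨a, ha, e⟩ := h.omi hA; ⟨a, lA ha, fun e' => e (hX1 a ha e')⟩)
    (fun j y hy δ k1 k2 k3 k4 => by
      obtain ⟨D, hD, d, hd, l1, l2, l3, l4, l5⟩ : ∃ D ∈ Γ, ∃ d ∈ D, d * d ≠ 1 ∧ om D ≤ F ∧
          (∀ f ∈ F, y * f * y⁻¹ = f ↔ d * f * d⁻¹ = f) ∧ (∀ g, a0 * g * a0⁻¹ = g → x * g * x⁻¹ = g → y * g * y⁻¹ = g) ∧
          ∀ f ∈ F, y * f * y⁻¹ = f → ∃ w ∈ om D, a0 * (f * w) * a0⁻¹ = f * w ∧ x * (f * w) * x⁻¹ = f * w := by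
        rcases hy with rfl | rfl
        · refine ⟨A, hA, y, h0, h0', lA, fun _ _ => Iff.rfl, fun _ e _ => e, fun f hf e => ?_⟩
          obtain ⟨a, ha, g, hg, l1, l2, rfl⟩ := D1 f hf
          have e1 : a * g * a = g := by rw [ea_comm hF (lA ha) hg, mul_assoc, h.om2 hA ha, mul_one]
          exact ⟨a, ha, fxm e (cc (h.omm hA ha h0).symm), by rw [e1, l2]⟩
        · exact ⟨B, hB, b0, k0, k0', lB, FB, fun _ _ e => e, fun f hf e =>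
            let ⟨v, hv, e'⟩ := D2 f hf; ⟨v, hv, e', fxm e (cc (h2 v hv))⟩⟩
      have m1 := nl j
      have m2 := cl j
      generalize (a0 * x) ^ j = l at *
      have m3 : ∀ g, a0 * g * a0⁻¹ = g → x * g * x⁻¹ = g → l * y * l⁻¹ * g * (l * y * l⁻¹)⁻¹ = g := fun g e1 e2 => by
        rw [fxc, m2 g e1 e2, l4 g e1 e2]
      obtain ⟨v, hv, e⟩ := D2 δ k1
      have m4 : v ≠ 1 := fun e' => k2 (mem_centralizer_singleton_iff.2 (by simpa [e'] using (cc' e).symm))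
      have m5 : Cm (H8.cj l D) B := h.cm_of' (h.cj D hD l) hB (conj_mem_cj l hd) (fun e => l1 (sq_of e)) (h.om1 hB hv) m4
        (cc' (fxc.2 ((l3 _ (cjm' m1 (lB hv))).1 (fxc.1 (fxr (m3 _ e (fxm k3 (cc (h2 v hv)))) k4)))))
      intro f hf
      refine ⟨fun e1 => ?_, fun e1 => ?_⟩
      · obtain ⟨w, hw, e2⟩ := D2 f hf
        exact fxl (m3 _ e2 (fxm e1 (cc (h2 w hw)))) (fxc.2 ((l3 _ (cjm' m1 (lB hw))).2
          (fxc.1 (cc (m5 _ (conj_mem_cj l hd) _ (h.om1 hB hw))))))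
      · obtain ⟨w, hw, e2, e3⟩ := l5 _ (cjm' m1 hf) (fxc.1 e1)
        have e4 : f * (l * w * l⁻¹) = l⁻¹ * f * l * w := by
          conv_lhs => rw [show f * (l * w * l⁻¹) = l * (l⁻¹ * f * l * w) * l⁻¹ by group, ← m2 _ e2 e3]
          group
        refine fxl (b := l * w * l⁻¹) (by rw [e4, e3]) ((FB _ (cjm m1 (l2 hw))).2 (cc ?_))
        exact (m5 _ (conj_mem_cj l (h.om1 hD hw)) _ k0).symm)
    lA (fun f hf => h.actF e4 hA hF lA h0 hf)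
    (fun a ha => let ⟨v, hv, e⟩ := h.sur hB hA t.symm h0 h0' ha; ⟨v, lB hv, e⟩) hX1
    (fun f hf => by
      obtain ⟨a, ha, g, hg, l1, l2, rfl⟩ := D1 f hf
      refine ⟨a, ha, ?_⟩
      rw [← mul_assoc a, h.om2 hA ha, one_mul, l2])
  have m1 := nl j
  generalize (a0 * x) ^ j = l at *
  have hC := h.cj A hA l
  have hc := conj_mem_cj l h0
  have hc' : l * a0 * l⁻¹ * (l * a0 * l⁻¹) ≠ 1 := fun e => h0' (sq_of e)
  obtain ⟨v, hv, m2⟩ := h.omi hB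
  obtain ⟨a, ha, m3⟩ := h.omi hA
  exact ⟨_, hC, _, hc, hc', fun a ha => hj a (lA ha), h.cm_of' hC hB hc hc' (h.om1 hB hv) m2
    (cc' ((hj v (lB hv)).trans (cc (h2 v hv)))), h.t2_of hA hC (h.rl_om hA hC ha m3 (h.omc hA ha l) (cne m3 l)
      (ea_comm hF (lA ha) (cjm m1 (lA ha)))) (h.om1 hA ha) hc fun e => m3 (hX1 a ha ((hj a (lA ha)).symm.trans (cc e.symm)))⟩

theorem sw0 (hA : A ∈ Γ) (hC : C ∈ Γ) (ha : a ∈ om A) (t : T2 C (H8.cj a C)) : ∃ D ∈ Γ, T2 A D ∧ T2 C D := by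
  have hC' := h.cj C hC a
  have e4 := h.e4 hC hC' t
  have a2 := h.om2 hA ha
  have hne := h.tne hC hC' t
  obtain ⟨c0, h0, h0'⟩ := h.ne C hC
  obtain ⟨hF, p⟩ := h.eaE hC hC' t.rel
  set F := om C ⊔ om (H8.cj a C)
  have lC : om C ≤ F := le_sup_left
  have lC' : ∀ u ∈ om C, a * u * a⁻¹ ∈ F := fun u hu => mem_sup_right (h.omc hC hu a)
  have p' : ∀ f ∈ F, ∃ u ∈ om C, ∃ w ∈ om C, u * (a * w * a⁻¹) = f := fun f hf => by
    obtain ⟨u, hu, w, hw, rfl⟩ := p f hf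
    obtain ⟨w, k, rfl⟩ := mem_cj' (cj_om a C ▸ hw : w ∈ H8.cj a (om C))
    exact ⟨u, hu, w, k, rfl⟩
  have na : a ∈ 𝐍(F) := H9.mem_normalizer_of_conj_mem fun f hf => by
    obtain ⟨u, hu, w, hw, rfl⟩ := p' f hf
    convert mul_mem (lC' u hu) (lC hw) using 1
    gsp [rI a2]
  have n0 := h.nF e4 hC hF lC h0
  have k1 : ∀ u ∈ om C, a * u * a⁻¹ = u → u = 1 := fun u hu e =>
    h.one hC hC' hne (h.om1 hC hu) (e ▸ conj_mem_cj a (h.om1 hC hu))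
  have CF : ∀ f ∈ F, c0 * f * c0⁻¹ = f → f ∈ om C := fun f hf e => by
    obtain ⟨u, hu, w, hw, rfl⟩ := p f hf
    rwa [h.f1 hC' hC t.symm hw h0 h0' (cc' (fxr e (cc (h.omm hC hu h0).symm))), mul_one]
  have fx : ∀ f ∈ F, a * f * a⁻¹ * f ∈ F ⊓ 𝐂[a] := fun f hf =>
    ⟨mul_mem (cjm na hf) hf, mem_centralizer_singleton_iff.2 (cc' (by
      conv_rhs => rw [ea_comm hF (cjm na hf) hf]
      gsp [rI a2])).symm⟩
  obtain ⟨u0, hu0, hu1⟩ := h.omi hC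
  have a1 : a ≠ 1 := fun e => hu1 (k1 u0 hu0 (by rw [e]; group))
  have nl : ∀ j : ℕ, (a * c0) ^ j ∈ 𝐍(F) := fun j => pow_mem (mul_mem na n0) j
  obtain ⟨j, hj⟩ := ax (F1 := ⊥) (X := F ⊓ 𝐂[a]) hF na n0 (by rw [a2]; exact one_mem _)
    (cen fun f hf => ea_comm hF (lC (h.om3 hC (mul_mem h0 h0) (e4 C hC c0 h0))) hf)
    (fun f hf e => by rw [eq_inv_of_mul_eq_one_left (mem_bot.1 e), ie (hF f hf)])
    ⟨_, lC' u0 hu0, fun e => cne hu1 a (h.f1 hC' hC t.symm (h.omc hC hu0 a) h0 h0' (cc' e))⟩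
    (fun j y hy δ l1 l2 l3 l4 f hf => by
      have m1 := nl j
      generalize (a * c0) ^ j = l at *
      have m2 := CF δ l1 l3
      have m3 : δ ≠ 1 := fun e => l2 (mem_bot.2 e)
      rcases hy with rfl | rfl
      · have hD := h.cj A hA l
        have m4 := h.omc hA ha l
        have m5 := h.rl_om hD hC m4 (cne a1 l) m2 m3 (cc' l4)
        refine ⟨fun e => cc (h.rc hD hC m5 m4 (CF f hf e)), fun e => ?_⟩
        obtain ⟨u, hu, w, hw, rfl⟩ := p f hf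
        have m6 := fxr e (cc (h.rc hD hC m5 m4 hu))
        by_cases e' : w = 1
        · rw [e', mul_one, cc (h.omm hC hu h0).symm]
        have m7 := h.rl_om hD hC' m4 (cne a1 l) hw e' (cc' m6)
        obtain ⟨u', hu', w', hw', e1⟩ := p _ (cjm m1 (lC hu0))
        have m8 := fxc.1 (e1 ▸ fxm (cc (h.rc hD hC m5 m4 hu')) (cc (h.rc hD hC' m7 m4 hw')))
        rw [show l⁻¹ * (l * u0 * l⁻¹) * l = u0 by group] at m8
        exact (hu1 (k1 u0 hu0 m8)).elim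
      · have e := h.ti _ (h.cj C hC l) C hC δ (mem_cj.2 (h.om1 hC (CF _ (cjm' m1 l1) (fxc.1 l4)))) (h.om1 hC m2) m3
        refine ⟨fun e' => cc (h.omm hC (CF f hf e') (e ▸ conj_mem_cj l h0)).symm, fun e' => cc (h.ab C hC _ h0 _ ?_)⟩
        exact e ▸ mem_cj.2 (h.om1 hC (CF _ (cjm' m1 hf) (fxc.1 e'))))
    inf_le_left fx
    (fun f hf => by
      obtain ⟨u, hu, w, hw, rfl⟩ := p' f hf.1
      have e := cc (mem_centralizer_singleton_iff.1 hf.2).symm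
      have l1 := ea_comm hF (lC hu) (lC' w hw)
      have e' := k1 _ (mul_mem hu hw) (by
        calc _ = a * (u * (a * w * a⁻¹)) * a⁻¹ * w * (a * w * a⁻¹) := by gsp [rI a2, rI (h.om2 hC hw)]
          _ = u * (a * w * a⁻¹ * w) * (a * w * a⁻¹) := by rw [e]; group
          _ = _ := by rw [ea_comm hF (lC' w hw) (lC hw)]; gsp [rI a2, rI (h.om2 hC hw)])
      rw [eq_inv_of_mul_eq_one_left e', ie (h.om2 hC hw)]
      exact ⟨w, lC hw, ea_comm hF (lC' w hw) (lC hw)⟩)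
    (fun f hf e => k1 f (CF f hf.1 e) (cc (mem_centralizer_singleton_iff.1 hf.2).symm))
    (fun f hf => by
      obtain ⟨u, hu, w, hw, rfl⟩ := p' f hf
      refine ⟨_, fx w (lC hw), cc ?_⟩
      have e : a * w * a⁻¹ * w * (u * (a * w * a⁻¹)) = w * u := by
        rw [ea_comm hF (lC hu) (lC' w hw), ea_comm hF (lC' w hw) (lC hw)]; gsp [rI a2, rI (h.om2 hC hw)]
      rw [e]
      exact (h.omm hC (mul_mem hw hu) h0).symm)
  have m1 := nl j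
  generalize (a * c0) ^ j = l at *
  have hD := h.cj C hC l⁻¹
  have hc := conj_mem_cj l⁻¹ h0
  have hc' : l⁻¹ * c0 * l⁻¹⁻¹ * (l⁻¹ * c0 * l⁻¹⁻¹) ≠ 1 := fun e => h0' (sq_of e)
  have m2 : ∀ f ∈ F, l⁻¹ * c0 * l⁻¹⁻¹ * f * (l⁻¹ * c0 * l⁻¹⁻¹)⁻¹ = a * f * a⁻¹ := fun f hf => by
    calc _ = l⁻¹ * (c0 * (l * f * l⁻¹) * c0⁻¹) * l := by group
      _ = _ := by rw [← hj _ (cjm m1 hf)]; group
  have m3 : om (H8.cj l⁻¹ C) ≤ F := fun v hv => by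
    obtain ⟨w, k, rfl⟩ := mem_cj' (cj_om l⁻¹ C ▸ hv : v ∈ H8.cj l⁻¹ (om C))
    exact cjm (inv_mem m1) (lC k)
  have m4 : ∀ v ∈ om (H8.cj l⁻¹ C), a * v = v * a := fun v hv => cc' (by
    rw [← m2 v (m3 hv), cc (h.omm hD hv hc).symm])
  have m5 := h.omc hC hu0 l⁻¹
  have t1 := h.t2_of hC hD (h.rl_om hC hD hu0 hu1 m5 (cne hu1 _) (ea_comm hF (lC hu0) (m3 m5))) (h.om1 hC hu0) hc
    fun e => hu1 (k1 u0 hu0 ((m2 u0 (lC hu0)).symm.trans (cc e.symm)))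
  refine ⟨_, hD, h.t2_of hA hD (h.rl_om hA hD ha a1 m5 (cne hu1 _) (m4 _ m5)) (h.om1 hA ha) hc fun e => hc' ?_, t1⟩
  exact mul_eq_one_iff_eq_inv.2 ((cc e).symm.trans (h.invt hC hD t1 hc a2 (fun u hu => m2 u (lC hu)) m4))

theorem fc0 (hA : A ∈ Γ) (hD : D ∈ Γ) (nr : ¬ Rl A D) (ha : a ∈ A) (a1 : a ≠ 1) (hd : d ∈ om D) (d1 : d ≠ 1)
    (he : e ∈ om D) (h1 : Cm A (H8.cj d A)) (h2 : Cm A (H8.cj e A)) (h3 : Cm A (H8.cj (e * d) A)) :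
    e * a * e⁻¹ * (e * d * a * (e * d)⁻¹) = a * (d * a * d⁻¹) := by
  have k1 := h1 a ha _ (conj_mem_cj d ha)
  have k2 := h2 a ha _ (conj_mem_cj e ha)
  have k3 := h3 a ha _ (conj_mem_cj (e * d) ha)
  have k4 : a * (d * a * d⁻¹) ∈ 𝐍(D) := h.nrc hD (h.om1 hD hd) d1 (cc' (by
    conv_rhs => rw [k1]
    gsp [rI (h.om2 hD hd)])).symm
  have k5 := mul_mem (h.om1 hD he) (cjm k4 (inv_mem (h.om1 hD he)))
  have e1 : e * (a * (d * a * d⁻¹) * e⁻¹ * (a * (d * a * d⁻¹))⁻¹) =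
    e * a * e⁻¹ * (e * d * a * (e * d)⁻¹) * (a * (d * a * d⁻¹))⁻¹ := by group
  rw [e1] at k5
  refine mul_inv_eq_one.1 (by_contra fun k => nr (h.rl_of' hA hD ha a1 k5 k ?_))
  generalize d * a * d⁻¹ = u, e * a * e⁻¹ = w, e * d * a * (e * d)⁻¹ = z at *
  gsp [rC k1, rC k2, rC k3]

theorem fc (hA : A ∈ Γ) (hD : D ∈ Γ) (nr : ¬ Rl A D) : ∃ d ∈ om D, ¬ Cm A (H8.cj d A) := by
  by_contra hn
  push Not at hn
  obtain ⟨a, ha, a2⟩ := h.ne A hA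
  have a1 : a ≠ 1 := fun e => a2 (by rw [e, mul_one])
  obtain ⟨d, hd, e, he, k1, k2, k3, k4, k5⟩ := h.four D hD
  have hd' := h.om3 hD hd k1
  have he' := h.om3 hD he k2
  have l1 := h.fc0 hA hD nr ha a1 hd' k3 he' (hn d hd') (hn e he') (hn _ (mul_mem he' hd'))
  have l2 := h.fc0 hA hD nr ha a1 he' k4 hd' (hn e he') (hn d hd') (hn _ (mul_mem hd' he'))
  rw [h.ab D hD d hd e he] at l2
  have l3 := hn d hd' a ha _ (conj_mem_cj d ha)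
  have l4 := hn e he' a ha _ (conj_mem_cj e ha)
  have l5 := ccj (hn _ (mul_mem hd' he') a ha _ (conj_mem_cj (d * e) ha)) d
  rw [show d * (d * e * a * (d * e)⁻¹) * d⁻¹ = e * a * e⁻¹ by gsp [rI k1]] at l5
  have l6 : d * a * d⁻¹ * (d * a * d⁻¹) = e * a * e⁻¹ * (e * a * e⁻¹) := by
    generalize d * a * d⁻¹ = u, e * a * e⁻¹ = w, e * d * a * (e * d)⁻¹ = z at *
    calc u * u = u * a⁻¹ * (a * u) := by group
      _ = w * a⁻¹ * (u * z) := by rw [← l1]; gsp [rC l3, rC l4, rC l5]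
      _ = _ := by rw [l2]; group
  refine nr (h.rl_of' hA hD (mul_mem ha ha) a2 (mul_mem he hd) (mne k2 (Ne.symm k5)) (cc' ?_).symm)
  calc _ = e * (d * a * d⁻¹ * (d * a * d⁻¹)) * e⁻¹ := by group
    _ = _ := by rw [l6]; gsp [rI k2]

theorem r2a (hA : A ∈ Γ) (hD : D ∈ Γ) (hd : d ∈ om D) (d1 : d ≠ 1) (r : Rl A (H8.cj d A)) (ha : a ∈ om A) :
    Rl D (H8.cj a D) := by
  refine h.rl_om hD (h.cj D hD a) hd d1 (h.omc hD hd a) (cne d1 a) ?_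
  have k := h.rc hA (h.cj A hA d) r ha (h.omc hA ha d)
  calc _ = d * a * d⁻¹ * a := by gsp [rI (h.om2 hD hd), rI (h.om2 hA ha)]
    _ = _ := by rw [← k]; gsp [rI (h.om2 hD hd), rI (h.om2 hA ha)]

theorem cmB (e4 : E4 Γ) (hA : A ∈ Γ) (hB : B ∈ Γ) (hD : D ∈ Γ) (r1 : Rl A B) (r2 : Rl D B) (ha : a ∈ om A)
    (hd : d ∈ om D) (hb : b ∈ B) : b * (d * a * d⁻¹ * a) = d * a * d⁻¹ * a * b := by
  have k1 := h.cmm hA hB e4 r1 ha hb
  have k2 := h.cmm hD hB e4 r2 hd hb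
  have l1 := h.rc hA hB r1 ha k1
  have l2 := h.rc hA hB r1 ha k2
  have l3 := h.rc hD hB r2 hd k1
  have l4 := h.rc hD hB r2 hd k2
  have l5 := h.omm hB k1 (h.om1 hB k2)
  have l6 := h.om2 hB k1
  refine cc' ?_
  calc _ = b * d * b⁻¹ * d * d⁻¹ * (b * a * b⁻¹ * a * a⁻¹) * (b * d * b⁻¹ * d * d⁻¹)⁻¹ * (b * a * b⁻¹ * a * a⁻¹) := by
        group
    _ = _ := by
      generalize b * a * b⁻¹ * a = v, b * d * b⁻¹ * d = w at *
      gsp [rC l1, rC l2, rC l3, rC l4, rC l5, rI l6, rI (h.om2 hA ha), rI (h.om2 hD hd)]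

theorem tr_of (hA : A ∈ Γ) (hD : D ∈ Γ) (ha : a ∈ om A) (hd : d ∈ om D) (h1 : a * d ≠ d * a)
    (h2 : a * (d * a * d⁻¹) = d * a * d⁻¹ * a) : ∃ B ∈ Γ, Tr A B D := by
  have nr : ¬ Rl A D := fun r => h1 (h.rc hA hD r ha hd)
  have nr' : ¬ Rl D A := fun r => nr r.symm
  have a1 : a ≠ 1 := fun e => h1 (by rw [e, mul_one, one_mul])
  have d1 : d ≠ 1 := fun e => h1 (by rw [e, mul_one, one_mul])
  have r1 := fun v hv => h.r2a (a := v) hA hD hd d1 (h.rl_om hA (h.cj A hA d) ha a1 (h.omc hA ha d) (cne a1 d) h2) hv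
  have r2 := fun v hv => h.r2a (a := v) hD hA ha a1 (r1 a ha) hv
  obtain ⟨v, hv, k1⟩ := h.fc hD hA nr'
  obtain ⟨B, hB, t1, t2⟩ := h.sw0 hA hD hv ((h.tri' hD (h.cj D hD v) (r1 v hv)).resolve_left k1)
  have e4 := h.e4 hA hB t1
  obtain ⟨w, hw, k2⟩ := h.fc hA hD nr
  have w1 : w ≠ 1 := fun e => k2 (by rw [e, cj_one]; exact h.ab A hA)
  have w2 := h.om2 hD hw
  obtain ⟨C, hC, c, hc, k3, k4, -, t3⟩ := (h.lemK hA hB t1 w2 (fun v hv => h.rc hD hB t2.rel hw hv) (r2 w hw)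
    fun a ha b hb => h.cmB e4 hA hB hD t1.rel t2.rel ha hw hb).resolve_left k2
  have k5 : ∀ a ∈ om A, w * a * w⁻¹ * a ∈ om C := fun a ha => k4 a ha ▸ h.cmm hA hC e4 t3.rel ha hc
  have k6 : ∀ a ∈ om A, a ≠ 1 → w * a * w⁻¹ * a ≠ 1 := fun a ha a1 e => nr (h.rl_om hA hD ha a1 hw w1 (cc' (by
    rw [eq_inv_of_mul_eq_one_left e, ie (h.om2 hA ha)])).symm)
  have r3 : Rl D C := h.rl_om hD hC hw w1 (k5 a ha) (k6 a ha a1) (cc' (by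
    conv_rhs => rw [← h.rc hA (h.cj A hA w) (r2 w hw) ha (h.omc hA ha w)]
    gsp [rI w2]))
  have t4 : T2 D C := h.t2_of hD hC r3 (h.om1 hD hw) hc fun e => k3 (mul_eq_one_iff_eq_inv.2 ((cc e).symm.trans
    (h.invt hA hC t3 hc w2 k4 fun v hv => h.rc hD hC r3 hw hv)))
  refine ⟨C, hC, t3, t4, nr, fun a ha d hd => ?_⟩
  by_cases a1 : a = 1
  · simp [a1]
  have a2 := h.om2 hA ha
  have e1 : ∀ d ∈ om D, (a * d * a⁻¹ * d)⁻¹ = d * a * d⁻¹ * a := fun d hd => by gsp [rI a2, rI (h.om2 hD hd)]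
  rcases h.lemK hD hC t4 a2 (fun v hv => h.rc hA hC t3.rel ha hv) (r1 a ha)
    fun d hd b hb => h.cmB e4 hD hC hA r3 t3.rel hd ha hb with k | ⟨C', hC', c', hc', -, l1, -, t5⟩
  · obtain ⟨y, hy, l1⟩ := h.ne D hD
    refine (k6 a ha a1 (h.f1 hC hD t4.symm (k5 a ha) hy l1 ?_)).elim
    have l2 := k y hy _ (conj_mem_cj a (h.om1 hD hw))
    have l3 := h.omm hD hw hy
    rw [← e1 w hw]
    generalize a * w * a⁻¹ = u at *
    gsp [rC l2.symm, rC l3]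
  · have l2 : ∀ d ∈ om D, d * a * d⁻¹ * a ∈ om C' := fun d hd =>
      e1 d hd ▸ inv_mem (l1 d hd ▸ h.cmm hD hC' e4 t5.rel hd hc')
    rw [h.ti C hC C' hC' _ (h.om1 hC (k5 a ha)) (h.om1 hC' (l2 w hw)) (k6 a ha a1)]
    exact l2 d hd

end TF

end Cfsg.Agent.H4.TI
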