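import Cfsg.Agent.H4.TI4
import Cfsg.Agent.S1783

/-! Abelian TI `2`-subgroups: without triangles there are no neighbours. -/

set_option autoImplicit false
set_option linter.unusedSectionVars false

namespace Cfsg.Agent.H4.TI

open Subgroup Cfsg.Agent.FT Cfsg.Agent.L0 Cfsg.Agent.H8
open Cfsg.Agent.H2.CI (cjm cjm' ea_comm ea_pgroup mem_cj' cj_mem_cj)

universe u

variable {G : Type u} [Group G] [Finite G] {Γ : Set (Subgroup G)} {A B C D E F P Q R S T X Y : Subgroup G}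
  {a b c d e f g k l n s t v w x y z : G}

/-- the elements that fix the coset `Z r` -/
def St (Z : Subgroup G) (r : G) : Subgroup G where
  carrier := {g | g ∈ 𝐍(Z) ∧ g * r * g⁻¹ * r⁻¹ ∈ Z}
  one_mem' := ⟨one_mem _, by simp⟩
  mul_mem' {a b} ha hb := ⟨mul_mem ha.1 hb.1, by
    convert mul_mem (cjm ha.1 hb.2) ha.2 using 1
    group⟩
  inv_mem' {a} ha := ⟨inv_mem ha.1, by
    convert inv_mem (cjm' ha.1 ha.2) using 1
    group⟩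

theorem clj {s : Set G} (h : ∀ y ∈ s, g * y * g⁻¹ ∈ T) : ∀ x ∈ closure s, g * x * g⁻¹ ∈ T := fun x hx => by
  have := mem_cj.1 ((closure_le (cj g⁻¹ T)).2 (fun y hy => mem_cj.2 (by rw [inv_inv]; exact h y hy)) hx)
  rwa [inv_inv] at this

theorem odd2 (x : G) : ∃ k, Odd (orderOf (x ^ 2 ^ k)) := by
  obtain ⟨k, m, hm, e⟩ := Nat.exists_eq_two_pow_mul_odd (orderOf_pos x).ne'
  exact ⟨k, hm.of_dvd_nat (orderOf_dvd_of_pow_eq_one (by rw [← pow_mul, ← e, pow_orderOf_eq_one]))⟩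

theorem odd1 (hQ : IsPGroup 2 Q) (ho : Odd (orderOf t)) (ht : t ∈ Q) : t = 1 := WA.Te.eq_one_of_two_odd hQ ht ho

theorem oddc (hQ : IsPGroup 2 Q) (ho : Odd (orderOf t)) (h1 : t * x * t⁻¹ * x⁻¹ ∈ Q)
    (h2 : t * (t * x * t⁻¹ * x⁻¹) = t * x * t⁻¹ * x⁻¹ * t) : t * x = x * t := by
  obtain ⟨z, e⟩ : ∃ z, t * x * t⁻¹ = z * x := ⟨t * x * t⁻¹ * x⁻¹, by group⟩
  rw [e, mul_inv_cancel_right] at h1 h2
  have k : ∀ n : ℕ, t ^ n * x * (t ^ n)⁻¹ = z ^ n * x := fun n => by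
    induction n with
    | zero => simp
    | succ n ih =>
      calc _ = t * (t ^ n * x * (t ^ n)⁻¹) * t⁻¹ := by group
        _ = t * z ^ n * t⁻¹ * (t * x * t⁻¹) := by rw [ih]; group
        _ = _ := by rw [e, cc (Commute.pow_right h2 n).eq]; group
  have k1 := k (orderOf t)
  rw [pow_orderOf_eq_one, one_mul, inv_one, mul_one, right_eq_mul] at k1
  rw [odd1 hQ (ho.of_dvd_nat (orderOf_dvd_of_pow_eq_one k1)) h1, one_mul] at e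
  exact cc' e

/-- `O₂(N(B))` -/
abbrev QQ (B : Subgroup G) : Subgroup G := Op 2 𝐍(B)

theorem pgQ (B : Subgroup G) : IsPGroup 2 (QQ B) := B07.pgroup_Op _

theorem nQ (hg : g ∈ 𝐍(B)) : g ∈ 𝐍(QQ B) := B07.norm_Op (p := 2) _ (le_normalizer hg)

theorem Qn (hg : g ∈ QQ B) : g ∈ 𝐍(B) := B07.Op_le (p := 2) _ hg

theorem cjC (hg : g ∈ 𝐍(B)) (hx : x ∈ 𝐂(B)) : g * x * g⁻¹ ∈ 𝐂(B) := cen fun _ hb =>
  cc' (fxc.2 (cent hx (cjm' hg hb)))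

/-- no triangles -/
def NT (Γ : Set (Subgroup G)) : Prop := ∀ A ∈ Γ, ∀ B ∈ Γ, ∀ D ∈ Γ, ¬ Tr A B D

namespace TF

variable (h : TF Γ)
include h

theorem sqQ (hB : B ∈ Γ) (hC : C ∈ Γ) (hn : C ≤ 𝐍(B)) (hc : c ∈ C) : c * c ∈ QQ B := by
  have := Fact.mk Nat.prime_two
  refine ⟨⟨c, hn hc⟩ * ⟨c, hn hc⟩, S1783.mem_pCore_of (H7.fstar_eq_pCore_iff_centralizer_le.2 fun x hx => ?_)
    fun q hq => ?_, rfl⟩
  · obtain ⟨y, hy, e⟩ := h.ch B hB ⟨x.2, cen (by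
      rintro _ ⟨q, hq, rfl⟩
      exact (congrArg Subtype.val (hx q hq)).symm)⟩
    exact Subtype.ext e ▸ hy
  · have hq' : (q : G) ∈ QQ B := ⟨q, hq, rfl⟩
    have k := h.two_cm (H2.CI.pgroup_sup (h.two C hC) (pgQ B) fun _ hx => nQ (hn hx)) hC (h.cj C hC q) le_sup_right
      (cj_le_of_mem_normalizer (le_normalizer (mem_sup_left hq')) le_sup_right) c hc _ (conj_mem_cj (q : G) hc)
    convert H9.mul_self_mem_map_frattini (H4.isPGroup_pCore 2 _) (mul_mem hq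
      ((inferInstance : (pCore 2 𝐍(B)).Normal).conj_mem _ (inv_mem hq) ⟨c, hn hc⟩)) using 1
    refine Subtype.ext ?_
    change q * (c * c) * (q : G)⁻¹ * (c * c)⁻¹ = q * (c * (q : G)⁻¹ * c⁻¹) * (q * (c * (q : G)⁻¹ * c⁻¹))
    calc _ = q * c * (q : G)⁻¹ * (q * c * (q : G)⁻¹ * c⁻¹) * c⁻¹ := by group
      _ = _ := by rw [← (rC k).1.2.1]; group

theorem BQ (hB : B ∈ Γ) : B ≤ QQ B := B07.le_Op ⟨le_normalizer, le_rfl⟩ (h.two B hB)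

theorem odd0 (hB : B ∈ Γ) (ho : Odd (orderOf t)) (hn : t ∈ 𝐍(B)) (hc : ∀ r ∈ QQ B ⊓ 𝐂(B), t * r = r * t) : t = 1 := by
  have k : t ∈ 𝐂(B) := cen fun b hb => hc b ⟨h.BQ hB hb, cen (h.ab B hB b hb)⟩
  refine odd1 (pgQ B) ho (h.ch B hB ⟨hn, cen fun g hg => ?_⟩)
  have k1 := mul_mem (cjm (nQ hn) hg) (inv_mem hg)
  refine oddc (pgQ B) ho k1 (hc _ (mem_inf.2 ⟨k1, ?_⟩))
  simpa only [mul_assoc] using mul_mem k (cjC (Qn hg) (inv_mem k))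

theorem lemK' (hA : A ∈ Γ) (hB : B ∈ Γ) (t : T2 A B) (h2 : ∀ v ∈ om B, x * v = v * x) (k : Cm A (H8.cj x A))
    (ha : a ∈ om A) (h4 : ∀ b ∈ B, b * (x * a * x⁻¹ * a) = x * a * x⁻¹ * a * b) :
    ∃ C ∈ Γ, Cm C B ∧ ∃ w ∈ om C, ∃ v ∈ om B, x * a * x⁻¹ * a = w * v := by
  obtain ⟨a0, h0, h0'⟩ := h.ne A hA
  obtain ⟨b, hb, k1⟩ := h.ne B hB
  obtain ⟨v, hv, e⟩ := h.sur hB hA t.symm h0 h0' ha
  have e1 : a0 * v * a0⁻¹ = a * v := by rw [← e]; gsp [rI (h.om2 hB hv)]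
  have e2 : a0 * (x * a0 * x⁻¹) * v * (a0 * (x * a0 * x⁻¹))⁻¹ = x * a * x⁻¹ * a * v := by
    calc _ = a0 * (x * (a0 * (x⁻¹ * v * x) * a0⁻¹) * x⁻¹) * a0⁻¹ := by group
      _ = a0 * (x * a * x⁻¹) * a0⁻¹ * (a0 * (x * v * x⁻¹) * a0⁻¹) := by
        rw [mul_assoc x⁻¹, ← h2 v hv, inv_mul_cancel_left, e1]; group
      _ = _ := by rw [cc (k a0 h0 _ (conj_mem_cj x (h.om1 hA ha))), cc (h2 v hv), e1]; group
  have hC := h.cj B hB (a0 * (x * a0 * x⁻¹))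
  have m := h.omc hB hv (a0 * (x * a0 * x⁻¹))
  by_cases v1 : v = 1
  · refine ⟨B, hB, h.ab B hB, 1, one_mem _, 1, one_mem _, ?_⟩
    rw [← e, v1]; group
  refine ⟨_, hC, (h.cm_of' hB hC hb k1 (h.om1 hC m) (cne v1 _) ?_).symm, _, m, v, hv, ?_⟩
  · rw [e2, ← mul_assoc, h4 b hb, mul_assoc, ← h.omm hB hv hb, ← mul_assoc]
  · rw [e2, mul_assoc _ v, h.om2 hB hv, mul_one]

variable (nt : NT Γ)
include nt

theorem np (hA : A ∈ Γ) (hD : D ∈ Γ) (ha : a ∈ om A) (hd : d ∈ om D) (hQ : ∃ k, (a * d) ^ 2 ^ k = 1) :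
    a * d = d * a := by
  obtain ⟨k, e⟩ := hQ
  induction k generalizing D d with
  | zero =>
    rw [pow_zero, pow_one] at e
    rw [e, mul_eq_one_comm.1 e]
  | succ k ih =>
    by_contra hn
    obtain ⟨B, hB, t⟩ := h.tr_of hA hD ha hd hn (ih (h.cj A hA d) (h.omc hA ha d) (by
      rw [ie (h.om2 hD hd), ← e, pow_succ', pow_mul, pow_two]; congr 1; group))
    exact nt A hA B hB D hD t

theorem np' (hA : A ∈ Γ) (hB : B ∈ Γ) (r : Rl A B) (ha : a ∈ om A) (hx : x ∈ QQ B) :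
    a * (x * a * x⁻¹) = x * a * x⁻¹ * a := by
  refine h.np nt hA (h.cj A hA x) ha (h.omc hA ha x) (H9.exists_pow_eq_one_of_mem (pgQ B) ?_)
  convert mul_mem (cjm (nQ (h.rn hA hB r (h.om1 hA ha) (h.om2 hA ha))) hx) (inv_mem hx) using 1
  gsp [rI (h.om2 hA ha)]

theorem wc (hA : A ∈ Γ) (hB : B ∈ Γ) (hC : C ∈ Γ) (r : Rl A B) (k : Cm C B) (ha : a ∈ om A) (hw : w ∈ om C) :
    a * w = w * a := by
  by_cases a1 : a = 1
  · simp [a1]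
  obtain ⟨c, hc, k1⟩ := h.ne C hC
  obtain ⟨c, hc, k1, k2⟩ := h.ord4 hC le_rfl hc k1
  have k3 := h.om3 hC (mul_mem hc hc) k2
  have k4 := h.sqQ hB hC (fun c hc => nrm_of_cm (k c hc)) hc
  refine h.rc hA hC (h.rl_om hA hC ha a1 k3 k1 (h.np nt hA hC ha k3 ?_)) ha hw
  obtain ⟨j, e⟩ := H9.exists_pow_eq_one_of_mem (pgQ B)
    (mul_mem (cjm (nQ (h.rn hA hB r (h.om1 hA ha) (h.om2 hA ha))) k4) k4)
  exact ⟨j + 1, by rw [← e, pow_succ', pow_mul, ie (h.om2 hA ha), pow_two, mul_assoc _ a]⟩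

theorem wc' (hA : A ∈ Γ) (hB : B ∈ Γ) (hD : D ∈ Γ) (r : Rl A B) (r' : Rl D B) (ha : a ∈ om A) (hd : d ∈ om D)
    (hx : x ∈ QQ B ⊓ 𝐂(B)) (h1 : x * x = 1) : d * (x * a * x⁻¹ * a) = x * a * x⁻¹ * a * d := by
  have hA' := h.cj A hA x
  have key : ∀ C ∈ Γ, ∀ C' ∈ Γ, Cm C B → Cm C' B → ∀ w ∈ om C, ∀ v ∈ om C', d * (w * v) = w * v * d :=
    fun C hC C' hC' k k' w hw v hv => by gsp [rC (h.wc nt hD hB hC r' k hd hw), rC (h.wc nt hD hB hC' r' k' hd hv)]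
  rcases h.tri' hA hB r with k | t
  · exact key _ hA' A hA (k.cjN (Qn hx.1)) k _ (h.omc hA ha x) a ha
  have k1 : ∀ v ∈ om B, x * v = v * x := fun v hv => cc' (cent hx.2 (h.om1 hB hv))
  have k2 : ∀ a ∈ om A, ∀ b ∈ B, b * (x * a * x⁻¹ * a) = x * a * x⁻¹ * a * b := fun a ha b hb => by
    have := mul_mem hx.2 (cjC (h.rn hA hB r (h.om1 hA ha) (h.om2 hA ha)) (inv_mem hx.2))
    rw [ie (h.om2 hA ha)] at this
    simpa only [mul_assoc] using mem_centralizer_iff.1 this b hb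
  obtain ⟨u, hu, u1⟩ := h.omi hA
  rcases h.lemK hA hB t h1 k1 (h.rl_om hA hA' hu u1 (h.omc hA hu x) (cne u1 x) (h.np' nt hA hB r hu hx.1)) k2 with
    k | ⟨C, hC, c, hc, -, l1, l2, t'⟩
  · obtain ⟨C, hC, l1, w, hw, v, hv, e⟩ := h.lemK' hA hB t k1 k ha (k2 a ha)
    rw [e]
    exact key C hC B hB l1 (h.ab B hB) w hw v hv
  · exact h.wc nt hD hB hC r' l2 hd (l1 a ha ▸ h.cmm hA hC (h.e4 hA hB t) t'.rel ha hc)

theorem trans (hA : A ∈ Γ) (hB : B ∈ Γ) (hD : D ∈ Γ) (r : Rl A B) (r' : Rl D B) : Rl A D := fun a ha a2 d hd d2 => by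
  replace ha := h.om3 hA ha a2
  replace hd := h.om3 hD hd d2
  obtain ⟨k, ho⟩ := odd2 (a * d)
  have na := h.rn hA hB r (h.om1 hA ha) a2
  have nd := h.rn hD hB r' (h.om1 hD hd) d2
  have e1 : ∀ x ∈ QQ B, ∀ A ∈ Γ, Rl A B → ∀ a ∈ om A, a * x * a⁻¹ * x⁻¹ = x * a * x⁻¹ * a := fun x hx A hA r a ha => by
    rw [← h.np' nt hA hB r ha hx, ie (h.om2 hA ha)]; group
  have k1 : ∀ x ∈ QQ B ⊓ 𝐂(B), x * x = 1 → (a * d) ^ 2 ^ k * x = x * (a * d) ^ 2 ^ k := fun x hx x2 => by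
    have l1 : ∀ A' ∈ Γ, Rl A' B → ∀ s ∈ om A', (∀ z ∈ QQ B ⊓ (𝐂[a] ⊓ 𝐂[d]), s * z = z * s) →
        s ∈ St (QQ B ⊓ (𝐂[a] ⊓ 𝐂[d])) x := fun A' hA' r1 s hs hc =>
      ⟨nrm_of_cm hc, mul_mem (cjm (nQ (h.rn hA' hB r1 (h.om1 hA' hs) (h.om2 hA' hs))) hx.1) ((QQ B).inv_mem hx.1), by
        rw [e1 x hx.1 A' hA' r1 s hs]
        exact ⟨mem_centralizer_singleton_iff.2 (h.wc' nt hA' hB hA r1 r hs ha hx x2).symm,
          mem_centralizer_singleton_iff.2 (h.wc' nt hA' hB hD r1 r' hs hd hx x2).symm⟩⟩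
    have l2 := (pow_mem (mul_mem (l1 A hA r a ha fun z hz => (mem_centralizer_singleton_iff.1 hz.2.1).symm)
      (l1 D hD r' d hd fun z hz => (mem_centralizer_singleton_iff.1 hz.2.2).symm)) (2 ^ k)).2
    exact oddc (pgQ B) ho l2.1 (Commute.pow_left (Commute.mul_left (mem_centralizer_singleton_iff.1 l2.2.1).symm
      (mem_centralizer_singleton_iff.1 l2.2.2).symm) _)
  have k2 : closure {x | x ∈ QQ B ⊓ 𝐂(B) ∧ x * x = 1} ≤ QQ B ⊓ 𝐂[(a * d) ^ 2 ^ k] := (closure_le _).2 fun x hx =>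
    ⟨hx.1.1, mem_centralizer_singleton_iff.2 (k1 x hx.1 hx.2).symm⟩
  refine h.np nt hA hD ha hd ⟨k, h.odd0 hB ho (pow_mem (mul_mem na nd) _) fun x hx => ?_⟩
  have l1 : ∀ A' ∈ Γ, Rl A' B → ∀ s ∈ om A', s ∈ St (closure {x | x ∈ QQ B ⊓ 𝐂(B) ∧ x * x = 1}) x :=
    fun A' hA' r1 s hs => by
      have ns := h.rn hA' hB r1 (h.om1 hA' hs) (h.om2 hA' hs)
      refine ⟨H9.mem_normalizer_of_conj_mem (clj fun y hy => subset_closure ?_),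
        subset_closure ⟨mul_mem (mem_inf.2 ⟨cjm (nQ ns) hx.1, cjC ns hx.2⟩) (inv_mem hx), ?_⟩⟩
      · exact ⟨⟨cjm (nQ ns) hy.1.1, cjC ns hy.1.2⟩, sqc hy.2 s⟩
      · rw [e1 x hx.1 A' hA' r1 s hs]
        exact msq (sqc (h.om2 hA' hs) x) (h.om2 hA' hs) (h.np' nt hA' hB r1 hs hx.1).symm
  have l2 := k2 (pow_mem (mul_mem (l1 A hA r a ha) (l1 D hD r' d hd)) (2 ^ k)).2
  exact oddc (pgQ B) ho l2.1 (mem_centralizer_singleton_iff.1 l2.2).symm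

theorem rl_eq (hA : A ∈ Γ) (hB : B ∈ Γ) (r : Rl A B) : A = B := by
  let W : Subgroup G → Subgroup G := fun B => closure {x | ∃ A ∈ Γ, Rl A B ∧ x ∈ om A}
  have k1 : ∀ g, ∀ B, ∀ x ∈ W B, g * x * g⁻¹ ∈ W (H8.cj g B) := fun g B => clj fun y ⟨A, hA, r, hy⟩ =>
    subset_closure ⟨_, h.cj A hA g, r.cj g, h.omc hA hy g⟩
  have k2 : ∀ g, H8.cj g B = A → g ∈ 𝐍(W B) := fun g e => H9.mem_normalizer_of_conj_mem fun x hx => by
    refine closure_mono ?_ (k1 g B x hx)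
    rintro y ⟨C, hC, r1, hy⟩
    exact ⟨C, hC, h.trans nt hC hA hB (e ▸ r1) r.symm, hy⟩
  obtain ⟨g, e⟩ := h.tr B hB A hA
  obtain ⟨v, hv, v1⟩ := h.omi hB
  rw [← e]
  refine cj_eq_self (h.mx B hB (W B) (ea_pgroup fun x hx => ?_) (fun e => v1 (mem_bot.1 (e ▸
    subset_closure ⟨B, hB, Cm.rel (h.ab B hB), hv⟩))) (fun n hn => H9.mem_normalizer_of_conj_mem fun x hx => ?_) (k2 g e))
  · have k3 : W B ≤ 𝐂(W B) := (closure_le _).2 (by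
      rintro y ⟨C, hC, r1, hy⟩
      refine mem_centralizer_iff.2 fun z hz => mem_centralizer_singleton_iff.1 ((closure_le 𝐂[y]).2 ?_ hz)
      rintro z ⟨D, hD, r2, hz⟩
      exact mem_centralizer_singleton_iff.2 (h.rc hD hC (h.trans nt hD hB hC r2 r1) hz hy))
    induction hx using closure_induction with
    | mem x hx => obtain ⟨C, hC, -, hx⟩ := hx; exact h.om2 hC hx
    | one => simp
    | mul x y hx hy e1 e2 => exact msq e1 e2 (mem_centralizer_iff.1 (k3 hy) x hx)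
    | inv x _ e1 => rw [ie e1, e1]
  · have := k1 n B x hx
    rwa [cj_eq_self hn] at this

end TF

end Cfsg.Agent.H4.TI
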