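import Cfsg.Agent.H4.TI5
import Cfsg.Agent.WA.ZdM

/-! Abelian TI `2`-subgroups: there are neighbours. -/

set_option autoImplicit false
set_option linter.unusedSectionVars false

namespace Cfsg.Agent.H4.TI

open Subgroup Cfsg.Agent.FT Cfsg.Agent.L0 Cfsg.Agent.H8
open Cfsg.Agent.H2.CI (cjm cjm' ea_comm ea_pgroup mem_cj' cj_mem_cj)

universe u

variable {G : Type u} [Group G] [Finite G] {Γ : Set (Subgroup G)} {A B C D E F P Q R S T X Y : Subgroup G}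
  {a b c d e f g k l n s t v w x y z : G}

open Cfsg.Agent.BS in
theorem TF.core (h : TF Γ) (hB : B ∈ Γ) (K : Subgroup G) [hK : K.Normal] : pPrimeCore 2 K = ⊥ := by
  have := Fact.mk Nat.prime_two
  rw [← map_pPrimeCore_eq_bot_iff, eq_bot_iff]
  have ho : Odd #|Opp 2 K| := H8.Dich.odd_iff.mpr (B07.not_dvd_Opp K)
  have hn : ∀ g, g ∈ 𝐍(Opp 2 K) := fun g => B07.norm_Opp K (by rw [normalizer_eq_top]; trivial)
  obtain ⟨a, ha, b, hb, k1, k2, k3, k4, k5⟩ := h.four B hB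
  have c : ∀ a ∈ B, a ≠ 1 → Opp 2 K ⊓ 𝐂[a] ≤ 𝐍(B) := fun a ha a1 x hx =>
    h.nrc hB ha a1 (mem_centralizer_singleton_iff.1 hx.2)
  have k := T4.le_of_four ho ⟨k1, k3⟩ ⟨k2, k4⟩ k5 (h.ab B hB a ha b hb) (hn a) (hn b) (c a ha k3) (c b hb k4)
    (c _ (mul_mem ha hb) (mne k1 k5))
  intro x hx
  refine odd1 (pgQ B) (ho.of_dvd_nat (orderOf_dvd_natCard _ hx)) (h.ch B hB ⟨k hx, cen fun g hg => cc' ?_⟩)
  have k6 : x * g * x⁻¹ * g⁻¹ ∈ Opp 2 K := by simpa only [mul_assoc] using mul_mem hx (cjm (hn g) (inv_mem hx))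
  exact mul_inv_eq_one.1 (odd1 (pgQ B) (ho.of_dvd_nat (orderOf_dvd_natCard _ k6))
    (mul_mem (cjm (nQ (k hx)) hg) (inv_mem hg)))

theorem TF.nnorm (h : TF Γ) (hO : pCore 2 G = ⊥) (hB : B ∈ Γ) : ∃ g, g ∉ 𝐍(B) := by
  by_contra hn
  push Not at hn
  exact h.ne_bot hB (eq_bot_iff.2 (hO ▸ H4.le_pCore (normalizer_eq_top_iff.1 (eq_top_iff.2 fun g _ => hn g)) (h.two B hB)))

theorem suz {L : Type u} [Group L] [Finite L] (X : BS.Suz L) {B : Subgroup L} (hn : X.H ≤ 𝐍(B)) (hQ : B ≤ X.Q)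
    (hZ : X.Z ≤ B) (ab : ∀ a ∈ B, ∀ b ∈ B, a * b = b * a) {b : L} (hb : b ∈ B) : b * b = 1 := by
  by_contra h1
  have S := X.struct
  have k1 : ∀ z ∈ X.Z, ∃ c ∈ B, c * c = z := fun z hz => by
    by_cases e : z = 1
    · exact ⟨1, one_mem _, by simp [e]⟩
    obtain ⟨k, hk, e1⟩ := X.K_trans hz e
    obtain ⟨l, hl, e2⟩ := X.K_trans (S.sq b (hQ hb)) h1
    refine ⟨_, cjm (hn (X.D_le (X.K_le (mul_mem hk (inv_mem hl))))) hb, ?_⟩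
    calc _ = k * (l⁻¹ * (b * b) * l) * k⁻¹ := by group
      _ = z := by rw [← e2, ← e1]; group
  have k2 : X.Q ≠ X.Z := fun e => h1 (X.Z_sq (e ▸ hQ hb))
  rcases S.cases with ⟨-, e | ⟨-, w, hw, x, hx, hne⟩⟩ | ⟨-, hc, -⟩
  · exact k2 e
  · obtain ⟨l1, l2⟩ := X.mem_W.1 hw
    have ho := X.odd_orderOf l1
    have l3 : w ∈ 𝐂(B) := cen fun c hc => by
      have m1 := cjm (hn (X.D_le l1)) hc
      have m2 := mul_mem m1 (inv_mem hc)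
      refine oddc S.two ho (hQ m2) (l2 _ (X.mem_Z.2 ⟨hQ m2, ?_⟩))
      have m3 := ab _ m1 _ hc
      calc _ = w * c * w⁻¹ * (c⁻¹ * (w * c * w⁻¹)) * c⁻¹ := by group
        _ = w * (c * c) * w⁻¹ * (c * c)⁻¹ := by rw [← (rC m3).1.2.2.1]; group
        _ = 1 := by rw [cc (l2 _ (S.sq c (hQ hc)))]; group
    have l4 := mul_mem (X.conj_mem_Q (X.D_le l1) hx) (inv_mem hx)
    have l5 : w * x * w⁻¹ * x⁻¹ ∈ 𝐂(B) := by
      simpa only [mul_assoc] using mul_mem l3 (cjC (hn (X.Q_le hx)) (inv_mem l3))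
    refine hne (oddc S.two ho l4 ?_)
    generalize w * x * w⁻¹ * x⁻¹ = y at *
    obtain ⟨c, hc, e⟩ := k1 _ (S.sq y l4)
    have l6 := hZ (X.mem_Z.2 ⟨mul_mem l4 (inv_mem (hQ hc)), by
      calc _ = y * (c⁻¹ * y) * c⁻¹ := by group
        _ = y * y * (c * c)⁻¹ := by rw [mem_centralizer_iff.1 l5 _ (inv_mem hc)]; group
        _ = 1 := by rw [e]; group⟩)
    exact (mem_centralizer_iff.1 l3 y (by simpa using mul_mem l6 hc)).symm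
  · choose! ρ r1 r2 using k1
    have l1 : X.q * X.q ≤ #|B| := by
      rw [BS.Suz.q, ← Nat.card_prod]
      refine Nat.card_le_card_of_injective (fun z : X.Z × X.Z => (⟨ρ z.1 * z.2, mul_mem (r1 _ z.1.2) (hZ z.2.2)⟩ : B)) ?_
      rintro ⟨y, z⟩ ⟨y', z'⟩ e
      replace e : ρ y * z = ρ y' * z' := congrArg Subtype.val e
      have m : ∀ y z : X.Z, ρ y * z * (ρ y * z) = y := fun y z => by
        conv_rhs => rw [← r2 y y.2]
        gsp [rC (ab _ (hZ z.2) _ (r1 _ y.2)), rI (X.Z_sq z.2)]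
      obtain rfl : y = y' := Subtype.ext (by rw [← m y z, e, m])
      rw [Subtype.ext (mul_left_cancel e)]
    have l2 : B = X.Q := Subgroup.eq_of_le_of_card_ge hQ (by rw [hc, pow_two]; exact l1)
    exact k2 (S.ab (l2 ▸ ab))

open Cfsg.Agent.BS Cfsg.Agent.WA.Te Cfsg.Agent.WA.Zd MulAction in
theorem TF.exists_tr (h : TF Γ) (hO : pCore 2 G = ⊥) (hB : B ∈ Γ) : ¬ NT Γ := fun nt => by
  have := Fact.mk Nat.prime_two
  have nn : ∀ A ∈ Γ, ∀ C ∈ Γ, ∀ a ∈ A, a ≠ 1 → a ∈ 𝐍(C) → A = C := fun A hA C hC a ha a1 hn =>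
    h.rl_eq nt hA hC (h.rl_of hA hC ha a1 hn)
  let _ : MulAction G Γ :=
    { smul := fun g A => ⟨H8.cj g A.1, h.cj _ A.2 g⟩
      one_smul := fun A => Subtype.ext (cj_one _)
      mul_smul := fun g k A => Subtype.ext (cj_mul g k _) }
  have sm : ∀ (g : G) (A : Γ), g • A = A ↔ g ∈ 𝐍(A.1) := fun g A => Subtype.ext_iff.trans cj_eq_self_iff
  let 𝒮 : Set G := {s | ∃ A ∈ Γ, s ∈ A}
  have fx : ∀ s ∈ 𝒮, s ≠ 1 → ∃! a : Γ, s • a = a := fun s ⟨A, hA, hs⟩ s1 =>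
    ⟨⟨A, hA⟩, (sm _ _).2 (le_normalizer hs), fun C e => Subtype.ext (nn A hA _ C.2 s hs s1 ((sm _ _).1 e)).symm⟩
  obtain ⟨v, hv, v1, v2⟩ := h.inv hB
  have i0 : Invo v := ⟨v2, v1⟩
  have odd : ¬ 2 ∣ Nat.card Γ := by
    obtain ⟨a, ha, hu⟩ := fx v ⟨B, hB, hv⟩ v1
    have h1 := i0.pgroup_zpowers.card_modEq_card_fixedPoints Γ
    have h2 : fixedPoints (zpowers v) Γ = {a} := Set.eq_singleton_iff_unique_mem.2
      ⟨fun x => mem_Fx_zpowers.2 ha x x.2, fun b hb => hu b (hb ⟨v, mem_zpowers _⟩)⟩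
    rw [h2, Nat.card_coe_set_eq {a}, Set.ncard_singleton] at h1
    intro hd
    exact absurd ((h1.dvd_iff dvd_rfl).1 hd) (by decide)
  have conj : ∀ s ∈ 𝒮, ∀ g : G, g * s * g⁻¹ ∈ 𝒮 := fun s ⟨A, hA, hs⟩ g => ⟨_, h.cj A hA g, conj_mem_cj g hs⟩
  have mul : ∀ P : Subgroup G, IsPGroup 2 P → ∀ s ∈ 𝒮, ∀ s' ∈ 𝒮, s ∈ P → s' ∈ P → s * s' ∈ 𝒮 :=
    fun P hP s hs s' hs' h1 h2 => by
      obtain ⟨C, hC⟩ := hP.nonempty_fixed_point_of_prime_not_dvd_card Γ odd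
      have key : ∀ s ∈ 𝒮, s ∈ P → s ∈ C.1 := fun s ⟨A, hA, hs⟩ h5 => by
        by_cases e : s = 1
        · rw [e]; exact one_mem _
        exact nn A hA _ C.2 s hs e ((sm _ _).1 (hC ⟨s, h5⟩)) ▸ hs
      exact ⟨_, C.2, mul_mem (key s hs h1) (key s' hs' h2)⟩
  have zd : ZD Γ 𝒮 {d | d ∈ 𝒮 ∧ Invo d} :=
    ⟨⟨fun d hd => hd.2, fun d hd g => ⟨conj d hd.1 g, hd.2.conj g⟩, fun d hd => fx d hd.1 hd.2.2,
      fun d hd e he hc hne => ⟨mul _ (T4.four_pgroup hd.2 he.2 hc) d hd.1 e he.1 (subset_closure (by simp))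
        (subset_closure (by simp)), hd.2.mul_of_comm he.2 hc hne⟩⟩,
      fun _ => Iff.rfl, ⟨B, hB, one_mem _⟩, fun s ⟨A, hA, hs⟩ => H9.exists_pow_eq_one_of_mem (h.two A hA) hs, conj, mul⟩
  have co := zd.co
  set D := {d | d ∈ 𝒮 ∧ Invo d}
  have mD : ∀ A ∈ Γ, ∀ a ∈ A, a * a = 1 → a ∈ closure D := fun A hA a ha a2 => by
    by_cases e : a = 1
    · rw [e]; exact one_mem _
    exact subset_closure ⟨⟨A, hA, ha⟩, a2, e⟩
  have cov : ∀ a : Γ, a ∈ Cov Γ D := fun A =>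
    let ⟨a, ha, a1, a2⟩ := h.inv A.2
    ⟨a, ⟨⟨_, A.2, ha⟩, a2, a1⟩, (sm _ _).2 (le_normalizer ha)⟩
  have nL : (closure D).Normal := normalizer_eq_top_iff.1 (eq_top_iff.2 (by simpa using zd.td.norm_closure ⊤))
  set L := closure D
  have se : IsStronglyEmbedded (𝐍(B).subgroupOf L) := by
    refine ⟨fun e => ?_, ?_, fun g hg => odd_card_of_no_invo ?_⟩
    · obtain ⟨g, hg⟩ := h.nnorm hO hB
      exact hg (cj_eq_self_iff.1 (nn _ (h.cj B hB g) B hB _ (conj_mem_cj g hv) (cne v1 g)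
        (subgroupOf_eq_top.1 e (nL.conj_mem _ (mD B hB v hv v2) g))))
    · have := orderOf_dvd_natCard (𝐍(B).subgroupOf L) (x := ⟨v, mD B hB v hv v2⟩) (le_normalizer hv)
      rw [← orderOf_coe, i0.orderOf_eq] at this
      exact even_iff_two_dvd.2 this
    · rintro _ ⟨h1, u, hu, rfl⟩ iu
      refine hg (mem_subgroupOf.2 ((sm _ ⟨B, hB⟩).1 (co _ (g * u * g⁻¹).2
        ⟨congrArg Subtype.val iu.1, fun e => iu.2 (Subtype.ext e)⟩ ((g : G) • ⟨B, hB⟩) (cov _) _ (cov _) ?_ ((sm _ ⟨B, hB⟩).2 (mem_subgroupOf.1 h1)))))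
      rw [Subgroup.coe_mul, Subgroup.coe_mul, Subgroup.coe_inv, mul_smul, mul_smul, inv_smul_smul, (sm _ ⟨B, hB⟩).2 (mem_subgroupOf.1 hu)]
  obtain ⟨a, ha, b, hb, k1, k2, k3, k4, k5⟩ := h.four B hB
  obtain ⟨X, e, -⟩ := bender_suz se (Four.not_pRankLE ⟨⟨a, mD B hB a ha k1⟩, trivial, ⟨b, mD B hB b hb k2⟩, trivial,
    ⟨Subtype.ext k1, fun e => k3 (congrArg Subtype.val e)⟩, ⟨Subtype.ext k2, fun e => k4 (congrArg Subtype.val e)⟩,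
    fun e => k5 (congrArg Subtype.val e), Subtype.ext (h.ab B hB a ha b hb)⟩) (h.core hB L)
  have hH : ∀ x : L, x ∈ X.H ↔ (x : G) ∈ 𝐍(B) := fun x => by rw [e, mem_subgroupOf]
  have hQ : B.subgroupOf L ≤ X.Q := fun x hx =>
    let ⟨_, e⟩ := H9.exists_pow_eq_one_of_mem (h.two B hB) (mem_subgroupOf.1 hx)
    X.mem_Q_of_two ((hH x).2 (le_normalizer hx)) (Subtype.ext e)
  have tr : ∀ y ∈ X.Z, y ≠ 1 → ∀ z ∈ X.Z, z ≠ 1 → ∃ k : L, (k : G) ∈ 𝐍(B) ∧ (k : G) * y * (k : G)⁻¹ = z :=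
    fun y hy y1 z hz z1 => by
      obtain ⟨k, hk, e1⟩ := X.K_trans hz z1
      obtain ⟨l, hl, e2⟩ := X.K_trans hy y1
      refine ⟨_, (hH _).1 (X.D_le (X.K_le (mul_mem hk (inv_mem hl)))), ?_⟩
      rw [← e1, ← e2]
      push_cast
      group
  have mZ : ∀ z (hz : z ∈ B) (z2 : z * z = 1), (⟨z, mD B hB z hz z2⟩ : L) ∈ X.Z := fun z hz z2 =>
    X.mem_Z.2 ⟨hQ hz, Subtype.ext z2⟩
  obtain ⟨c, hc, l1⟩ := h.ne B hB
  obtain ⟨c, hc, l1, l2⟩ := h.ord4 hB le_rfl hc l1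
  obtain ⟨w, hw, w2, w1, w3⟩ : ∃ w ∈ B, w * w = 1 ∧ w ≠ 1 ∧ w ≠ c * c := by
    by_cases e : a = c * c
    · exact ⟨b, hb, k2, k4, fun e' => k5 (e.trans e'.symm)⟩
    · exact ⟨a, ha, k1, k3, e⟩
  obtain ⟨k, hk, e1⟩ := tr _ (mZ _ (mul_mem hc hc) l2) (fun e => l1 (congrArg Subtype.val e)) _ (mZ w hw w2)
    fun e => w1 (congrArg Subtype.val e)
  have l3 : (k : G) * c * (k : G)⁻¹ * c⁻¹ ∈ L := by simpa only [mul_assoc] using mul_mem k.2 (nL.conj_mem _ (inv_mem k.2) c)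
  have l4 := congrArg Subtype.val (suz X (B := B.subgroupOf L) (fun x hx => H9.mem_normalizer_of_conj_mem fun y hy =>
    mem_subgroupOf.2 (cjm ((hH x).1 hx) (mem_subgroupOf.1 hy))) hQ (fun z hz => by
      by_cases e : z = 1
      · rw [e]; exact one_mem _
      obtain ⟨k, hk, e1⟩ := tr _ (mZ v hv v2) (fun e => v1 (congrArg Subtype.val e)) z hz e
      exact mem_subgroupOf.2 (e1 ▸ cjm hk hv))
    (fun a ha b hb => Subtype.ext (h.ab B hB _ ha _ hb)) (b := ⟨_, l3⟩) (mul_mem (cjm hk hc) (inv_mem hc)))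
  refine w3 (mul_inv_eq_one.1 (Eq.trans ?_ l4))
  have l5 := h.ab B hB _ (cjm hk hc) _ hc
  change _ = (k : G) * c * (k : G)⁻¹ * c⁻¹ * ((k : G) * c * (k : G)⁻¹ * c⁻¹)
  replace e1 : (k : G) * (c * c) * (k : G)⁻¹ = w := e1
  calc _ = (k : G) * c * (k : G)⁻¹ * ((k : G) * c * (k : G)⁻¹ * c⁻¹) * c⁻¹ := by rw [← e1]; group
    _ = _ := by
      conv_lhs => rw [(rC l5).1.2.2.1]
      generalize (k : G) * c * (k : G)⁻¹ = y
      group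

end Cfsg.Agent.H4.TI
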