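import Cfsg.Agent.H4.TI6
import Cfsg.Agent.H9.Quat
import Cfsg.Agent.H8.Clos1

/-! Abelian TI `2`-subgroups: a triangle forces `ℤ₄ × ℤ₄`. -/

set_option autoImplicit false
set_option linter.unusedSectionVars false

namespace Cfsg.Agent.H4.TI

open Subgroup Cfsg.Agent.FT Cfsg.Agent.L0 Cfsg.Agent.H8
open Cfsg.Agent.H2.CI (cjm cjm' ea_comm ea_pgroup mem_cj' cj_mem_cj)

universe u

variable {G : Type u} [Group G] [Finite G] {Γ : Set (Subgroup G)} {A B C D E F P Q R S T X Y : Subgroup G}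
  {a b c d e f g k l n s t v w x y z : G}

/-- every involution of a member is a square in it -/
def SQ (Γ : Set (Subgroup G)) : Prop := ∀ B ∈ Γ, ∀ v ∈ om B, ∃ b ∈ B, b * b = v

theorem ivc (h1 : a * a = 1) : a * z * a⁻¹ = z⁻¹ ↔ z * a * z⁻¹ * a = z * z := by
  rw [ie h1]
  refine ⟨fun e => ?_, fun e => ?_⟩
  · calc _ = z * (a * z * a)⁻¹ := by gsp [rI h1]
      _ = _ := by rw [e, inv_inv]
  · calc _ = (z⁻¹ * (z * a * z⁻¹ * a))⁻¹ := by gsp [rI h1]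
      _ = _ := by rw [e]; group

namespace TF

variable (h : TF Γ) (hA : A ∈ Γ) (hB : B ∈ Γ)
include h hA hB

theorem cmL (t : T2 A B) (ha : a ∈ om A) (hy : y ∈ B) (hz : z ∈ B) :
    y * z * a * (y * z)⁻¹ * a = y * a * y⁻¹ * a * (z * a * z⁻¹ * a) := by
  have k := h.cmm hA hB (h.e4 hA hB t) t.rel ha hz
  have k' := h.cmm hA hB (h.e4 hA hB t) t.rel ha hy
  calc _ = y * (z * a * z⁻¹ * a) * y⁻¹ * (y * a * y⁻¹ * a) := by gsp [rI (h.om2 hA ha)]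
    _ = _ := by rw [cc (h.omm hB k hy).symm, h.omm hB k (h.om1 hB k')]

theorem cmR (t : T2 A B) (ha : a ∈ om A) (hc : c ∈ om A) (hy : y ∈ B) :
    y * (a * c) * y⁻¹ * (a * c) = y * a * y⁻¹ * a * (y * c * y⁻¹ * c) := by
  have k := h.rc hA hB t.rel ha (h.cmm hA hB (h.e4 hA hB t) t.rel hc hy)
  calc _ = y * a * y⁻¹ * (y * c * y⁻¹ * (a * c)) := by group
    _ = y * a * y⁻¹ * (y * c * y⁻¹ * c * a) := by rw [h.omm hA ha (h.om1 hA hc)]; group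
    _ = _ := by rw [← k]; group

theorem cmV (r : Rl A B) (ha : a ∈ om A) (hv : v ∈ om B) : v * a * v⁻¹ * a = 1 := by
  rw [cc (h.rc hA hB r ha hv).symm, h.om2 hA ha]

theorem cm1 (t : T2 A B) (ha : a ∈ om A) (a1 : a ≠ 1) (hy : y ∈ B) (e : y * a * y⁻¹ * a = 1) : y * y = 1 :=
  t.fa a (h.om1 hA ha) a1 (h.om2 hA ha) y hy (cc' ((eq_inv_of_mul_eq_one_left e).trans (ie (h.om2 hA ha)))).symm

theorem cme (t : T2 A B) (ha : a ∈ om A) (a1 : a ≠ 1) (hy : y ∈ B) (hz : z ∈ B)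
    (e : y * a * y⁻¹ * a = z * a * z⁻¹ * a) : y * y = z * z := by
  have k := h.cm1 hA hB t ha a1 (mul_mem hy hz) (by
    rw [h.cmL hA hB t ha hy hz, e, h.om2 hB (h.cmm hA hB (h.e4 hA hB t) t.rel ha hz)])
  have k1 := h.ab B hB _ hz _ hy
  calc _ = y * z * (y * z) * (z * z) * (z * z * (z * z))⁻¹ := by gsp [rC k1]
    _ = _ := by rw [k, h.e4 hA hB t B hB z hz]; group

omit hA in
theorem sqe (hy : y ∈ B) (hz : z ∈ B) (e : y * y = z * z) : ∃ v ∈ om B, y = z * v := by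
  have k1 := h.ab B hB _ hz _ hy
  refine ⟨z⁻¹ * y, h.om3 hB (mul_mem (inv_mem hz) hy) ?_, by group⟩
  calc _ = y * y * (z * z)⁻¹ := by gsp [rC k1]
    _ = 1 := by rw [e]; group

omit hA in
theorem sqm (hy : y ∈ B) (hz : z ∈ B) : y * z * (y * z) = y * y * (z * z) := by gsp [rC (h.ab B hB _ hz _ hy)]

theorem cms (t : T2 A B) (ha : a ∈ om A) (hy : y ∈ B) (hz : z ∈ B) (e : y * y = z * z) :
    y * a * y⁻¹ * a = z * a * z⁻¹ * a := by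
  obtain ⟨v, hv, rfl⟩ := h.sqe hB hy hz e
  rw [h.cmL hA hB t ha hz (h.om1 hB hv), h.cmV hA hB t.rel ha hv, mul_one]

theorem full (sq : SQ Γ) (t : T2 A B) (ha : a ∈ om A) (a1 : a ≠ 1) (hv : v ∈ om B) : ∃ b ∈ B, b * a * b⁻¹ * a = v := by
  choose! ρ r1 r2 using sq B hB
  obtain ⟨w, hw, e⟩ := onto le_rfl (fun w => ρ w * a * (ρ w)⁻¹ * a)
    (fun w hw => h.cmm hA hB (h.e4 hA hB t) t.rel ha (r1 w hw))
    (fun w hw w' hw' e => by rw [← r2 w hw, h.cme hA hB t ha a1 (r1 w hw) (r1 w' hw') e, r2 w' hw']) hv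
  exact ⟨_, r1 w hw, e⟩

theorem mu (sq : SQ Γ) (t : T2 A B) (hz : z ∈ B) (z2 : z * z ≠ 1) : ∃ m ∈ A ⊔ zpowers z, H8.cj m A = B ∧ H8.cj m B = A ∧
    ∀ a ∈ om A, m * a * m⁻¹ = z * a * z⁻¹ * a ∧ m * (z * a * z⁻¹ * a) * m⁻¹ = a := by
  have e4 := h.e4 hA hB t
  obtain ⟨a1, h1, h1'⟩ := h.omi hA
  have k1 := fun a ha => h.cmm (a := a) hA hB e4 t.rel ha hz
  have k2 : z * a1 * z⁻¹ * a1 ≠ 1 := fun e => z2 (h.cm1 hA hB t h1 h1' hz e)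
  obtain ⟨c, hc, e⟩ := h.full hB hA sq t.symm (k1 a1 h1) k2 h1
  have k3 : ∀ a ∈ om A, ∀ m ∈ om A, c * (z * a * z⁻¹ * a) * c⁻¹ * (z * a * z⁻¹ * a) = m →
      z * c * z * a * (z * c * z)⁻¹ = z * m * z⁻¹ * m * (m * a) ∧
      z * c * z * (z * a * z⁻¹ * a) * (z * c * z)⁻¹ = z * m * z⁻¹ * (z * a * z⁻¹ * a) := fun a ha m hm e => by
    have l1 := k1 a ha
    have l2 : c * (z * a * z⁻¹ * a) * c⁻¹ = m * (z * a * z⁻¹ * a) := by
      rw [← e, mul_assoc (c * _ * c⁻¹), h.om2 hB l1, mul_one]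
    have l3 := cc (h.omm hB l1 hz).symm
    refine ⟨?_, ?_⟩
    · calc _ = z * (c * (z * a * z⁻¹ * a) * c⁻¹ * (c * a * c⁻¹)⁻¹) * z⁻¹ := by group
        _ = z * m * z⁻¹ * (z * (z * a * z⁻¹ * a) * z⁻¹) * (z * a * z⁻¹ * a) * a := by
          rw [l2, cc (h.omm hA ha hc).symm]; gsp [rI (h.om2 hA ha)]
        _ = _ := by rw [l3, mul_assoc _ _ (z * a * z⁻¹ * a), h.om2 hB l1]; gsp [rI (h.om2 hA hm)]
    · calc _ = z * (c * (z * (z * a * z⁻¹ * a) * z⁻¹) * c⁻¹) * z⁻¹ := by group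
        _ = z * (m * (z * a * z⁻¹ * a)) * z⁻¹ := by rw [l3, l2]
        _ = z * m * z⁻¹ * (z * (z * a * z⁻¹ * a) * z⁻¹) := by group
        _ = _ := by rw [l3]
  have k4 := (k3 a1 h1 a1 h1 e).1
  rw [h.om2 hA h1, mul_one] at k4
  have k5 := h.ti _ (h.cj A hA _) B hB _ (k4 ▸ conj_mem_cj (z * c * z) (h.om1 hA h1)) (h.om1 hB (k1 a1 h1)) k2
  have k6 : ∀ a ∈ om A, z * c * z * a * (z * c * z)⁻¹ = z * a * z⁻¹ * a ∧
      z * c * z * (z * a * z⁻¹ * a) * (z * c * z)⁻¹ = a := fun a ha => by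
    have l1 := h.cmm hB hA e4 t.rel.symm (k1 a ha) hc
    obtain ⟨l2, l3⟩ := k3 a ha _ l1 rfl
    generalize c * (z * a * z⁻¹ * a) * c⁻¹ * (z * a * z⁻¹ * a) = m at *
    have l4 := h.one hA hB (h.tne hA hB t) (h.om1 hA (mul_mem l1 ha))
      ((mul_mem_cancel_left (h.om1 hB (k1 m l1))).1 (l2 ▸ k5 ▸ conj_mem_cj (z * c * z) (h.om1 hA ha)))
    obtain rfl : m = a := (eq_inv_of_mul_eq_one_left l4).trans (ie (h.om2 hA ha))
    rw [l2, l3, l4, mul_one, ← mul_assoc, sqc (h.om2 hA ha), one_mul]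
    exact ⟨rfl, rfl⟩
  exact ⟨_, mul_mem (mul_mem (mem_sup_right (mem_zpowers z)) (mem_sup_left hc)) (mem_sup_right (mem_zpowers z)), k5,
    h.ti _ (h.cj B hB _) A hA a1 ((k6 a1 h1).2 ▸ conj_mem_cj (z * c * z) (h.om1 hB (k1 a1 h1))) (h.om1 hA h1) h1', k6⟩

theorem tor (sq : SQ Γ) (t : T2 A B) (hy : y ∈ B) (y2 : y * y ≠ 1) (hz : z ∈ B) (z2 : z * z ≠ 1) :
    ∃ s ∈ A ⊔ B, s ∈ 𝐍(A) ∧ s ∈ 𝐍(B) ∧ ∀ a ∈ om A, s * (y * a * y⁻¹ * a) * s⁻¹ = z * a * z⁻¹ * a ∧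
      z * (s * a * s⁻¹) * z⁻¹ * (s * a * s⁻¹) = y * a * y⁻¹ * a := by
  obtain ⟨m, k1, k2, k3, k4⟩ := h.mu hA hB sq t hy y2
  obtain ⟨n, l1, l2, l3, l4⟩ := h.mu hA hB sq t hz z2
  refine ⟨n * m, mul_mem (sup_le_sup_left (zpowers_le.2 hz) A l1) (sup_le_sup_left (zpowers_le.2 hy) A k1),
    cj_eq_self_iff.1 (by rw [cj_mul, k2, l3]), cj_eq_self_iff.1 (by rw [cj_mul, k3, l2]),
    fun a ha => ⟨?_, ?_⟩⟩
  · calc _ = n * (m * (y * a * y⁻¹ * a) * m⁻¹) * n⁻¹ := by group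
      _ = _ := by rw [(k4 a ha).2, (l4 a ha).1]
  · obtain ⟨c, hc, e⟩ := h.sur hA hB t hz z2 (h.cmm hA hB (h.e4 hA hB t) t.rel ha hy)
    have e1 : n * m * a * (n * m)⁻¹ = c := by
      calc _ = n * (m * a * m⁻¹) * n⁻¹ := by group
        _ = _ := by rw [(k4 a ha).1, ← e, (l4 c hc).2]
    rw [e1, e]

theorem exi (t : T2 A B) (hz : z ∈ B) : ∃ a ∈ om A, z * a * z⁻¹ * a = z * z := by
  by_cases z2 : z * z = 1
  · exact ⟨1, one_mem _, by simp [z2]⟩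
  exact h.sur hA hB t hz z2 (h.om3 hB (mul_mem hz hz) (h.e4 hA hB t B hB z hz))

/-- with additive inverting elements the four-group of involutions has order `4` -/
theorem beta (sq : SQ Γ) (t : T2 A B) (ad : ∀ y ∈ B, ∀ z ∈ B, y * y ≠ 1 → z * z ≠ 1 → ∀ a ∈ om A, ∀ c ∈ om A,
      y * a * y⁻¹ * a = y * y → z * c * z⁻¹ * c = z * z → y * z * (a * c) * (y * z)⁻¹ * (a * c) = y * z * (y * z))
    (hy : y ∈ B) (y2 : y * y ≠ 1) (hz : z ∈ B) (z2 : z * z ≠ 1) (yz : y * z * (y * z) ≠ 1) (ha : a ∈ om A)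
    (e : y * a * y⁻¹ * a = y * y) : z * a * z⁻¹ * a = y * y * (z * z) := by
  have e4 := h.e4 hA hB t
  have m1 := fun {y a} ha hy => h.cmm (a := a) (b := y) hA hB e4 t.rel ha hy
  have m2 : ∀ y ∈ B, y * y ∈ om B := fun y hy => h.om3 hB (mul_mem hy hy) (e4 B hB y hy)
  have W : ∀ y ∈ B, y * y ≠ 1 → ∀ z ∈ B, z * z ≠ 1 → ∀ a ∈ om A, y * a * y⁻¹ * a = y * y → ∃ w ∈ B, w * w ≠ 1 ∧
      ∃ c ∈ om A, w * c * w⁻¹ * c = w * w ∧ w * w = z * a * z⁻¹ * a ∧ z * c * z⁻¹ * c = y * y :=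
    fun y hy y2 z hz z2 a ha e => by
      obtain ⟨s, -, k1, k2, k3⟩ := h.tor hA hB sq t hy y2 hz z2
      refine ⟨_, cjm k2 hy, fun e => y2 (sq_of e), _, h.omN hA ha k1, ?_, ?_, e ▸ (k3 a ha).2⟩
      · calc _ = s * (y * a * y⁻¹ * a) * s⁻¹ := by group
          _ = _ := by rw [e]; group
      · rw [← (k3 a ha).1, e]; group
  have un : ∀ w ∈ B, ∀ w' ∈ B, w * w ≠ 1 → w * w = w' * w' → ∀ c ∈ om A, ∀ c' ∈ om A, w * c * w⁻¹ * c = w * w →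
      w' * c' * w'⁻¹ * c' = w' * w' → c = c' := fun w hw w' hw' w2 e c hc c' hc' e1 e2 =>
    h.inj hA hB t hw w2 hc hc' (by rw [e1, h.cms hA hB t hc' hw hw' e, e2, e])
  obtain ⟨b, hb, e'⟩ := h.exi hA hB t hz
  have sy : y * b * y⁻¹ * b = z * a * z⁻¹ * a := by
    have k := ad y hy z hz y2 z2 a ha b hb e e'
    rw [h.cmL hA hB t (mul_mem ha hb) hy hz, h.cmR hA hB t ha hb hy, h.cmR hA hB t ha hb hz, e, e', h.sqm hB hy hz,
      mul_assoc, mul_right_inj, ← mul_assoc, mul_eq_right] at k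
    rw [eq_inv_of_mul_eq_one_left k, ie (h.om2 hB (m1 ha hz))]
  obtain ⟨w, hw, w2, c, hc, k1, k2, k3⟩ := W y hy y2 z hz z2 a ha e
  obtain ⟨w', hw', -, c', hc', l1, l2, l3⟩ := W z hz z2 y hy y2 b hb e'
  obtain rfl := un w hw w' hw' w2 (by rw [k2, l2, sy]) c hc c' hc' k1 l1
  obtain ⟨u, hu, u2, d, hd, n1, n2, n3⟩ := W y hy y2 _ (mul_mem hy hz) yz a ha e
  rw [h.cmL hA hB t ha hy hz, e, ← k2, ← h.sqm hB hy hw] at n2
  obtain rfl := un u hu _ (mul_mem hy hw) u2 n2 d hd _ (mul_mem ha hc) n1 (ad y hy w hw y2 w2 a ha c hc e k1)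
  rw [h.cmL hA hB t hd hy hz, h.cmR hA hB t ha hc hy, h.cmR hA hB t ha hc hz, e, l3, ← k2, k3] at n3
  rw [← k2]
  have p1 := e4 B hB y hy
  have p2 := e4 B hB z hz
  have p3 := h.omm hB (m2 z hz) (h.om1 hB (m2 y hy))
  have p4 := h.omm hB (m2 w hw) (h.om1 hB (m2 y hy))
  generalize y * y = p, z * z = q, w * w = r at *
  calc r = q * p * (p * q * (r * p)) * p := by gsp [rI p1, rI p2]
    _ = _ := by rw [n3]; gsp [rI p1, rC p3]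

variable (hD : D ∈ Γ) (p : Tr A B D)
include hD p

theorem trs : Tr D B A := ⟨p.db, p.ab, fun r => p.nr r.symm, fun d hd a ha => by
  convert inv_mem (p.cm a ha d hd) using 1
  gsp [rI (h.om2 hA ha), rI (h.om2 hD hd)]⟩

theorem tr1 (ha : a ∈ om A) (a1 : a ≠ 1) (hd : d ∈ om D) (he : e ∈ om D) (k : d * a * d⁻¹ = e * a * e⁻¹) : d = e := by
  by_contra hn
  refine p.nr (h.rl_om hA hD ha a1 (mul_mem he hd) (mne (h.om2 hD he) (Ne.symm hn)) (cc' ?_).symm)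
  calc _ = e * (d * a * d⁻¹) * e⁻¹ := by group
    _ = _ := by rw [k]; gsp [rI (h.om2 hD he)]

theorem trb (hd : d ∈ om D) : ∃ b ∈ B, ∀ a ∈ om A, b * a * b⁻¹ = d * a * d⁻¹ := by
  by_cases d1 : d = 1
  · exact ⟨1, one_mem _, by simp [d1]⟩
  obtain ⟨a, ha, a1⟩ := h.omi hA
  have e4 := h.e4 hA hB p.ab
  have k1 : d * a * d⁻¹ * a ≠ 1 := fun e => d1 (h.tr1 hA hB hD p ha a1 hd (one_mem _) (by
    rw [eq_inv_of_mul_eq_one_left e, ie (h.om2 hA ha)]; group))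
  rcases h.lemK hA hB p.ab (h.om2 hD hd) (fun v hv => h.rc hD hB p.db.rel hd hv) (h.rl_om hA (h.cj A hA d) ha a1
    (h.omc hA ha d) (cne a1 d) (mul_right_cancel (b := a) (by
      rw [mul_assoc, h.rc hA hB p.ab.rel ha (p.cm a ha d hd)])))
    (fun a ha b hb => (h.omm hB (p.cm a ha d hd) hb).symm) with k | ⟨C, hC, c, hc, -, l1, -, t'⟩
  · obtain ⟨y, hy, l1⟩ := h.ne A hA
    refine (k1 (h.f1 hB hA p.ab.symm (p.cm a ha d hd) hy l1 ?_)).elim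
    rw [← mul_assoc, k y hy _ (conj_mem_cj d (h.om1 hA ha)), mul_assoc, ← h.omm hA ha hy, ← mul_assoc]
  · exact ⟨c, h.ti C hC B hB _ (h.om1 hC (l1 a ha ▸ h.cmm hA hC e4 t'.rel ha hc)) (h.om1 hB (p.cm a ha d hd)) k1 ▸ hc, l1⟩

theorem trd (hb : b ∈ B) : ∃ d ∈ om D, ∀ a ∈ om A, b * a * b⁻¹ = d * a * d⁻¹ := by
  obtain ⟨a, ha, a1⟩ := h.omi hA
  obtain ⟨d, hd, e⟩ := onto (h.card_om hB hD).le (fun d => d * a * d⁻¹ * a) (fun d hd => p.cm a ha d hd)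
    (fun d hd e he k => h.tr1 hA hB hD p ha a1 hd he (mul_right_cancel k)) (h.cmm hA hB (h.e4 hA hB p.ab) p.ab.rel ha hb)
  obtain ⟨c, hc, k⟩ := h.trb hA hB hD p hd
  refine ⟨d, hd, fun x hx => ?_⟩
  rw [← k x hx]
  exact mul_right_cancel (h.cms hA hB p.ab hx hb hc (h.cme hA hB p.ab ha a1 hb hc (by rw [k a ha, e])))

theorem trsq : SQ Γ := fun C hC v hv => by
  obtain ⟨g, rfl⟩ := h.tr B hB C hC
  obtain ⟨w, hw, rfl⟩ := mem_cj' (cj_om g B ▸ hv : v ∈ H8.cj g (om B))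
  obtain ⟨a, ha, a1⟩ := h.omi hA
  choose! ρ r1 r2 using fun d hd => h.trb (d := d) hA hB hD p hd
  obtain ⟨d, hd, e⟩ := onto (h.card_om hB hD).le (fun d => ρ d * ρ d)
    (fun d hd => h.om3 hB (mul_mem (r1 d hd) (r1 d hd)) (h.e4 hA hB p.ab B hB _ (r1 d hd)))
    (fun d hd e he k => h.tr1 hA hB hD p ha a1 hd he (by
      rw [← r2 d hd a ha, ← r2 e he a ha]
      exact mul_right_cancel (h.cms hA hB p.ab ha (r1 d hd) (r1 e he) k))) hw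
  exact ⟨_, conj_mem_cj g (r1 d hd), by rw [← e]; group⟩

theorem tri1 (hb : b ∈ B) (hd : d ∈ om D) (k : ∀ a ∈ om A, b * a * b⁻¹ = d * a * d⁻¹) : b * d * b⁻¹ * d = b * b :=
  (ivc (h.om2 hD hd)).1 (h.invt hA hB p.ab hb (h.om2 hD hd) k fun _ hv => h.rc hD hB p.db.rel hd hv)

theorem tri2 (hb : b ∈ B) (b2 : b * b ≠ 1) (hd : d ∈ om D) (e : b * d * b⁻¹ * d = b * b) (ha : a ∈ om A) :
    b * a * b⁻¹ = d * a * d⁻¹ := by
  obtain ⟨c, hc, k⟩ := h.trd hA hB hD p hb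
  rw [h.inj hD hB p.db hb b2 hd hc (e.trans (h.tri1 hA hB hD p hb hc k).symm), k a ha]

theorem tr4 : ∀ C ∈ Γ, #|om C| = 4 := fun C hC => by
  rw [h.card_om hC hB]
  have sq := h.trsq hA hB hD p
  have e4 := h.e4 hA hB p.ab
  have be := fun {y z a} => h.beta (y := y) (z := z) (a := a) hD hB sq p.db fun y hy z hz y2 z2 a ha c hc e1 e2 =>
    h.tri1 hA hB hD p (mul_mem hy hz) (mul_mem ha hc) fun x hx => by
      have k := h.cmm hA hB e4 p.ab.rel hx hz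
      calc _ = y * (z * x * z⁻¹ * x) * y⁻¹ * (y * x * y⁻¹) := by gsp [rI (h.om2 hA hx)]
        _ = a * (z * x * z⁻¹ * x) * a⁻¹ * (a * x * a⁻¹) := by
          rw [cc (h.omm hB k hy).symm, cc (h.rc hD hB p.db.rel ha k), h.tri2 hA hB hD p hy y2 ha e1 hx]
        _ = _ := by rw [h.tri2 hA hB hD p hz z2 hc e2 hx]; gsp [rI (h.om2 hA hx)]
  obtain ⟨v, hv, w, hw, k1, k2, k3, k4, k5⟩ := h.four B hB
  have hv' := h.om3 hB hv k1
  have hw' := h.om3 hB hw k2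
  refine le_antisymm ?_ (Clos.four_le_card hv' hw' ⟨k1, k3⟩ ⟨k2, k4⟩ k5 (h.ab B hB v hv w hw))
  refine (Nat.card_le_card_of_surjective (fun i : Fin 4 => (![⟨1, one_mem _⟩, ⟨v, hv'⟩, ⟨w, hw'⟩, ⟨_, mul_mem hv' hw'⟩] i :
    om B)) fun ⟨u, hu⟩ => ?_).trans (by simp)
  by_contra hn
  have l0 : u ≠ 1 := fun e => hn ⟨0, Subtype.ext e.symm⟩
  have l1 : u ≠ v := fun e => hn ⟨1, Subtype.ext e.symm⟩
  have l2 : u ≠ w := fun e => hn ⟨2, Subtype.ext e.symm⟩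
  have l3 : u ≠ v * w := fun e => hn ⟨3, Subtype.ext e.symm⟩
  obtain ⟨x, hx, rfl⟩ := sq B hB v hv'
  obtain ⟨y, hy, rfl⟩ := sq B hB w hw'
  obtain ⟨z, hz, rfl⟩ := sq B hB u hu
  obtain ⟨a, ha, e⟩ := h.exi hD hB p.db hz
  have u2 := h.om2 hB hu
  have m := be hz l0 (mul_mem hx hy) (h.sqm hB hx hy ▸ mne k1 k5)
    (by rw [h.sqm hB hz (mul_mem hx hy), h.sqm hB hx hy]; exact mne u2 l3) ha e
  rw [h.cmL hD hB p.db ha hx hy, be hz l0 hx k3 (h.sqm hB hz hx ▸ mne u2 l1) ha e,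
    be hz l0 hy k4 (h.sqm hB hz hy ▸ mne u2 l2) ha e, h.sqm hB hx hy, mul_assoc, mul_right_inj, mul_right_inj,
    mul_eq_right] at m
  exact l0 m

end TF

end Cfsg.Agent.H4.TI
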