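import Cfsg.Agent.H4.TI7

/-! Abelian TI subgroups `ℤ₄ × ℤ₄`: good triangles. -/

set_option autoImplicit false
set_option linter.unusedSectionVars false

namespace Cfsg.Agent.H4.TI

open Subgroup Cfsg.Agent.FT Cfsg.Agent.L0 Cfsg.Agent.H8
open Cfsg.Agent.H2.CI (cjm cjm' ea_comm ea_pgroup mem_cj' cj_mem_cj)

universe u

variable {G : Type u} [Group G] [Finite G] {Γ : Set (Subgroup G)} {A B C D E F P Q R S T X Y : Subgroup G}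
  {a b c d e f g k l n s t v w x y z : G}

/-- the members are `ℤ₄ × ℤ₄` -/
structure HF (Γ : Set (Subgroup G)) : Prop extends TF Γ where
  sq : SQ Γ
  ee : E4 Γ
  c4 : ∀ B ∈ Γ, #|om B| = 4

/-- a good triangle -/
structure GT (A B D : Subgroup G) : Prop extends Tr A B D where
  le : om D ≤ B ⊔ om A

theorem GT.cj (p : GT A B D) (g : G) : GT (cj g A) (cj g B) (cj g D) :=
  ⟨⟨p.ab.cj g, p.db.cj g, fun r => p.nr (by simpa only [cj_inv_cj] using r.cj g⁻¹), fun a ha d hd => by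
    obtain ⟨a, ha', rfl⟩ := mem_cj' (cj_om g A ▸ ha : a ∈ H8.cj g (om A))
    obtain ⟨d, hd', rfl⟩ := mem_cj' (cj_om g D ▸ hd : d ∈ H8.cj g (om D))
    convert (cj_om g B ▸ conj_mem_cj g (p.cm a ha' d hd') : _ ∈ om (H8.cj g B)) using 1
    group⟩, by rw [← cj_om, ← cj_om, ← cj_sup]; exact cj_mono g p.le⟩

namespace HF

variable (h : HF Γ) (hA : A ∈ Γ) (hB : B ∈ Γ)
include h hB

theorem v4 (hv : v ∈ om B) (hw : w ∈ om B) (v1 : v ≠ 1) (w1 : w ≠ 1) (hne : v ≠ w) (hx : x ∈ om B) :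
    x = 1 ∨ x = v ∨ x = w ∨ x = v * w :=
  H9.mem_four_of_card_le (h.c4 B hB).le hv hw v1 w1 hne (mne (h.om2 hB hv) hne) hx

theorem sqo (hy : y ∈ B) : y * y ∈ om B := h.om3 hB (mul_mem hy hy) (h.ee B hB y hy)

theorem oth (v : G) : ∃ z ∈ B, z * z ≠ 1 ∧ z * z ≠ v := by
  obtain ⟨a, ha, b, hb, k1, k2, k3, k4, k5⟩ := h.four B hB
  obtain ⟨x, hx, rfl⟩ := h.sq B hB a (h.om3 hB ha k1)
  obtain ⟨y, hy, rfl⟩ := h.sq B hB b (h.om3 hB hb k2)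
  by_cases e : x * x = v
  · exact ⟨y, hy, k4, fun e' => k5 (e.trans e'.symm)⟩
  · exact ⟨x, hx, k3, e⟩

theorem nv (hc : ∀ v ∈ om B, g * v = v * g) (hb : b ∈ B) : g * b * g⁻¹ * (g * b * g⁻¹) = b * b := by
  calc _ = g * (b * b) * g⁻¹ := by group
    _ = _ := cc (hc _ (h.sqo hB hb))

include hA

theorem bf (t : T2 A B) (hy : y ∈ B) (y2 : y * y ≠ 1) (hz : z ∈ B) (z2 : z * z ≠ 1) (hne : y * y ≠ z * z) (ha : a ∈ om A)
    (e : z * a * z⁻¹ * a = z * z) : y * a * y⁻¹ * a = y * y * (z * z) := by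
  have a1 : a ≠ 1 := fun k => z2 (by rw [← e, k]; group)
  rcases h.v4 hB (h.sqo hB hy) (h.sqo hB hz) y2 z2 hne (h.cmm hA hB h.ee t.rel ha hy) with k | k | k | k
  · exact (y2 (h.cm1 hA hB t ha a1 hy k)).elim
  · have k1 : ∀ b ∈ B, b * a * b⁻¹ * a = b * b := fun b hb => by
      rcases h.v4 hB (h.sqo hB hy) (h.sqo hB hz) y2 z2 hne (h.sqo hB hb) with l | l | l | l
      · rw [l, h.cmV hA hB t.rel ha (h.om3 hB hb l)]
      · rw [l, h.cms hA hB t ha hb hy l, k]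
      · rw [l, h.cms hA hB t ha hb hz l, e]
      · rw [l, h.cms hA hB t ha hb (mul_mem hy hz) (l.trans (h.sqm hB hy hz).symm), h.cmL hA hB t ha hy hz, k, e]
    obtain ⟨s, -, l1, l2, l3⟩ := h.tor hA hB h.sq t hy y2 hz z2
    refine (hne ?_).elim
    rw [← k, ← (l3 a ha).2]
    calc _ = s * (s⁻¹ * z * s * a * (s⁻¹ * z * s)⁻¹ * a) * s⁻¹ := by group
      _ = _ := by rw [k1 _ (cjm' l2 hz)]; group
  · exact (hne (h.cme hA hB t ha a1 hy hz (k.trans e.symm))).elim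
  · exact k

theorem same (hD : D ∈ Γ) (t : T2 A B) (t' : T2 D B) (hz : z ∈ B) (z2 : z * z ≠ 1) (ha : a ∈ om A) (hd : d ∈ om D)
    (e : z * a * z⁻¹ * a = z * z) (e' : z * d * z⁻¹ * d = z * z) : a * d ∈ 𝐂(B) := cen fun y hy => by
  have k : y * a * y⁻¹ * a = y * d * y⁻¹ * d := by
    by_cases y2 : y * y = 1
    · rw [h.cmV hA hB t.rel ha (h.om3 hB hy y2), h.cmV hD hB t'.rel hd (h.om3 hB hy y2)]
    by_cases hne : y * y = z * z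
    · rw [h.cms hA hB t ha hy hz hne, h.cms hD hB t' hd hy hz hne, e, e']
    · rw [h.bf hA hB t hy y2 hz z2 hne ha e, h.bf hD hB t' hy y2 hz z2 hne hd e']
  have k1 := h.cmm hA hB h.ee t.rel ha hy
  refine (cc' ?_).symm
  calc _ = y * a * y⁻¹ * a * a * (y * d * y⁻¹ * d) * d := by gsp [rI (h.om2 hA ha), rI (h.om2 hD hd)]
    _ = _ := by rw [← k, mul_assoc _ a, h.rc hA hB t.rel ha k1, ← mul_assoc, h.om2 hB k1, one_mul]

theorem sy (t : T2 A B) (hy : y ∈ B) (y2 : y * y ≠ 1) (hz : z ∈ B) (z2 : z * z ≠ 1) (ha : a ∈ om A) (hc : c ∈ om A)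
    (e : y * a * y⁻¹ * a = y * y) (e' : z * c * z⁻¹ * c = z * z) : y * c * y⁻¹ * c = z * a * z⁻¹ * a := by
  by_cases hne : y * y = z * z
  · rw [h.cms hA hB t hc hy hz hne, h.cms hA hB t ha hz hy hne.symm, e, e', hne]
  · rw [h.bf hA hB t hy y2 hz z2 hne hc e', h.bf hA hB t hz z2 hy y2 (Ne.symm hne) ha e,
      h.ab B hB _ (mul_mem hy hy) _ (mul_mem hz hz)]

theorem ad (t : T2 A B) (hy : y ∈ B) (y2 : y * y ≠ 1) (hz : z ∈ B) (z2 : z * z ≠ 1) (ha : a ∈ om A) (hc : c ∈ om A)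
    (e : y * a * y⁻¹ * a = y * y) (e' : z * c * z⁻¹ * c = z * z) :
    y * z * (a * c) * (y * z)⁻¹ * (a * c) = y * z * (y * z) := by
  rw [h.cmL hA hB t (mul_mem ha hc) hy hz, h.cmR hA hB t ha hc hy, h.cmR hA hB t ha hc hz, e, e', h.sqm hB hy hz,
    h.sy hA hB t hy y2 hz z2 ha hc e e', mul_assoc, ← mul_assoc (z * a * z⁻¹ * a), h.om2 hB (h.cmm hA hB h.ee t.rel ha hz),
    one_mul]

theorem es (t : T2 A B) (hy : y ∈ B) (y2 : y * y ≠ 1) (hz : z ∈ B) (z2 : z * z ≠ 1) (ha : a ∈ om A) (hc : c ∈ om A)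
    (e : y * a * y⁻¹ * a = y * y) (e' : z * c * z⁻¹ * c = z * z) :
    ∃ w ∈ om B, y * a * (z * c) = y * z * w * (a * c) ∧ z * c * (y * a) = y * z * w * (a * c) := by
  have k := h.sy hA hB t hy y2 hz z2 ha hc e e'
  have k1 := h.cmm hA hB h.ee t.rel ha hz
  refine ⟨_, k1, ?_, ?_⟩
  · calc _ = y * (z * a * z⁻¹ * a)⁻¹ * z * (a * c) := by gsp [rI (h.om2 hA ha)]
      _ = _ := by rw [ie (h.om2 hB k1), mul_assoc y, h.omm hB k1 hz, ← mul_assoc y]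
  · calc _ = z * (y * c * y⁻¹ * c)⁻¹ * y * (c * a) := by gsp [rI (h.om2 hA hc)]
      _ = _ := by
        rw [k, ie (h.om2 hB k1), mul_assoc z, h.omm hB k1 hy, ← mul_assoc z, h.ab B hB z hz y hy, h.omm hA hc (h.om1 hA ha)]

theorem exb (t : T2 A B) (ha : a ∈ om A) (a1 : a ≠ 1) : ∃ b ∈ B, b * b ≠ 1 ∧ b * a * b⁻¹ * a = b * b := by
  obtain ⟨y, hy, y2⟩ := h.ne B hB
  obtain ⟨z, hz, z2, hne⟩ := h.oth hB (y * y)
  by_cases e : y * a * y⁻¹ * a = y * y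
  · exact ⟨y, hy, y2, e⟩
  obtain ⟨c, hc, e1⟩ := h.exi hA hB t hy
  obtain ⟨d, hd, e2⟩ := h.exi hA hB t hz
  rcases h.v4 hA hc hd (fun k => y2 (by rw [← e1, k]; group)) (fun k => z2 (by rw [← e2, k]; group)) (fun k => y2 (by
    have := h.bf hA hB t hz z2 hy y2 hne hc e1
    rwa [k, e2, left_eq_mul] at this)) ha with k | k | k | k
  · exact (a1 k).elim
  · exact ⟨y, hy, y2, k ▸ e1⟩
  · exact ⟨z, hz, z2, k ▸ e2⟩
  · exact ⟨_, mul_mem hy hz, h.sqm hB hy hz ▸ mne (h.ee B hB y hy) (Ne.symm hne), k ▸ h.ad hA hB t hy y2 hz z2 hc hd e1 e2⟩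

theorem e1 (t : T2 A B) (ha : a ∈ om A) (a1 : a ≠ 1) (hv : v ∈ om B) : ∃ b ∈ B, b * a * b⁻¹ = a * v := by
  obtain ⟨b, hb, e⟩ := h.full hA hB h.sq t ha a1 hv
  refine ⟨b, hb, ?_⟩
  rw [h.rc hA hB t.rel ha hv, ← e, mul_assoc _ a a, h.om2 hA ha, mul_one]

theorem nE (t : T2 A B) (hc : ∀ v ∈ om B, g * v = v * g) (ha : a ∈ om A) (a1 : a ≠ 1) (hg : g * a * g⁻¹ ∈ om A ⊔ om B) :
    ∃ b ∈ B, ∀ a ∈ om A, g * a * g⁻¹ = b * a * b⁻¹ := by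
  obtain ⟨c, hc', v, hv, e⟩ := (h.eaE hA hB t.rel).2 _ hg
  obtain ⟨w, hw, w1⟩ := h.omi hB
  have hn := h.nrc hB (h.om1 hB hw) w1 (hc w hw)
  obtain ⟨b, hb, e1⟩ := h.e1 hA hB t hc' (fun k => a1 (h.one hA hB (h.tne hA hB t) (h.om1 hA ha) (by
    have := cjm' hn (h.om1 hB hv)
    rw [k, one_mul] at e
    rwa [e, show g⁻¹ * (g * a * g⁻¹) * g = a by group] at this))) hv
  have k1 : b⁻¹ * g ∈ 𝐍(A) := h.nrm hA (h.om1 hA ha) a1 (by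
    rw [show b⁻¹ * g * a * (b⁻¹ * g)⁻¹ = b⁻¹ * (g * a * g⁻¹) * b by group, ← e, ← e1]
    simpa [mul_assoc] using h.om1 hA hc')
  have k2 : ∀ v ∈ om B, b⁻¹ * g * v = v * (b⁻¹ * g) := fun v hv => by gsp [rC (hc v hv), rC (h.omm hB hv hb).symm]
  have k3 := mul_mem (inv_mem (le_normalizer hb)) hn
  obtain ⟨y, hy, y2⟩ := h.ne B hB
  refine ⟨b, hb, fun a ha => ?_⟩
  have k4 : b⁻¹ * g * a * (b⁻¹ * g)⁻¹ = a := by
    generalize b⁻¹ * g = k at *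
    refine h.inj hA hB t hy y2 (h.omN hA ha k1) ha ?_
    rw [← h.cms hA hB t (h.omN hA ha k1) (cjm k3 hy) hy (h.nv hB k2 hy), ← cc (k2 _ (h.cmm hA hB h.ee t.rel ha hy))]
    group
  conv_rhs => rw [← k4]
  group

theorem chh (t : T2 A B) (hg : g ∈ 𝐂(B)) (hc : ∀ a ∈ om A, g * a = a * g) : ∃ v ∈ om B, g * v ∈ 𝐂(A ⊔ B) := by
  obtain ⟨c, hc', c2⟩ := h.ne A hA
  obtain ⟨m, hm, e⟩ := h.ca hA hB t hc (fun v hv => cc' (cent hg (h.om1 hB hv))) hc'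
  obtain ⟨v, hv, e1⟩ := h.sur hB hA t.symm hc' c2 hm
  obtain ⟨n, k1, k2, -⟩ := h.mu hB hA h.sq t.symm hc' c2
  have k3 : B ≤ 𝐂[g * v] := fun b hb => mem_centralizer_singleton_iff.2 (mem_centralizer_iff.1
    (mul_mem hg (cen fun b hb => h.omm hB hv hb)) b hb)
  have k4 : B ⊔ zpowers c ≤ 𝐂[g * v] := sup_le k3 (zpowers_le.2 (mem_centralizer_singleton_iff.2 (cc' ?_).symm))
  · refine ⟨v, hv, cen fun x hx => (mem_centralizer_singleton_iff.1 ((sup_le ?_ k3 : A ⊔ B ≤ 𝐂[g * v]) hx)).symm⟩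
    rw [← k2]
    exact cj_le_of_mem_normalizer (le_normalizer (k4 k1)) k3
  calc _ = g * (c * v * c⁻¹ * v)⁻¹ * g⁻¹ * (g * c * g⁻¹) := by gsp [rI (h.om2 hB hv)]
    _ = _ := by rw [e1, e, ie (h.om2 hA hm), cc (hc m hm), h.omm hA hm (mul_mem hc' (h.om1 hA hm))]; gsp [rI (h.om2 hA hm)]

theorem trE (t : T2 A B) (hx : x ∈ om A ⊔ om B) (x1 : x ≠ 1) (hy : y ∈ om A ⊔ om B) (y1 : y ≠ 1) :
    ∃ g ∈ A ⊔ B, g * x * g⁻¹ = y := by
  obtain ⟨v, hv, v1⟩ := h.omi hB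
  have k1 : ∀ a ∈ om A, a ≠ 1 → ∀ v ∈ om B, v ≠ 1 → ∃ g ∈ A ⊔ B, g * v * g⁻¹ = a := fun a ha a1 v hv v1 => by
    obtain ⟨b, hb, e⟩ := h.e1 hA hB t ha a1 hv
    obtain ⟨c, hc, e'⟩ := h.e1 hB hA t.symm hv v1 ha
    refine ⟨_, mul_mem (inv_mem (mem_sup_right hb)) (mem_sup_left hc), ?_⟩
    calc _ = b⁻¹ * (c * v * c⁻¹) * b := by group
      _ = _ := by rw [e', ← h.rc hA hB t.rel ha hv, ← e]; group
  have k2 : ∀ x ∈ om A ⊔ om B, x ≠ 1 → ∃ g ∈ A ⊔ B, g * v * g⁻¹ = x := fun x hx x1 => by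
    obtain ⟨a, ha, w, hw, rfl⟩ := (h.eaE hA hB t.rel).2 x hx
    by_cases a1 : a = 1
    · obtain ⟨c, hc, c1⟩ := h.omi hA
      obtain ⟨g, hg, e⟩ := k1 c hc c1 v hv v1
      obtain ⟨k, hk, e'⟩ := k1 c hc c1 w hw fun e => x1 (by rw [a1, e, mul_one])
      refine ⟨_, mul_mem (inv_mem hk) hg, ?_⟩
      calc _ = k⁻¹ * (g * v * g⁻¹) * k := by group
        _ = _ := by rw [e, ← e', a1]; group
    obtain ⟨g, hg, e⟩ := k1 a ha a1 v hv v1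
    obtain ⟨b, hb, e'⟩ := h.e1 hA hB t ha a1 hw
    refine ⟨_, mul_mem (mem_sup_right hb) hg, ?_⟩
    rw [← e', ← e]; group
  obtain ⟨g, hg, rfl⟩ := k2 x hx x1
  obtain ⟨k, hk, rfl⟩ := k2 y hy y1
  exact ⟨_, mul_mem hk (inv_mem hg), by group⟩

theorem dc (hD : D ∈ Γ) (t : T2 A B) (t' : T2 D B) (r : Rl A D) (hd : d ∈ om D) (d1 : d ≠ 1) :
    ∃ a ∈ om A, a ≠ 1 ∧ a * d ∈ 𝐂(B) ∧ ∃ v ∈ om B, ∃ k ∈ 𝐂(A ⊔ B), d = a * v * k := by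
  obtain ⟨b, hb, b2, e⟩ := h.exb hD hB t' hd d1
  obtain ⟨a, ha, e'⟩ := h.exi hA hB t hb
  have k1 := h.same hA hB hD t t' hb b2 ha hd e' e
  obtain ⟨v, hv, k2⟩ := h.chh hA hB t k1 fun c hc => by gsp [rC (h.omm hA ha (h.om1 hA hc)), rC (h.rc hA hD r hc hd).symm]
  refine ⟨a, ha, fun k => b2 (by rw [← e', k]; group), k1, v, hv, _, k2, ?_⟩
  gsp [rI (h.om2 hA ha), rI (h.om2 hB hv), rC (h.rc hA hB t.rel ha hv).symm, rC (h.rc hD hB t'.rel hd hv).symm]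

theorem pl (hD : D ∈ Γ) (t : T2 A B) (t' : T2 D B) (r : Rl A D) (hd : d ∈ om D) (d1 : d ≠ 1) (hc : c ∈ om A)
    (hn : c * d ∉ 𝐂(B)) : ∃ C ∈ Γ, c * d ∈ om C := by
  obtain ⟨a, ha, a1, k1, v, hv, k, hk, rfl⟩ := h.dc hA hB hD t t' r hd d1
  have k2 : ∀ a ∈ om A, a ≠ 1 → a * v ≠ 1 := fun a ha a1 e => a1 (h.one hA hB (h.tne hA hB t) (h.om1 hA ha)
    (eq_inv_of_mul_eq_one_left e ▸ inv_mem (h.om1 hB hv)))
  obtain ⟨g, hg, e⟩ := h.trE hA hB t (mul_mem_sup ha hv) (k2 a ha a1) (mul_mem_sup (mul_mem hc ha) hv)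
    (k2 _ (mul_mem hc ha) (mne (h.om2 hA hc) fun e => hn (e ▸ k1)))
  refine ⟨_, h.cj D hD g, ?_⟩
  convert h.omc hD hd g using 1
  calc _ = c * a * v * k := by group
    _ = g * (a * v) * g⁻¹ * (g * k * g⁻¹) := by rw [e, cc (mem_centralizer_iff.1 hk g hg)]
    _ = _ := by group

theorem tre (hD : D ∈ Γ) (t : T2 A B) (hb : b ∈ B) (b2 : b * b ≠ 1) (hc : c ∈ om A) (hd : b * c ∈ om D) : Tr A B D := by
  obtain ⟨a, ha, a1⟩ := h.omi hA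
  have k1 : b * c * a * (b * c)⁻¹ = b * a * b⁻¹ := by gsp [rC (h.omm hA hc (h.om1 hA ha))]
  have k2 := h.cmm hA hB h.ee t.rel ha hb
  obtain ⟨C, hC, p⟩ := h.tr_of hA hD ha hd (fun e => a1 (h.f1 hA hB t ha hb b2 (cc' (k1 ▸ cc e.symm))))
    (mul_right_cancel (b := a) (by rw [k1, mul_assoc, h.rc hA hB t.rel ha k2]))
  exact h.ti C hC B hB _ (h.om1 hC (k1 ▸ p.cm a ha _ hd)) (h.om1 hB k2) (fun e => b2 (h.cm1 hA hB t ha a1 hb e)) ▸ p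

theorem dec (hD : D ∈ Γ) (p : Tr A B D) (hd : d ∈ om D) (d1 : d ≠ 1) : ∃ b ∈ B, b * b ≠ 1 ∧ b * d * b⁻¹ * d = b * b ∧
    ∃ a ∈ om A, b * a * b⁻¹ * a = b * b ∧ ∃ k ∈ 𝐂(A ⊔ B), k * k = 1 ∧ d = b * a * k := by
  obtain ⟨b, hb, b2, e⟩ := h.exb hD hB p.db hd d1
  obtain ⟨a, ha, e'⟩ := h.exi hA hB p.ab hb
  obtain ⟨v, hv, k1⟩ := h.chh hA hB p.ab (g := a * b⁻¹ * d) (by
      convert mul_mem (cen (h.ab B hB b hb)) (h.same hA hB hD p.ab p.db hb b2 ha hd e' e) using 1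
      rw [← (ivc (h.om2 hA ha)).2 e']; gsp [rI (h.om2 hA ha)]) fun c hc => cc' (by
    calc _ = a * b⁻¹ * (d * c * d⁻¹) * b * a⁻¹ := by group
      _ = _ := by rw [← h.tri2 hA hB hD p hb b2 hd e hc]; gsp [rC (h.omm hA ha (h.om1 hA hc))])
  have k2 : b * v * (b * v) = b * b := by rw [h.sqm hB hb (h.om1 hB hv), h.om2 hB hv, mul_one]
  have k3 := mul_mem hb (h.om1 hB hv)
  have k4 : b * v * a * (b * v)⁻¹ * a = b * v * (b * v) := by rw [h.cms hA hB p.ab ha k3 hb k2, e', k2]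
  have k5 : d = b * v * a * (a * b⁻¹ * d * v) := by
    gsp [rI (h.om2 hA ha), rI (h.om2 hB hv), rC (h.omm hB hv hb), rC (h.rc hD hB p.db.rel hd hv).symm]
  refine ⟨_, k3, by rwa [k2], by rw [h.cms hD hB p.db hd k3 hb k2, e, k2], a, ha, k4, _, k1, ?_, k5⟩
  have k6 := h.om2 hD hd
  have k7 := mem_centralizer_iff.1 k1 _ (mul_mem (mem_sup_right k3) (mem_sup_left (h.om1 hA ha)))
  have k8 : b * v * a * (b * v * a) = 1 := by
    calc _ = b * v * (a * (b * v) * a⁻¹) := by gsp [rI (h.om2 hA ha)]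
      _ = 1 := by rw [(ivc (h.om2 hA ha)).2 k4]; group
  generalize a * b⁻¹ * d * v = k, b * v * a = e at *
  rw [← k6, k5]
  gsp [rC k7.symm, rI k8]

theorem good0 (hD : D ∈ Γ) (p : Tr A B D) :
    ∃ C ∈ Γ, ∃ b ∈ B, b * b ≠ 1 ∧ ∃ a ∈ om A, b * a ∈ om C := by
  obtain ⟨d, hd, d1⟩ := h.omi hD
  obtain ⟨b, hb, b2, -, a, ha, e, k, hk, k2, rfl⟩ := h.dec hA hB hD p hd d1
  obtain ⟨z, hz, z2, hne⟩ := h.oth hB (b * b)
  obtain ⟨s, l0, l1, l2, l3⟩ := h.tor hA hB h.sq p.ab hb b2 hz z2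
  have m1 := cjm l2 hb
  have m2 := h.omN hA ha l1
  have m3 : s * b * s⁻¹ * (s * b * s⁻¹) = z * z * (b * b) := by
    rw [← h.bf hA hB p.ab hz z2 hb b2 hne ha e, ← (l3 a ha).1, e]; group
  have m4 : s * b * s⁻¹ * (s * b * s⁻¹) ≠ 1 := fun e => b2 (sq_of e)
  have m5 : s * b * s⁻¹ * (s * a * s⁻¹) * (s * b * s⁻¹)⁻¹ * (s * a * s⁻¹) = s * b * s⁻¹ * (s * b * s⁻¹) := by
    calc _ = s * (b * a * b⁻¹ * a) * s⁻¹ := by group
      _ = _ := by rw [e]; group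
  have m6 : s * (b * a * k) * s⁻¹ = s * b * s⁻¹ * (s * a * s⁻¹) * k := by
    conv_rhs => rw [← cc (mem_centralizer_iff.1 hk s l0)]
    group
  have m7 := m6 ▸ h.omc hD hd s
  obtain ⟨w, hw, e1, e2⟩ := h.es hA hB p.ab hb b2 m1 m4 ha m2 e m5
  have m8 := mem_centralizer_iff.1 hk _ (mul_mem (mem_sup_right hb) (mem_sup_left (h.om1 hA ha)))
  have m9 := mem_centralizer_iff.1 hk _ (mul_mem (mem_sup_right m1) (mem_sup_left (h.om1 hA m2)))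
  have n1 : b * a * k * (s * b * s⁻¹ * (s * a * s⁻¹) * k) = b * (s * b * s⁻¹) * w * (a * (s * a * s⁻¹)) := by
    rw [← e1]
    generalize s * b * s⁻¹ * (s * a * s⁻¹) = f, b * a = e at *
    gsp [rC m9.symm, rI k2]
  have n2 : s * b * s⁻¹ * (s * a * s⁻¹) * k * (b * a * k) = b * (s * b * s⁻¹) * w * (a * (s * a * s⁻¹)) := by
    rw [← e2]
    generalize s * b * s⁻¹ * (s * a * s⁻¹) = f, b * a = e at *
    gsp [rC m8.symm, rI k2]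
  have n3 := mul_mem (mul_mem hb m1) (h.om1 hB hw)
  have n4 : b * (s * b * s⁻¹) * w * (b * (s * b * s⁻¹) * w) ≠ 1 := by
    rw [h.sqm hB (mul_mem hb m1) (h.om1 hB hw), h.om2 hB hw, mul_one, h.sqm hB hb m1, m3, h.ab B hB _ (mul_mem hz hz) _
      (mul_mem hb hb), ← mul_assoc, h.ee B hB b hb, one_mul]
    exact z2
  have hD' := h.cj D hD s
  have d1' : s * b * s⁻¹ * (s * a * s⁻¹) * k ≠ 1 := m6 ▸ cne d1 s
  obtain ⟨C, hC, n5⟩ := h.pl hD hB hD' p.db (p.db.cjN l2) (h.rl_om hD hD' hd d1 m7 d1' (n1.trans n2.symm)) m7 d1' hd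
    fun e5 => n4 (by
      rw [n1] at e5
      have e3 := h.f1 hA hB p.ab (mul_mem ha m2) hb b2 (mem_centralizer_iff.1
        ((mul_mem_cancel_left (cen (h.ab B hB _ n3))).1 e5) b hb)
      rw [h.sqm hB (mul_mem hb m1) (h.om1 hB hw), h.om2 hB hw, mul_one, ← h.ad hA hB p.ab hb b2 m1 m4 ha m2 e m5, e3]
      group)
  exact ⟨C, hC, _, n3, n4, _, mul_mem ha m2, n1 ▸ n5⟩

theorem mP (t : T2 A B) (hx : x ∈ B ⊔ om A) : ∃ b ∈ B, ∃ a ∈ om A, b * a = x := by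
  have k := fun a ha => h.rn (a := a) hA hB t.rel (h.om1 hA ha) (h.om2 hA ha)
  obtain ⟨a, ha, b, hb, rfl⟩ := (mem_sup_of_le_normalizer' (H := om A) k).1 (sup_comm B (om A) ▸ hx)
  exact ⟨_, cjm (k a ha) hb, a, ha, by group⟩

theorem good (hD : D ∈ Γ) (p : Tr A B D) : ∃ C ∈ Γ, GT A B C := by
  obtain ⟨D, hD, b, hb, b2, a, ha, hd⟩ := h.good0 hA hB hD p
  have p := h.tre hA hB hD p.ab hb b2 ha hd
  have e : b * a * b⁻¹ * a = b * b := (ivc (h.om2 hA ha)).1 (by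
    rw [eq_inv_iff_mul_eq_one, ie (h.om2 hA ha), ← mul_right_inj b, ← mul_left_inj b⁻¹]
    calc _ = b * a * (b * a) := by group
      _ = _ := by rw [h.om2 hD hd]; group)
  have e0 : b * (b * a) * b⁻¹ * (b * a) = b * b := by gsp [rI (h.om2 hA ha)]
  have m0 : b * a ∈ B ⊔ om A := mul_mem_sup hb ha
  have d1 : b * a ≠ 1 := fun k => b2 (by rw [← e0, k]; group)
  refine ⟨D, hD, p, ?_⟩
  suffices ∃ d ∈ om D, d ≠ 1 ∧ b * a ≠ d ∧ d ∈ B ⊔ om A by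
    obtain ⟨d, k1, k2, k3, k4⟩ := this
    intro x hx
    rcases h.v4 hD hd k1 d1 k2 k3 hx with rfl | rfl | rfl | rfl
    exacts [one_mem _, m0, k4, mul_mem m0 k4]
  obtain ⟨y, hy, d1', hne⟩ := h.oth hD (b * a)
  have hd' := h.sqo hD hy
  generalize y * y = d at *
  obtain ⟨z, hz, z2, e1, c, hc, e2, k, hk, -, rfl⟩ := h.dec hA hB hD p hd' d1'
  have k1 : b * b ≠ z * z := fun k => hne (h.inj hD hB p.db hz z2 hd' hd (by
    rw [e1, h.cms hD hB p.db hd hz hb k.symm, e0, k]))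
  obtain ⟨s, l0, l1, l2, l3⟩ := h.tor hA hB h.sq p.ab hz z2 hb b2
  have m1 := cjm l2 hz
  have m2 := h.omN hA hc l1
  have m3 : s * z * s⁻¹ * (s * z * s⁻¹) = b * z * (b * z) := by
    rw [h.sqm hB hb hz, ← h.bf hA hB p.ab hb b2 hz z2 k1 hc e2, ← (l3 c hc).1, e2]; group
  have m4 : s * c * s⁻¹ = a * c := h.inj hA hB p.ab m1 (fun e => z2 (sq_of e)) m2 (mul_mem ha hc) (by
    rw [h.cms hA hB p.ab (mul_mem ha hc) m1 (mul_mem hb hz) m3, h.ad hA hB p.ab hb b2 hz z2 ha hc e e2, ← m3]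
    calc _ = s * (z * c * z⁻¹ * c) * s⁻¹ := by group
      _ = _ := by rw [e2]; group)
  obtain ⟨v, hv, m5⟩ := h.sqe hB m1 (mul_mem hb hz) m3
  obtain ⟨w, hw, m6, -⟩ := h.es hA hB p.ab hb b2 hz z2 ha hc e e2
  have m7 : s * (z * c * k) * s⁻¹ = b * a * (z * c * k) * (w * v) := by
    have n1 := mem_centralizer_iff.1 hk _ (mem_sup_right (h.om1 hB (mul_mem hw hv)))
    have n2 := h.rc hA hB p.ab.rel (mul_mem ha hc) (mul_mem hw hv)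
    calc _ = s * z * s⁻¹ * (s * c * s⁻¹) * (s * k * s⁻¹) := by group
      _ = b * z * w * (w * v * (a * c)) * k := by
        rw [m4, m5, cc (mem_centralizer_iff.1 hk s l0)]; gsp [rI (h.om2 hB hw)]
      _ = _ := by rw [← n2, ← mul_assoc, ← m6, mul_assoc, n1]; group
  have m8 := mul_mem hd hd'
  have m9 : b * a * (z * c * k) ≠ 1 := mne (h.om2 hD hd) (Ne.symm hne)
  obtain ⟨u, hu, n1⟩ := h.e1 hD hB p.db m8 m9 (mul_mem hw hv)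
  have n2 : u⁻¹ * s ∈ 𝐍(D) := h.nrm hD (h.om1 hD hd') d1' (by
    rw [show u⁻¹ * s * (z * c * k) * (u⁻¹ * s)⁻¹ = u⁻¹ * (s * (z * c * k) * s⁻¹) * u by group, m7, ← n1]
    simpa [mul_assoc] using h.om1 hD m8)
  refine ⟨_, h.omN hD hd n2, cne d1 _, fun n3 => k1 ?_, ?_⟩
  · have n4 := (ivc (h.om2 hD hd)).2 e0
    have n5 := cjm (mul_mem (inv_mem (le_normalizer hu)) l2) hb
    have n6 : u⁻¹ * s * b * (u⁻¹ * s)⁻¹ * (u⁻¹ * s * b * (u⁻¹ * s)⁻¹) = s * (b * b) * s⁻¹ := by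
      rw [← cc (h.omm hB (h.omN hB (h.sqo hB hb) l2) (inv_mem hu)).symm]; group
    have n7 : s * (b * b) * s⁻¹ = b * b := by
      by_contra n7
      have := h.bf hD hB p.db n5 (fun e => b2 (sq_of e)) hb b2 (n6 ▸ n7) hd e0
      conv_lhs at this => rw [n3]
      rw [show u⁻¹ * s * b * (u⁻¹ * s)⁻¹ * (u⁻¹ * s * (b * a) * (u⁻¹ * s)⁻¹) * (u⁻¹ * s * b * (u⁻¹ * s)⁻¹)⁻¹ *
        (u⁻¹ * s * (b * a) * (u⁻¹ * s)⁻¹) = u⁻¹ * s * (b * (b * a) * b⁻¹ * (b * a)) * (u⁻¹ * s)⁻¹ by group, e0] at this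
      exact b2 (by simpa [mul_assoc] using this)
    obtain ⟨f, hf, n8⟩ := h.sur hA hB p.ab hz z2 (h.sqo hB hb)
    exact h.cme hA hB p.ab hf (fun k => b2 (by rw [← n8, k]; group)) hb hz (by rw [← (l3 f hf).1, n8, n7])
  · convert mul_mem (mul_mem (inv_mem (mem_sup_left hu)) (mul_mem_sup (cjm l2 hb) (h.omN hA ha l1))) (mem_sup_left hu) using 1
    group

end HF

end Cfsg.Agent.H4.TI
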