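import Cfsg.Agent.H4.TI8

/-! Abelian TI subgroups `ℤ₄ × ℤ₄`: no commuting pairs. -/

set_option autoImplicit false
set_option linter.unusedSectionVars false

namespace Cfsg.Agent.H4.TI

open Subgroup Cfsg.Agent.FT Cfsg.Agent.L0 Cfsg.Agent.H8
open Cfsg.Agent.H2.CI (cjm cjm' ea_comm ea_pgroup mem_cj' cj_mem_cj)

universe u

variable {G : Type u} [Group G] [Finite G] {Γ : Set (Subgroup G)} {A B C D E F P Q R S T X Y : Subgroup G}
  {a b c d e f g k l n s t v w x y z : G}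

namespace HF

variable (h : HF Γ) (hA : A ∈ Γ) (hB : B ∈ Γ)
include h hA hB

theorem uc (t : T2 A B) (hy : y ∈ B) (y2 : y * y ≠ 1) (hz : z ∈ B) (z2 : z * z ≠ 1) (ha : a ∈ om A)
    (e : y * a * y⁻¹ * a = y * y) (e' : z * a * z⁻¹ * a = z * z) : y * y = z * z := by
  by_contra hne
  exact z2 (left_eq_mul.1 (e.symm.trans (h.bf hA hB t hy y2 hz z2 hne ha e')))

theorem c11 (hC : C ∈ Γ) (k1 : Cm A B) (k2 : Cm C B) : Rl A C := by
  by_contra hn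
  have q : ∀ A ∈ Γ, Cm A B → om A ≤ QQ B := fun A hA k a ha => by
    obtain ⟨c, hc, rfl⟩ := h.sq A hA a ha
    exact h.sqQ hB hA (fun c hc => nrm_of_cm (k c hc)) hc
  have nA : A ≤ 𝐍(QQ B) := fun c hc => nQ (nrm_of_cm (k1 c hc))
  obtain ⟨a, ha, a1⟩ := h.omi hA
  obtain ⟨u, hu, u1⟩ := h.omi hC
  obtain ⟨D, hD, p⟩ := h.tr_of hA hC ha hu (fun e => hn (h.rl_om hA hC ha a1 hu u1 e))
    (h.two_cm (H2.CI.pgroup_sup (h.two A hA) (pgQ B) nA) hA (h.cj A hA u) le_sup_right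
      (cj_le_of_mem_normalizer (le_normalizer (mem_sup_left (q C hC k2 hu))) le_sup_right) a (h.om1 hA ha) _
      (conj_mem_cj u (h.om1 hA ha)))
  obtain ⟨l1, l2⟩ := h.eaE hA hD p.ab.rel
  have l3 : u ∈ 𝐍(om A ⊔ om D) := H9.mem_normalizer_of_conj_mem fun f hf => by
    obtain ⟨x, hx, v, hv, rfl⟩ := l2 f hf
    convert mul_mem (mul_mem (mem_sup_right (p.cm x hx u hu) : _ ∈ om A ⊔ om D) (mem_sup_left hx)) (mem_sup_right hv) using 1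
    gsp [rI (h.om2 hA hx), rC (h.rc hC hD p.db.rel hu hv).symm]
  obtain ⟨c, hc, c2⟩ := h.ne A hA
  have l4 := h.nF h.ee hA l1 le_sup_left hc
  obtain ⟨f, hf, f1, -, l5⟩ := fix (P := QQ B ⊓ 𝐍(om A ⊔ om D)) ((pgQ B).to_le inf_le_left) (ea_pgroup l1)
    (fun e => a1 (mem_bot.1 (e ▸ mem_sup_left ha))) inf_le_right
  have l6 : ∀ f ∈ om A ⊔ om D, u * f = f * u → f ∈ D := fun f hf e => by
    obtain ⟨x, hx, v, hv, rfl⟩ := l2 f hf
    obtain rfl : x = 1 := by_contra fun x1 => hn (h.rl_om hA hC hx x1 hu u1 (cc' (fxl (cc e)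
      (cc (h.rc hC hD p.db.rel hu hv)))).symm)
    simpa using h.om1 hD hv
  have l7 := l6 _ (cjm' l4 hf) (ccj' (l5 _ ⟨cjm (nA hc) (q C hC k2 hu), mul_mem (mul_mem l4 l3) (𝐍(om A ⊔ om D).inv_mem l4)⟩))
  exact c2 (h.sqA hA hD p.ab hc (inv_mem_iff.1 (h.nrm hD (l6 f hf (l5 u ⟨q C hC k2 hu, l3⟩)) f1 (by rwa [inv_inv]))))

variable (hD : D ∈ Γ) (p : GT A B D)
include hD p

theorem gd (hd : d ∈ om D) (d1 : d ≠ 1) : ∃ b ∈ B, b * b ≠ 1 ∧ ∃ a ∈ om A, b * a * b⁻¹ * a = b * b ∧ b * a = d := by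
  obtain ⟨b, hb, a, ha, rfl⟩ := h.mP hA hB p.ab (p.le hd)
  obtain ⟨c, hc, c1⟩ := h.omi hA
  refine ⟨b, hb, fun e => p.nr (h.rl_om hA hD hc c1 hd d1 ?_), a, ha, (ivc (h.om2 hA ha)).1 ?_, rfl⟩
  · gsp [rC (h.rc hA hB p.ab.rel hc (h.om3 hB hb e)), rC (h.omm hA hc (h.om1 hA ha))]
  · rw [eq_inv_iff_mul_eq_one, ie (h.om2 hA ha), ← mul_right_inj b, ← mul_left_inj b⁻¹]
    calc _ = b * a * (b * a) := by group
      _ = _ := by rw [h.om2 hD hd]; group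

theorem gd' (hb : b ∈ B) (b2 : b * b ≠ 1) (ha : a ∈ om A) (e : b * a * b⁻¹ * a = b * b) :
    ∃ v ∈ om B, b * v * a ∈ om D := by
  obtain ⟨d, hd, e1⟩ := h.exi hD hB p.db hb
  obtain ⟨z, hz, z2, c, hc, e2, rfl⟩ := h.gd hA hB hD p hd fun k => b2 (by rw [← e1, k]; group)
  have k := h.uc hD hB p.db hz z2 hb b2 hd (by gsp [rI (h.om2 hA hc)]) e1
  obtain ⟨v, hv, rfl⟩ := h.sqe hB hz hb k
  rw [h.inj hA hB p.ab hb b2 ha hc (by rw [e, h.cms hA hB p.ab hc hb hz k.symm, e2, k])]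
  exact ⟨v, hv, hd⟩

theorem gts : GT D B A := ⟨h.trs hA hB hD p.toTr, fun a ha => by
  by_cases a1 : a = 1
  · rw [a1]; exact one_mem _
  obtain ⟨b, hb, b2, e⟩ := h.exb hA hB p.ab ha a1
  obtain ⟨v, hv, k⟩ := h.gd' hA hB hD p hb b2 ha e
  simpa [mul_assoc] using mul_mem_sup (inv_mem (mul_mem hb (h.om1 hB hv))) k⟩

theorem nb (hC : C ∈ Γ) (t : T2 C B) (k : Cm A C) : A = C := by
  by_contra hne
  obtain ⟨v, hv, v1⟩ := h.omi hB
  obtain ⟨a, ha, a2⟩ := h.ne A hA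
  have k1 := fun v hv => h.cmm (a := v) hB hA h.ee p.ab.rel.symm hv ha
  obtain ⟨b, hb, b2, e⟩ := h.exb hA hB p.ab (k1 v hv) fun e => a2 (h.cm1 hB hA p.ab.symm hv v1 ha e)
  obtain ⟨m, hm, e'⟩ := h.exi hC hB t hb
  obtain ⟨c, hc, e1⟩ := h.full hB hC h.sq t.symm hv v1 hm
  have k2 : ∀ v ∈ om B, a * c * v * (a * c)⁻¹ = c * v * c⁻¹ * v * (a * v * a⁻¹ * v) * v := fun v hv => by
    calc _ = a * (c * v * c⁻¹ * v) * a⁻¹ * (a * v * a⁻¹ * v) * v := by gsp [rI (h.om2 hB hv)]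
      _ = _ := by rw [cc (k a ha _ (h.om1 hC (h.cmm hB hC h.ee t.rel.symm hv hc)))]
  have k3 := h.same hC hB hA t p.ab hb b2 hm (k1 v hv) e' e
  have hB' := h.cj B hB (a * c)
  have k4 : Cm B (H8.cj (a * c) B) := h.cm_of' hB hB' hb b2 (conj_mem_cj _ (h.om1 hB hv)) (cne v1 _) (by
    rw [k2 v hv, e1]
    exact mem_centralizer_iff.1 (mul_mem k3 (cen fun b hb => h.omm hB hv hb)) b hb)
  have k5 : B ≠ H8.cj (a * c) B := fun e2 => by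
    have l1 : a * c * v * (a * c)⁻¹ ∈ B := e2.symm ▸ conj_mem_cj _ (h.om1 hB hv)
    rw [k2 v hv, e1] at l1
    have l2 := (mul_mem_cancel_right (h.om1 hB hv)).1 l1
    have l3 := h.omm hA (k1 v hv) ha
    have l4 := k a ha m (h.om1 hC hm)
    have l5 := h.f1 hB hA p.ab.symm (h.om3 hB l2 (msq (h.om2 hC hm) (h.om2 hA (k1 v hv))
      (k _ (h.om1 hA (k1 v hv)) m (h.om1 hC hm)).symm)) ha a2 (by
        generalize a * v * a⁻¹ * v = n at *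
        gsp [rC l3.symm, rC l4])
    have l6 := h.one hA hC hne (h.om1 hA (k1 v hv)) (eq_inv_of_mul_eq_one_right l5 ▸ inv_mem (h.om1 hC hm))
    exact a2 (h.cm1 hB hA p.ab.symm hv v1 ha l6)
  obtain ⟨d, hd, d1⟩ := h.omi hD
  obtain ⟨y, hy, y2, x, hx, e2, rfl⟩ := h.gd hA hB hD p hd d1
  have l1 := h.sqo hB hy
  have l2 := h.cmm hB hC h.ee t.rel.symm l1 hc
  have l3 : a * c * x * (a * c)⁻¹ = x := by gsp [rC (k x (h.om1 hA hx) c hc).symm, rC (h.omm hA hx ha).symm]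
  have l4 : a * c * (y * x) * (a * c)⁻¹ = a * c * y * (a * c)⁻¹ * x := by
    conv_rhs => rw [← l3]
    group
  have l5 := (ivc (h.om2 hA hx)).2 e2
  have l6 : x * (a * c * y * (a * c)⁻¹) * x⁻¹ = (a * c * y * (a * c)⁻¹)⁻¹ := by
    calc _ = a * c * x * (a * c)⁻¹ * (a * c * y * (a * c)⁻¹) * (a * c * x * (a * c)⁻¹)⁻¹ := by rw [l3]
      _ = a * c * (x * y * x⁻¹) * (a * c)⁻¹ := by group
      _ = _ := by rw [l5]; group
  have l7 := k4 y hy _ (conj_mem_cj (a * c) hy)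
  have l8 := h.ee _ hB' _ (conj_mem_cj (a * c) hy)
  have l9 : a * c * y * (a * c)⁻¹ * (a * c * y * (a * c)⁻¹) * (y * y) = c * (y * y) * c⁻¹ * (y * y) *
      (a * (y * y) * a⁻¹ * (y * y)) := by
    rw [show a * c * y * (a * c)⁻¹ * (a * c * y * (a * c)⁻¹) = a * c * (y * y) * (a * c)⁻¹ by group, k2 _ l1,
      mul_assoc _ (y * y), h.om2 hB l1, mul_one]
  have m0 := l4 ▸ h.omc hD hd (a * c)
  have m1 : ∀ b ∈ B, b * (a * c * y * (a * c)⁻¹) = a * c * y * (a * c)⁻¹ * b := fun b hb => k4 b hb _ (conj_mem_cj _ hy)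
  have m2 : a * c * y * (a * c)⁻¹ * (a * c * y * (a * c)⁻¹) * (y * y) ≠ 1 := fun e => y2 (h.one hB hB' k5 (mul_mem hy hy)
    (eq_inv_of_mul_eq_one_right e ▸ inv_mem (mul_mem (conj_mem_cj _ hy) (conj_mem_cj _ hy))))
  have hD' := h.cj D hD (a * c)
  generalize a * c * y * (a * c)⁻¹ = z, H8.cj (a * c) D = D' at *
  have x2 := h.om2 hA hx
  have y4 := h.ee B hB y hy
  have m3 : z * x * (y * x) * (z * x)⁻¹ * (y * x) = z * z * (y * y) := by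
    rw [← ie y4]
    gsp [rI x2, rJ l5, rJ l6, rC l7]
  obtain ⟨F, hF, q⟩ := h.tr_of hD hD' hd m0 (fun e => m2 (by
    rw [← m3, ← e, mul_inv_cancel_right, h.om2 hD hd])) (by
      rw [m3, ← ie l8]
      gsp [rI x2, rJ l5, rJ l6, rC l7])
  have m4 := m3 ▸ q.cm _ hd _ m0
  obtain ⟨f, hf, f2⟩ := h.ne F hF
  have m5 : Cm A F := h.cm_of' hA hF ha a2 (h.om1 hF m4) m2 (by
    have n1 := k a ha _ (h.om1 hC l2)
    have n2 := h.omm hA (k1 _ l1) ha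
    rw [l9]
    generalize c * (y * y) * c⁻¹ * (y * y) = r, a * (y * y) * a⁻¹ * (y * y) = s at *
    gsp [rC n1, rC n2.symm])
  have m6 : Cm B F := h.cm_of' hB hF hy y2 (h.om1 hF m4) m2 (by gsp [rC l7])
  exact d1 (h.f1 hD hF q.ab hd hf f2 (by gsp [rC (m5 x (h.om1 hA hx) f hf).symm, rC (m6 y hy f hf).symm]))

theorem nc0 (hC : C ∈ Γ) (k : Cm C B) : C = B := by
  obtain ⟨b, hb, b2⟩ := h.ne B hB
  obtain ⟨m, -, e1, e2, -⟩ := h.mu hA hB h.sq p.ab hb b2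
  have p' := p.cj m
  rw [e1, e2] at p'
  have k1 : ∀ C ∈ Γ, Cm C B → C ≠ B → Cm A C := fun C hC k hne => by
    have k2 : ∀ C ∈ Γ, T2 A C → Cm C B → B = C := fun C hC t k => h.nb hB hA (h.cj D hD m) p' hC t.symm k.symm
    by_cases r : Rl A C
    · exact (h.tri' hA hC r).resolve_right fun t => hne (k2 C hC t k).symm
    obtain ⟨a, ha, a1⟩ := h.omi hA
    obtain ⟨u, hu, u1⟩ := h.omi hC
    have k3 := k.cjN (h.rn hA hB p.ab.rel (h.om1 hA ha) (h.om2 hA ha))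
    obtain ⟨F, hF, q⟩ := h.tr_of hC hA hu ha (fun e => r (h.rl_om hA hC ha a1 hu u1 e.symm))
      (h.rc hC (h.cj C hC a) (h.c11 hC hB (h.cj C hC a) k k3) hu (h.omc hC hu a))
    have k4 : Cm B F := h.cm_of' hB hF hb b2 (h.om1 hF (q.cm u hu a ha)) (fun e => r (h.rl_om hA hC ha a1 hu u1 (cc'
      ((eq_inv_of_mul_eq_one_left e).trans (ie (h.om2 hC hu)))))) (by
        rw [← mul_assoc, ← k3 _ (conj_mem_cj a (h.om1 hC hu)) b hb, mul_assoc, ← k u (h.om1 hC hu) b hb, ← mul_assoc])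
    exact (h.ncm hC hF q.ab (k2 F hF q.db k4.symm ▸ k)).elim
  by_contra hne
  obtain ⟨a, ha, a2⟩ := h.ne A hA
  obtain ⟨u, hu, u1⟩ := h.omi hC
  refine a2 (h.sqA hA hB p.ab ha (h.mx B hB (closure {x | ∃ C ∈ Γ, Cm C B ∧ C ≠ B ∧ x ∈ om C}) ((pgQ B).to_le
    ((closure_le _).2 ?_)) (fun e => u1 (mem_bot.1 (e ▸ subset_closure ⟨C, hC, k, hne, hu⟩)))
    (fun n hn => H9.mem_normalizer_of_conj_mem (clj ?_)) (nrm_of_cm fun x hx =>
      (mem_centralizer_singleton_iff.1 ((closure_le 𝐂[a]).2 ?_ hx)).symm)))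
  · rintro x ⟨C, hC, k, -, hx⟩
    obtain ⟨c, hc, rfl⟩ := h.sq C hC x hx
    exact h.sqQ hB hC (fun c hc => nrm_of_cm (k c hc)) hc
  · rintro x ⟨C, hC, k, hne, hx⟩
    exact subset_closure ⟨_, h.cj C hC n, k.cjN hn, fun e => hne (by
      rw [← cj_inv_cj n C, e, cj_eq_self (inv_mem hn)]), h.omc hC hx n⟩
  · rintro x ⟨C, hC, k, hne, hx⟩
    exact mem_centralizer_singleton_iff.2 (k1 C hC k hne a ha x (h.om1 hC hx)).symm

end HF

end Cfsg.Agent.H4.TI
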